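-- helper4: piece KU-CHAR for S4648 (Kuelshammer): a block of p-regular rank one all of whose
-- irreducible characters have the same degree has exactly |D| irreducible characters.
import Cfsg.Agent.Lib.Helper1.BrandtDim
import Cfsg.Agent.Lib.Helper22.Defect2
import Cfsg.Agent.Lib.Helper82.Major
import Cfsg.Agent.Lib.Helper4.Contrib3
import Cfsg.Agent.S4491
import Cfsg.Prelude.Def_BrauerPairs
import Cfsg.Prelude.Def_BlockRank

set_option autoImplicit false

namespace Cfsg.Agent.Lib.Helper4.Kuls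

open Cfsg Cfsg.Agent.Lib.Helper21 Cfsg.Agent.Lib.Helper22 Cfsg.Agent.Lib.Helper4
open scoped ComplexConjugate

/-- CHAR: if `l(B) = 1` and all irreducible characters in `B` have the same degree, then
`|D| = k(B)`. -/
theorem kuls_char {G : Type*} [Group G] [Finite G] (p : ℕ) [Fact p.Prime] (M : Ideal AlgInt)
    (hM : IsPModular p M) (B : Set (IrrCharacter G)) (hB : IsPBlock M B)
    (D : Subgroup G) (hD : IsDefectGroup p M B D) (hl : blockRank p B = 1)
    (hdeg : ∀ χ ∈ B, ∀ ψ ∈ B, charDegree (χ : G → ℂ) = charDegree (ψ : G → ℂ)) :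
    Nat.card D = Nat.card B := by
  classical
  let _ : Fintype G := Fintype.ofFinite G
  have hp := (Fact.out : p.Prime)
  have hfin := Cfsg.Agent.Lib.Helper4.irr_finite (G := G)
  let _ : Fintype (IrrCharacter G) := Fintype.ofFinite _
  have hDcard : Nat.card D = p ^ blockDefect p B :=
    Cfsg.Agent.Lib.Helper82.card_defectGroup hM B hB D hD
  have h91 := Cfsg.Agent.S4491.result p M hM B hB
  obtain ⟨χ₀, hχ₀⟩ := hB
  have hB : IsPBlock M B := ⟨χ₀, hχ₀⟩
  have hχ₀B : χ₀ ∈ B := by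
    rw [hχ₀]
    exact Cfsg.Agent.Lib.Helper79.mem_blockOf_self hM χ₀
  set Bf := Finset.univ.filter (fun θ : IrrCharacter G => θ ∈ B) with hBf
  have hmemBf : ∀ θ : IrrCharacter G, θ ∈ Bf ↔ θ ∈ B := fun θ => by
    rw [hBf, Finset.mem_filter]
    simp
  have hdeg1 : ∀ χ : IrrCharacter G, (χ : G → ℂ) 1 = (charDegree (χ : G → ℂ) : ℂ) :=
    fun χ => (Cfsg.Agent.Lib.Helper83.irr_degree χ.2).2
  have hdegpos : ∀ χ : IrrCharacter G, 0 < charDegree (χ : G → ℂ) :=
    fun χ => (Cfsg.Agent.Lib.Helper83.irr_degree χ.2).1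
  have h1reg : ¬ p ∣ orderOf (1 : G) := by
    rw [orderOf_one]
    exact hp.not_dvd_one
  have hd₀ : (charDegree (χ₀ : G → ℂ) : ℂ) ≠ 0 := by
    exact_mod_cast (hdegpos χ₀).ne'
  -- equality on the p-regular elements
  have hprop : ∀ χ ∈ B, ∀ x : G, ¬ p ∣ orderOf x → (χ : G → ℂ) x = (χ₀ : G → ℂ) x := by
    intro χ hχ x hx
    have hv₀ : pRegularPart p (χ₀ : G → ℂ) ∈ Submodule.span ℂ
        ((fun χ : IrrCharacter G => pRegularPart p (χ : G → ℂ)) '' B) :=
      Submodule.subset_span ⟨χ₀, hχ₀B, rfl⟩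
    have hv : pRegularPart p (χ : G → ℂ) ∈ Submodule.span ℂ
        ((fun χ : IrrCharacter G => pRegularPart p (χ : G → ℂ)) '' B) :=
      Submodule.subset_span ⟨χ, hχ, rfl⟩
    have hne : (⟨_, hv₀⟩ : ↥(Submodule.span ℂ
        ((fun χ : IrrCharacter G => pRegularPart p (χ : G → ℂ)) '' B))) ≠ 0 := by
      intro h
      have h1 := congrArg (fun v : ↥(Submodule.span ℂ
        ((fun χ : IrrCharacter G => pRegularPart p (χ : G → ℂ)) '' B)) => (v : G → ℂ) 1) h
      simp only [Submodule.coe_zero, Pi.zero_apply] at h1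
      rw [Cfsg.Agent.Lib.Helper84.pRegularPart_of_not_dvd p _ 1 h1reg, hdeg1] at h1
      exact hd₀ h1
    obtain ⟨c, hc⟩ := (finrank_eq_one_iff_of_nonzero' _ hne).mp hl ⟨_, hv⟩
    have hc' : c • pRegularPart p (χ₀ : G → ℂ) = pRegularPart p (χ : G → ℂ) :=
      congrArg Subtype.val hc
    have e1 := congrFun hc' 1
    have ex := congrFun hc' x
    rw [Pi.smul_apply, smul_eq_mul, Cfsg.Agent.Lib.Helper84.pRegularPart_of_not_dvd p _ _ h1reg,
      Cfsg.Agent.Lib.Helper84.pRegularPart_of_not_dvd p _ _ h1reg, hdeg1, hdeg1,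
      hdeg χ hχ χ₀ hχ₀B] at e1
    rw [Pi.smul_apply, smul_eq_mul, Cfsg.Agent.Lib.Helper84.pRegularPart_of_not_dvd p _ _ hx,
      Cfsg.Agent.Lib.Helper84.pRegularPart_of_not_dvd p _ _ hx] at ex
    have hc1 : c = 1 := by
      have e2 : c * (charDegree (χ₀ : G → ℂ) : ℂ) = 1 * (charDegree (χ₀ : G → ℂ) : ℂ) := by
        rw [e1, one_mul]
      exact mul_right_cancel₀ hd₀ e2
    rw [← ex, hc1, one_mul]
  set a := (Nat.card G).factorization p with ha_def
  set m := Nat.card G / p ^ a with hm_def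
  have hm0 : (m : ℂ) ≠ 0 := by exact_mod_cast (card_pprime_pos (G := G) p).ne'
  -- the contributions within the block are all equal
  have hctr : ∀ θ ∈ B, ctr p χ₀ θ = ctr p χ₀ χ₀ := by
    intro θ hθ
    have h1 := ctr_mul p χ₀ θ
    have h2 := ctr_mul p χ₀ χ₀
    have h3 : ∑ g : G, (if p ∣ orderOf g then 0 else (χ₀ : G → ℂ) g * conj ((θ : G → ℂ) g)) =
        ∑ g : G, (if p ∣ orderOf g then 0 else (χ₀ : G → ℂ) g * conj ((χ₀ : G → ℂ) g)) := by
      apply Finset.sum_congr rfl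
      intro g _
      by_cases h : p ∣ orderOf g
      · rw [if_pos h, if_pos h]
      · rw [if_neg h, if_neg h, hprop θ hθ g h]
    rw [h3, ← h2] at h1
    have h4 := mul_right_cancel₀ hm0 h1
    exact_mod_cast h4
  set c := ctr p χ₀ χ₀ with hc_def
  have hcpos : 0 < c := ctr_self_pos p χ₀
  have hpar := ctr_parseval p χ₀
  have hsum : ∑ θ : IrrCharacter G, ctr p χ₀ θ ^ 2 = (Bf.card : ℤ) * c ^ 2 := by
    have e1 : ∑ θ : IrrCharacter G, ctr p χ₀ θ ^ 2 =
        ∑ θ : IrrCharacter G, (if θ ∈ B then c ^ 2 else 0) := by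
      apply Finset.sum_congr rfl
      intro θ _
      by_cases h : θ ∈ B
      · rw [if_pos h, hctr θ h]
      · rw [if_neg h, ctr_eq_zero p M hM B hB χ₀ hχ₀B θ h]
        ring
    rw [e1, ← Finset.sum_filter, Finset.sum_const, nsmul_eq_mul]
  rw [hsum] at hpar
  have hkc : (Bf.card : ℤ) * c = ((p ^ a : ℕ) : ℤ) := by
    have e2 : (Bf.card : ℤ) * c * c = ((p ^ a : ℕ) : ℤ) * c := by
      rw [← hpar]; ring
    exact mul_right_cancel₀ hcpos.ne' e2
  have hcardB : Nat.card B = Bf.card := by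
    rw [Nat.card_eq_fintype_card, hBf]
    exact Fintype.card_subtype _
  -- `k` is a power of `p`
  have hkdvd : Bf.card ∣ p ^ a := by
    have h1 : (Bf.card : ℤ) ∣ ((p ^ a : ℕ) : ℤ) := ⟨c, hkc.symm⟩
    exact_mod_cast h1
  obtain ⟨j, hja, hj⟩ := (Nat.dvd_prime_pow hp).mp hkdvd
  -- the degrees
  set n := charDegree (χ₀ : G → ℂ) with hn_def
  have hnpos : 0 < n := hdegpos χ₀
  have hfs : ∑ᶠ χ ∈ B, charDegree (χ : G → ℂ) ^ 2 = Bf.card * n ^ 2 := by
    rw [Cfsg.Agent.Lib.Helper79.finsum_mem_eq_sum_filter_univ]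
    have e1 : ∑ χ ∈ Finset.univ.filter (fun θ : IrrCharacter G => θ ∈ B),
        charDegree (χ : G → ℂ) ^ 2 = ∑ χ ∈ Bf, n ^ 2 := by
      apply Finset.sum_congr rfl
      intro χ hχ
      rw [hdeg χ ((hmemBf χ).mp hχ) χ₀ hχ₀B]
    rw [e1, Finset.sum_const, smul_eq_mul]
  have hdef : blockDefect p B = a - n.factorization p := by
    unfold blockDefect
    congr 1
    have himg : (fun χ : IrrCharacter G => (charDegree (χ : G → ℂ)).factorization p) '' B =
        {n.factorization p} := by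
      ext v
      constructor
      · rintro ⟨χ, hχ, rfl⟩
        show (charDegree (χ : G → ℂ)).factorization p ∈ ({n.factorization p} : Set ℕ)
        rw [hdeg χ hχ χ₀ hχ₀B]
        exact Set.mem_singleton _
      · intro hv
        rw [Set.mem_singleton_iff] at hv
        exact ⟨χ₀, hχ₀B, hv.symm⟩
    rw [himg, csInf_singleton]
  have hnle : n.factorization p ≤ a := by
    have hdvd : n ∣ Nat.card G := Cfsg.Agent.Lib.Helper83.irr_degree_dvd_card χ₀
    exact (Nat.factorization_le_iff_dvd hnpos.ne' Nat.card_pos.ne').mpr hdvd p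
  rw [hfs, hj, Nat.factorization_mul (pow_ne_zero _ hp.ne_zero) (pow_ne_zero _ hnpos.ne'),
    Nat.factorization_pow, Nat.factorization_pow, hp.factorization] at h91
  simp only [Finsupp.add_apply, Finsupp.smul_apply, smul_eq_mul, Finsupp.single_apply,
    if_true] at h91
  have hjd : j = blockDefect p B := by omega
  rw [hDcard, hcardB, hj, hjd]

end Cfsg.Agent.Lib.Helper4.Kuls
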