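import Cfsg.Agent.Lib.Helper10.LC0

set_option autoImplicit false

namespace Cfsg.Agent.Lib.Helper4.LCA3

open Matrix Cfsg.Agent.Lib.Helper10.LC

/-- Reduction of an integer vector modulo 2. -/
def cls (x : Fin 24 → ℤ) : Fin 24 → ZMod 2 := fun i => (x i : ZMod 2)

theorem cls_eq_iff (x y : Fin 24 → ℤ) :
    cls x = cls y ↔ ∃ z : Fin 24 → ℤ, x - y = (2 : ℤ) • z := by
  constructor
  · intro h
    have h2 : ∀ i, (2 : ℤ) ∣ x i - y i := by
      intro i
      have h1 := congrFun h i
      simp only [cls] at h1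
      have h3 := (ZMod.intCast_eq_intCast_iff_dvd_sub (y i) (x i) 2).1 h1.symm
      simpa using h3
    refine ⟨fun i => (x i - y i) / 2, ?_⟩
    funext i
    simp only [Pi.sub_apply, Pi.smul_apply, smul_eq_mul]
    obtain ⟨k, hk⟩ := h2 i
    rw [hk]
    simp
  · rintro ⟨z, hz⟩
    funext i
    have h1 := congrFun hz i
    simp only [Pi.sub_apply, Pi.smul_apply, smul_eq_mul] at h1
    simp only [cls]
    have h3 : x i = y i + 2 * z i := by linarith
    rw [h3]
    push_cast
    have h2 : (2 : ZMod 2) = 0 := rfl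
    rw [h2]
    ring

/-- PIECE A3 : every class modulo 2 of vectors with `qf = 8` has exactly 48 elements. -/
theorem class_card {B : Matrix (Fin 24) (Fin 24) ℤ} (hB : Hyp B)
    (hsp : ∀ x y z : Fin 24 → ℤ, qf B x ≤ 8 → qf B y ≤ 8 → x - y = (2 : ℤ) • z → x ≠ y → x ≠ -y →
      qf B x = 8 ∧ qf B y = 8 ∧ bf B x y = 0)
    (hle : ∀ x : Fin 24 → ℤ, qf B x = 8 →
      {y : Fin 24 → ℤ | qf B y = 8 ∧ ∃ z : Fin 24 → ℤ, x - y = (2 : ℤ) • z}.ncard ≤ 48)
    (x : Fin 24 → ℤ) (hx : qf B x = 8) :
    {y : Fin 24 → ℤ | qf B y = 8 ∧ ∃ z : Fin 24 → ℤ, x - y = (2 : ℤ) • z}.ncard = 48 := by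
  classical
  have hf4 : {x : Fin 24 → ℤ | qf B x = 4}.Finite :=
    Set.finite_of_ncard_ne_zero (by rw [hB.c4]; norm_num)
  have hf6 : {x : Fin 24 → ℤ | qf B x = 6}.Finite :=
    Set.finite_of_ncard_ne_zero (by rw [hB.c6]; norm_num)
  have hf8 : {x : Fin 24 → ℤ | qf B x = 8}.Finite :=
    Set.finite_of_ncard_ne_zero (by rw [hB.c8]; norm_num)
  have hm4 : ∀ y, y ∈ hf4.toFinset ↔ qf B y = 4 := fun y => by simp
  have hm6 : ∀ y, y ∈ hf6.toFinset ↔ qf B y = 6 := fun y => by simp
  have hm8 : ∀ y, y ∈ hf8.toFinset ↔ qf B y = 8 := fun y => by simp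
  have hc4 : hf4.toFinset.card = 196560 := by
    rw [← hB.c4, Set.ncard_eq_toFinset_card _ hf4]
  have hc6 : hf6.toFinset.card = 16773120 := by
    rw [← hB.c6, Set.ncard_eq_toFinset_card _ hf6]
  have hc8 : hf8.toFinset.card = 398034000 := by
    rw [← hB.c8, Set.ncard_eq_toFinset_card _ hf8]
  generalize hT4 : hf4.toFinset = T4 at hm4 hc4
  generalize hT6 : hf6.toFinset = T6 at hm6 hc6
  generalize hT8 : hf8.toFinset = T8 at hm8 hc8
  have hdisj : Disjoint T4 T6 := by
    rw [Finset.disjoint_left]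
    intro y h4 h6
    rw [hm4] at h4
    rw [hm6] at h6
    omega
  have hUcard : (T4 ∪ T6).card = 16969680 := by
    rw [Finset.card_union_of_disjoint hdisj, hc4, hc6]
  have hmU : ∀ y ∈ T4 ∪ T6, qf B y = 4 ∨ qf B y = 6 := by
    intro y hy
    rcases Finset.mem_union.1 hy with h | h
    · exact Or.inl ((hm4 y).1 h)
    · exact Or.inr ((hm6 y).1 h)
  -- the fibres on `T4 ∪ T6` have at most two elements
  have hUfib : ∀ κ ∈ (T4 ∪ T6).image cls,
      ((T4 ∪ T6).filter (fun y => cls y = κ)).card ≤ 2 := by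
    intro κ hκ
    obtain ⟨a, haU, rfl⟩ := Finset.mem_image.1 hκ
    have hsub : (T4 ∪ T6).filter (fun y => cls y = cls a) ⊆ {a, -a} := by
      intro y hy
      rw [Finset.mem_filter] at hy
      obtain ⟨hyU, hycls⟩ := hy
      obtain ⟨z, hz⟩ := (cls_eq_iff y a).1 hycls
      by_contra hne
      simp only [Finset.mem_insert, Finset.mem_singleton, not_or] at hne
      have hqy := hmU y hyU
      have hqa := hmU a haU
      have h := hsp y a z (by rcases hqy with h | h <;> omega)
        (by rcases hqa with h | h <;> omega) hz hne.1 hne.2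
      rcases hqy with h' | h' <;> omega
    exact (Finset.card_le_card hsub).trans Finset.card_le_two
  have hUimg : 8484840 ≤ ((T4 ∪ T6).image cls).card := by
    have h := Finset.card_le_mul_card_image (T4 ∪ T6) 2 hUfib
    omega
  -- the zero class is not hit
  have hzero : ∀ y, (qf B y = 4 ∨ qf B y = 6 ∨ qf B y = 8) → cls y ≠ 0 := by
    intro y hy h0
    have hc : cls y = cls 0 := by
      rw [h0]
      funext i
      simp [cls]
    obtain ⟨z, hz⟩ := (cls_eq_iff y 0).1 hc
    rw [sub_zero] at hz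
    have hz0 : z ≠ 0 := by
      rintro rfl
      rw [smul_zero] at hz
      rw [hz, qf_zero] at hy
      omega
    have h4 := qf_ge_four hB hz0
    rw [hz, qf_smul] at hy
    norm_num at hy
    omega
  -- the two images are disjoint
  have hdisj2 : Disjoint ((T4 ∪ T6).image cls) (T8.image cls) := by
    rw [Finset.disjoint_left]
    intro κ h1 h2
    obtain ⟨a, haU, rfl⟩ := Finset.mem_image.1 h1
    obtain ⟨b, hb8, hab⟩ := Finset.mem_image.1 h2
    obtain ⟨z, hz⟩ := (cls_eq_iff b a).1 hab
    have hqa := hmU a haU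
    have hqb := (hm8 b).1 hb8
    have hne1 : b ≠ a := by
      rintro rfl
      rcases hqa with h | h <;> omega
    have hne2 : b ≠ -a := by
      rintro rfl
      rw [qf_neg] at hqb
      rcases hqa with h | h <;> omega
    have h := hsp b a z (by omega) (by rcases hqa with h | h <;> omega) hz hne1 hne2
    rcases hqa with h' | h' <;> omega
  have hT8img : (T8.image cls).card ≤ 8292375 := by
    have h0U : (0 : Fin 24 → ZMod 2) ∉ (T4 ∪ T6).image cls := by
      intro h
      obtain ⟨a, haU, ha0⟩ := Finset.mem_image.1 h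
      refine hzero a ?_ ha0
      rcases hmU a haU with h | h
      · exact Or.inl h
      · exact Or.inr (Or.inl h)
    have h0T : (0 : Fin 24 → ZMod 2) ∉ T8.image cls := by
      intro h
      obtain ⟨a, ha8, ha0⟩ := Finset.mem_image.1 h
      exact hzero a (Or.inr (Or.inr ((hm8 a).1 ha8))) ha0
    have hsub : insert 0 ((T4 ∪ T6).image cls ∪ T8.image cls) ⊆
        (Finset.univ : Finset (Fin 24 → ZMod 2)) := Finset.subset_univ _
    have hcard := Finset.card_le_card hsub
    have hnot : (0 : Fin 24 → ZMod 2) ∉ (T4 ∪ T6).image cls ∪ T8.image cls := by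
      rw [Finset.mem_union]
      exact fun h => h.elim h0U h0T
    rw [Finset.card_insert_of_notMem hnot, Finset.card_union_of_disjoint hdisj2,
      Finset.card_univ] at hcard
    have hW : Fintype.card (Fin 24 → ZMod 2) = 16777216 := by
      simp [ZMod.card]
    omega
  -- the fibres inside `T8`
  have hfib : ∀ a, ((T8.filter (fun y => cls y = cls a)).card =
      {y : Fin 24 → ℤ | qf B y = 8 ∧ ∃ z : Fin 24 → ℤ, a - y = (2 : ℤ) • z}.ncard) := by
    intro a
    rw [← Set.ncard_coe_finset]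
    congr 1
    ext y
    simp only [Finset.coe_filter, Set.mem_ofPred_eq, hm8]
    rw [eq_comm (a := cls y), cls_eq_iff]
  have hfible : ∀ κ ∈ T8.image cls, (T8.filter (fun y => cls y = κ)).card ≤ 48 := by
    intro κ hκ
    obtain ⟨a, ha8, rfl⟩ := Finset.mem_image.1 hκ
    rw [hfib a]
    exact hle a ((hm8 a).1 ha8)
  have hsum : T8.card = ∑ κ ∈ T8.image cls, (T8.filter (fun y => cls y = κ)).card :=
    Finset.card_eq_sum_card_image cls T8
  rw [← hfib x]
  by_contra hne
  have hxT : x ∈ T8 := (hm8 x).2 hx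
  have hxI : cls x ∈ T8.image cls := Finset.mem_image_of_mem cls hxT
  have hlt : (T8.filter (fun y => cls y = cls x)).card ≤ 47 := by
    have := hfible _ hxI
    omega
  rw [← Finset.add_sum_erase _ _ hxI] at hsum
  have h2 : ∑ κ ∈ (T8.image cls).erase (cls x), (T8.filter (fun y => cls y = κ)).card ≤
      ((T8.image cls).erase (cls x)).card * 48 := by
    have := Finset.sum_le_card_nsmul ((T8.image cls).erase (cls x))
      (fun κ => (T8.filter (fun y => cls y = κ)).card) 48
      (fun κ hκ => hfible κ (Finset.mem_of_mem_erase hκ))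
    simpa [smul_eq_mul] using this
  rw [Finset.card_erase_of_mem hxI] at h2
  have hpos : 1 ≤ (T8.image cls).card := Finset.card_pos.2 ⟨_, hxI⟩
  omega

end Cfsg.Agent.Lib.Helper4.LCA3
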