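-- helper4: piece ANISOEQ for S2674 (helper47): any two anisotropic monic binary quadratic forms
-- over a finite field are equivalent; existence of one.
import Cfsg.Agent.Lib.Helper47.QuadDefs

set_option autoImplicit false

namespace Cfsg.Agent.Lib.Helper4.Quad

open Cfsg.Agent.Lib.Helper47

theorem exists_aniso_vec_odd {F : Type*} [Field F] [Fintype F] (h2 : (2 : F) ≠ 0)
    (a c a' c' : F) (h : IsAniso a c) (h' : IsAniso a' c') :
    ∃ w₁ w₂ : F, 2 * w₁ + a * w₂ = a' ∧ w₁ ^ 2 + a * w₁ * w₂ + c * w₂ ^ 2 = c' := by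
  have hF : ringChar F ≠ 2 := by
    intro hc
    apply h2
    have := CharP.cast_eq_zero F (ringChar F)
    rw [hc] at this
    exact_mod_cast this
  have hns : ∀ a c : F, IsAniso a c → ¬ IsSquare (a ^ 2 - 4 * c) := by
    rintro a c h ⟨d, hd⟩
    have := h (d - a) 2 (by linear_combination -hd)
    exact h2 this.2
  have hD := hns a c h
  have hD' := hns a' c' h'
  have hD0 : a ^ 2 - 4 * c ≠ 0 := fun h0 => hD (by rw [h0]; exact ⟨0, by simp⟩)
  have hD'0 : a' ^ 2 - 4 * c' ≠ 0 := fun h0 => hD' (by rw [h0]; exact ⟨0, by simp⟩)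
  have hp : (a ^ 2 - 4 * c) ^ (Fintype.card F / 2) = -1 :=
    (FiniteField.pow_dichotomy hF hD0).resolve_left
      (fun h1 => hD ((FiniteField.isSquare_iff hF hD0).mpr h1))
  have hp' : (a' ^ 2 - 4 * c') ^ (Fintype.card F / 2) = -1 :=
    (FiniteField.pow_dichotomy hF hD'0).resolve_left
      (fun h1 => hD' ((FiniteField.isSquare_iff hF hD'0).mpr h1))
  have hsq : IsSquare ((a' ^ 2 - 4 * c') / (a ^ 2 - 4 * c)) := by
    rw [FiniteField.isSquare_iff hF (div_ne_zero hD'0 hD0), div_pow, hp, hp']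
    simp
  obtain ⟨s, hs⟩ := hsq
  have hDs : (a ^ 2 - 4 * c) * (s * s) = a' ^ 2 - 4 * c' := by
    rw [← hs]
    field_simp
  refine ⟨(a' - a * s) / 2, s, by field_simp; ring, ?_⟩
  field_simp
  linear_combination -hDs

theorem exists_aniso_vec_even {F : Type*} [Field F] [Fintype F] (h2 : (2 : F) = 0)
    (a c a' c' : F) (h : IsAniso a c) (h' : IsAniso a' c') :
    ∃ w₁ w₂ : F, 2 * w₁ + a * w₂ = a' ∧ w₁ ^ 2 + a * w₁ * w₂ + c * w₂ ^ 2 = c' := by
  have hdbl : ∀ x : F, x + x = 0 := fun x => by rw [← two_mul, h2, zero_mul]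
  have hF : ringChar F = 2 :=
    CharP.ringChar_of_prime_eq_zero Nat.prime_two (by exact_mod_cast h2)
  have ha0 : ∀ a c : F, IsAniso a c → a ≠ 0 := by
    intro a c h ha
    subst ha
    obtain ⟨r, hr⟩ := FiniteField.isSquare_of_char_two hF c
    have := h r 1 (by rw [hr]; linear_combination hdbl (r * r))
    exact one_ne_zero this.2
  let ℘ : F →+ F := AddMonoidHom.mk' (fun s => s ^ 2 + s) (by
    intro x y
    linear_combination (x * y) * h2)
  have h℘ : ∀ s : F, ℘ s = s ^ 2 + s := fun _ => rfl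
  have hker : Nat.card ℘.ker = 2 := by
    rw [Nat.card_eq_two_iff]
    have m0 : (0 : F) ∈ ℘.ker := by
      rw [AddMonoidHom.mem_ker, h℘]; ring
    have m1 : (1 : F) ∈ ℘.ker := by
      rw [AddMonoidHom.mem_ker, h℘]
      linear_combination hdbl 1
    refine ⟨⟨0, m0⟩, ⟨1, m1⟩, ?_, ?_⟩
    · intro h01
      exact zero_ne_one (congrArg Subtype.val h01)
    · ext ⟨s, hs⟩
      simp only [Set.mem_univ, iff_true, Set.mem_insert_iff, Set.mem_singleton_iff,
        Subtype.mk.injEq]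
      rw [AddMonoidHom.mem_ker, h℘] at hs
      have h3 : s * (s + 1) = 0 := by linear_combination hs
      rcases mul_eq_zero.mp h3 with h4 | h4
      · exact Or.inl h4
      · right
        linear_combination h4 - hdbl 1
  have hidx : ℘.range.index = 2 := by
    rw [AddSubgroup.index_range, hker]
  have hnot : ∀ a c : F, IsAniso a c → c / a ^ 2 ∉ ℘.range := by
    rintro a c h ⟨s, hs⟩
    have ha := ha0 a c h
    rw [h℘] at hs
    have e : a ^ 2 * (s ^ 2 + s) = c := by
      rw [hs]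
      field_simp
    have := h (a * s) 1 (by linear_combination e + hdbl c)
    exact one_ne_zero this.2
  have ha := ha0 a c h
  have ha' := ha0 a' c' h'
  have key : c / a ^ 2 + c' / a' ^ 2 ∈ ℘.range :=
    (AddSubgroup.add_mem_iff_of_index_two hidx).mpr (iff_of_false (hnot a c h) (hnot a' c' h'))
  obtain ⟨s, hs⟩ := key
  rw [h℘] at hs
  refine ⟨a' * s, a' / a, ?_, ?_⟩
  · rw [h2, zero_mul, zero_add]
    field_simp
  · have e1 : a' ^ 2 * (s ^ 2 + s) = c * a' ^ 2 / a ^ 2 + c' := by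
      rw [hs]
      field_simp
    have e2 : (a' * s) ^ 2 + a * (a' * s) * (a' / a) + c * (a' / a) ^ 2 =
        a' ^ 2 * (s ^ 2 + s) + c * a' ^ 2 / a ^ 2 := by
      field_simp
    rw [e2, e1]
    linear_combination hdbl (c * a' ^ 2 / a ^ 2)

/-- ANISOEQ, first part -/
theorem exists_aniso_vec {F : Type*} [Field F] [Fintype F] (a c a' c' : F) (h : IsAniso a c)
    (h' : IsAniso a' c') :
    ∃ w₁ w₂ : F, 2 * w₁ + a * w₂ = a' ∧ w₁ ^ 2 + a * w₁ * w₂ + c * w₂ ^ 2 = c' := by
  by_cases h2 : (2 : F) = 0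
  · exact exists_aniso_vec_even h2 a c a' c' h h'
  · exact exists_aniso_vec_odd h2 a c a' c' h h'

/-- ANISOEQ, second part -/
theorem exists_isAniso {F : Type*} [Field F] [Fintype F] : ∃ a c : F, IsAniso a c := by
  have hninj : ¬ Function.Injective (fun z : F => z ^ 2 - z) := by
    intro hinj
    have := hinj (a₁ := 0) (a₂ := 1) (by simp)
    exact zero_ne_one this
  have hnsurj : ¬ Function.Surjective (fun z : F => z ^ 2 - z) := fun hs =>
    hninj (Finite.injective_iff_surjective.mpr hs)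
  obtain ⟨e, he⟩ := not_forall.mp hnsurj
  refine ⟨-1, -e, ?_⟩
  intro z₁ z₂ hz
  by_cases hz2 : z₂ = 0
  · subst hz2
    refine ⟨?_, rfl⟩
    have : z₁ ^ 2 = 0 := by linear_combination hz
    exact pow_eq_zero_iff (two_ne_zero) |>.mp this
  · exfalso
    apply he
    refine ⟨z₁ / z₂, ?_⟩
    show (z₁ / z₂) ^ 2 - z₁ / z₂ = e
    field_simp
    linear_combination hz

end Cfsg.Agent.Lib.Helper4.Quad
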