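import Mathlib
import Cfsg.Agent.Lib.Helper82.TGModDefs
import Cfsg.Agent.Lib.Helper82.CharCore
import Cfsg.Agent.Lib.Helper83.TGORTH

/-!
# TG-MOD piece CRK: ranks of the block idempotent matrices of an irreducible character over `ℂ`
-/

set_option autoImplicit false

namespace Cfsg.Agent.Lib.Helper4.TGM

open Cfsg

/-- the rank of an idempotent complex matrix is its trace -/
theorem h4_rank_of_idem {n : Type*} [Fintype n] [DecidableEq n] (P : Matrix n n ℂ)
    (hP : P * P = P) : (P.rank : ℂ) = P.trace := by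
  have hidem : IsIdempotentElem (Matrix.toLin' P) := by
    unfold IsIdempotentElem
    rw [Module.End.mul_eq_comp, ← Matrix.toLin'_mul, hP]
  have htr := (LinearMap.IsIdempotentElem.isProj_range _ hidem).trace
  rw [Matrix.trace_toLin'_eq] at htr
  rw [htr]
  rfl

/-- PIECE CRK (complex characters): ranks of the block idempotent matrices over ℂ. -/
theorem crk {H : Type*} [Group H] [Fintype H] [DecidableEq H] (ξ : IrrCharacter H) :
    (Matrix.of (fun g y : H => (ξ : H → ℂ) (y * g⁻¹))).rank = charDegree (ξ : H → ℂ) ^ 2 ∧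
    ((Nat.card H : ℂ) • (1 : Matrix H H ℂ) -
      (charDegree (ξ : H → ℂ) : ℂ) • Matrix.of (fun g y : H => (ξ : H → ℂ) (y * g⁻¹))).rank =
        Nat.card H - charDegree (ξ : H → ℂ) ^ 2 := by
  classical
  obtain ⟨hd1, hd0⟩ := Cfsg.Agent.Lib.Helper82.irr_charDegree ξ
  set d : ℕ := charDegree (ξ : H → ℂ) with hd
  set M : Matrix H H ℂ := Matrix.of (fun g y : H => (ξ : H → ℂ) (y * g⁻¹)) with hM
  have hdC : (d : ℂ) ≠ 0 := by exact_mod_cast hd0
  have hH : (Nat.card H : ℂ) ≠ 0 := by exact_mod_cast (Nat.card_pos (α := H)).ne'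
  have hMM : M * M = ((Nat.card H : ℂ) / d) • M := by
    ext g z
    simp only [Matrix.mul_apply, hM, Matrix.of_apply, Matrix.smul_apply, smul_eq_mul]
    have h1 := Cfsg.Agent.Lib.Helper83.TG.irr_conv ξ (z * g⁻¹)
    rw [← hd1] at h1
    rw [← h1]
    apply Fintype.sum_equiv (Equiv.mulRight z⁻¹)
    intro y
    simp only [Equiv.coe_mulRight]
    have e1 : (y * z⁻¹)⁻¹ = z * y⁻¹ := by group
    have e2 : y * z⁻¹ * (z * g⁻¹) = y * g⁻¹ := by group
    rw [e1, e2, mul_comm]
  have htrM : M.trace = (Nat.card H : ℂ) * d := by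
    simp only [Matrix.trace, Matrix.diag, hM, Matrix.of_apply, mul_inv_cancel]
    rw [Finset.sum_const, Finset.card_univ, ← hd1, Nat.card_eq_fintype_card]
    simp
  set P : Matrix H H ℂ := ((d : ℂ) / (Nat.card H : ℂ)) • M with hP
  have hPP : P * P = P := by
    rw [hP, Matrix.smul_mul, Matrix.mul_smul, hMM, smul_smul, smul_smul]
    congr 1
    field_simp
  have htrP : P.trace = ((d ^ 2 : ℕ) : ℂ) := by
    rw [hP, Matrix.trace_smul, htrM, smul_eq_mul]
    push_cast
    field_simp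
  have hc : ((d : ℂ) / (Nat.card H : ℂ)) ∈ nonZeroDivisors ℂ :=
    mem_nonZeroDivisors_of_ne_zero (div_ne_zero hdC hH)
  have hrP : P.rank = d ^ 2 := by
    have := h4_rank_of_idem P hPP
    rw [htrP] at this
    exact_mod_cast this
  have hrM : M.rank = d ^ 2 := by
    rw [← hrP, hP, Matrix.rank_smul_of_mem_nonZeroDivisors M hc]
  refine ⟨hrM, ?_⟩
  have hQ : (1 - P) * (1 - P) = 1 - P := by
    rw [Matrix.mul_sub, Matrix.sub_mul, Matrix.sub_mul, Matrix.one_mul, Matrix.mul_one,
      Matrix.one_mul, hPP]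
    abel
  have hN : (Nat.card H : ℂ) • (1 : Matrix H H ℂ) - (d : ℂ) • M
      = (Nat.card H : ℂ) • (1 - P) := by
    rw [hP, smul_sub, smul_smul]
    congr 2
    field_simp
  rw [hN, Matrix.rank_smul_of_mem_nonZeroDivisors _ (mem_nonZeroDivisors_of_ne_zero hH)]
  have h2 := h4_rank_of_idem (1 - P) hQ
  rw [Matrix.trace_sub, Matrix.trace_one, htrP, ← Nat.card_eq_fintype_card] at h2
  have h3 : (1 - P).rank + d ^ 2 = Nat.card H := by
    have : (((1 - P).rank + d ^ 2 : ℕ) : ℂ) = (Nat.card H : ℂ) := by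
      push_cast
      rw [h2]
      push_cast
      ring
    exact_mod_cast this
  omega

end Cfsg.Agent.Lib.Helper4.TGM
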