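import Mathlib
import Cfsg.Agent.Lib.Helper4.CharDecomp
import Cfsg.Agent.Lib.Helper4.Eigen
import Cfsg.Agent.Lib.Helper82.CharCore
import Cfsg.Agent.Lib.Helper83.IrrBasic
import Cfsg.Agent.Lib.Helper92.DOCL5

/-!
# DG project (general blocks of defect one), piece KIRR

The restriction to `K` (the `p`-regular elements of `C = C_G(P) = P × K`) of an irreducible
character of `C` with `P` in its kernel is irreducible.
-/

set_option autoImplicit false
set_option linter.style.haveILetI false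

namespace Cfsg.Agent.Lib.Helper4.DG

open Cfsg
open scoped ComplexConjugate

/-- an element of `C_G(P)` of order dividing `p` lies in the Sylow `p`-subgroup `P` -/
theorem h4_mem_sylow_of_pow {G : Type*} [Group G] [Finite G] (p : ℕ) [Fact p.Prime]
    (P : Sylow p G) (x : G) (hx : x ∈ Subgroup.centralizer ((P : Subgroup G) : Set G))
    (hxp : x ^ p = 1) : x ∈ (P : Subgroup G) := by
  have hS : IsPGroup p (Subgroup.zpowers x) := by
    rintro ⟨w, hw⟩
    obtain ⟨k, rfl⟩ := Subgroup.mem_zpowers_iff.1 hw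
    refine ⟨1, ?_⟩
    apply Subtype.ext
    show (x ^ k) ^ (p ^ 1) = 1
    rw [pow_one, ← zpow_natCast, ← zpow_mul, mul_comm, zpow_mul, zpow_natCast, hxp, one_zpow]
  have hle : Subgroup.zpowers x ≤ Subgroup.normalizer ((P : Subgroup G) : Set G) := by
    rw [Subgroup.zpowers_le]
    exact Subgroup.centralizer_le_normalizer _ hx
  have h1 := IsPGroup.to_sup_of_normal_left' P.isPGroup' hS hle
  have h2 := P.is_maximal' h1 le_sup_left
  have h3 : Subgroup.zpowers x ≤ (P : Subgroup G) := by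
    rw [← h2]; exact le_sup_right
  exact h3 (Subgroup.mem_zpowers x)

/-- every element is the product of a power of order dividing `p` and a power of order dividing
`m`, when `|G| = p m` with `p`, `m` coprime -/
theorem h4_split {G : Type*} [Group G] [Finite G] (p m : ℕ) (hcop : Nat.Coprime p m)
    (hcard : Nat.card G = p * m) (c : G) :
    ∃ A B : ℤ, c = c ^ (m * B) * c ^ (p * A) ∧ (c ^ (m * B)) ^ p = 1 ∧ (c ^ (p * A)) ^ m = 1 := by
  have hb : (1 : ℤ) = p * Nat.gcdA p m + m * Nat.gcdB p m := by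
    have := Nat.gcd_eq_gcd_ab p m
    rw [hcop.gcd_eq_one] at this
    exact_mod_cast this
  have hcg : c ^ ((p : ℤ) * m) = 1 := by
    have h1 : c ^ (p * m) = 1 := by rw [← hcard]; exact pow_card_eq_one'
    rw [← h1, ← zpow_natCast]
    push_cast
    rfl
  refine ⟨Nat.gcdA p m, Nat.gcdB p m, ?_, ?_, ?_⟩
  · rw [← zpow_add]
    conv_lhs => rw [← zpow_one c]
    congr 1
    rw [hb]; ring
  · rw [← zpow_natCast, ← zpow_mul]
    have e : (m : ℤ) * Nat.gcdB p m * (p : ℤ) = (p : ℤ) * m * Nat.gcdB p m := by ring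
    rw [e, zpow_mul, hcg, one_zpow]
  · rw [← zpow_natCast, ← zpow_mul]
    have e : (p : ℤ) * Nat.gcdA p m * (m : ℤ) = (p : ℤ) * m * Nat.gcdA p m := by ring
    rw [e, zpow_mul, hcg, one_zpow]

/-- auxiliary form of KIRR with the centralizer abstracted -/
theorem h4_exists_thetaK_aux {G : Type*} [Group G] [Fintype G] (p : ℕ) [Fact p.Prime]
    (P : Sylow p G) (hP : Nat.card P = p)
    (z : G) (hz : z ∈ (P : Subgroup G)) (hz1 : z ≠ 1)
    (K : Subgroup G) (hK : ∀ y : G, y ∈ K ↔ (y * z = z * y ∧ ¬ p ∣ orderOf y))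
    (C : Subgroup G) (hCdef : C = Subgroup.centralizer ((P : Subgroup G) : Set G))
    (θ : IrrCharacter C)
    (hθP : ∀ x : C, (x : G) ∈ (P : Subgroup G) → θ.1 x = θ.1 1) :
    ∃ θK : IrrCharacter K, ∀ (y : K) (hy : (y : G) ∈ C), θK.1 y = θ.1 ⟨(y : G), hy⟩ := by
  classical
  have hp := (Fact.out : p.Prime)
  have hzo : orderOf z = p := Cfsg.Agent.Lib.Helper92.DO.cf_order p P hP z hz hz1
  have hPz : (P : Subgroup G) = Subgroup.zpowers z :=
    Cfsg.Agent.Lib.Helper92.DO.cf_zpowers p P hP z hz hz1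
  have hmemC : ∀ y : G, y * z = z * y → y ∈ C := by
    intro y hy
    rw [hCdef, Subgroup.mem_centralizer_iff]
    intro h hh
    rw [SetLike.mem_coe, hPz, Subgroup.mem_zpowers_iff] at hh
    obtain ⟨k, rfl⟩ := hh
    exact (Commute.zpow_left (show Commute z y from hy.symm) k).eq
  have hCz : ∀ c : G, c ∈ C → c * z = z * c := by
    intro c hc
    rw [hCdef] at hc
    exact ((Subgroup.mem_centralizer_iff.1 hc) z hz).symm
  have hKC : K ≤ C := fun y hy => hmemC y ((hK y).1 hy).1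
  have hPcomm : ∀ x : G, x ∈ (P : Subgroup G) → x * z = z * x := by
    intro x hx
    rw [hPz, Subgroup.mem_zpowers_iff] at hx
    obtain ⟨k, hk⟩ := hx
    rw [← hk]
    exact (Commute.zpow_left (Commute.refl z) k).eq
  -- arithmetic of the group order
  obtain ⟨m, hm, hcop⟩ : ∃ m : ℕ, Nat.card G = p * m ∧ Nat.Coprime p m := by
    have h1 := P.card_eq_multiplicity
    rw [hP] at h1
    have h2 : (Nat.card G).factorization p = 1 := by
      apply Nat.pow_right_injective hp.two_le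
      show p ^ _ = p ^ 1
      rw [pow_one]; exact h1.symm
    have hdvd : p ∣ Nat.card G := by
      have := (hp.pow_dvd_iff_le_factorization (Nat.card_pos (α := G)).ne').2 (le_of_eq h2.symm)
      rwa [pow_one] at this
    obtain ⟨m, hm⟩ := hdvd
    refine ⟨m, hm, ?_⟩
    rw [Nat.Prime.coprime_iff_not_dvd hp]
    intro hpm
    obtain ⟨m', rfl⟩ := hpm
    have h3 : p ^ 2 ∣ Nat.card G := ⟨m', by rw [hm]; ring⟩
    have h4 := (hp.pow_dvd_iff_le_factorization (Nat.card_pos (α := G)).ne').1 h3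
    omega
  -- the representation affording θ
  obtain ⟨n, ρ, hρ, hχ, hn, h1⟩ := Cfsg.Agent.Lib.Helper82.irr_exists_rep θ
  have hker : ∀ x : C, (x : G) ∈ (P : Subgroup G) → ρ x = LinearMap.id := by
    intro x hx
    apply (Cfsg.Agent.Lib.Helper4.char_eq_finrank_iff ρ x).1
    rw [hχ, hθP x hx, h1]
    simp
  have hmul : ∀ (x c : C), (x : G) ∈ (P : Subgroup G) → θ.1 (x * c) = θ.1 c := by
    intro x c hx
    rw [← hχ]
    show LinearMap.trace ℂ _ (ρ (x * c)) = LinearMap.trace ℂ _ (ρ c)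
    rw [map_mul, hker x hx]
    rfl
  -- the restricted character
  set θK : K → ℂ := fun y => θ.1 ⟨(y : G), hKC y.2⟩ with hθK
  have hchar : IsCharacter K θK := by
    refine ⟨n, ρ.comp (Subgroup.inclusion hKC), ?_⟩
    funext y
    rw [hθK, ← hχ]
    rfl
  letI : Fintype K := Fintype.ofFinite K
  letI : Fintype C := Fintype.ofFinite C
  letI : Fintype (P : Subgroup G) := Fintype.ofFinite _
  haveI : Finite (IrrCharacter K) := Cfsg.Agent.Lib.Helper82.finite_irrCharacter K
  letI : Fintype (IrrCharacter K) := Fintype.ofFinite _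
  -- the bijection `P × K → C`
  let f : ↥(P : Subgroup G) × ↥K → ↥C := fun q =>
    ⟨(q.1 : G) * (q.2 : G), mul_mem (hmemC _ (hPcomm _ q.1.2)) (hKC q.2.2)⟩
  have hfinj : Function.Injective f := by
    rintro ⟨x, y⟩ ⟨x', y'⟩ h
    have h' : (x : G) * (y : G) = (x' : G) * (y' : G) := congrArg Subtype.val h
    have hw : (x' : G)⁻¹ * (x : G) = (y' : G) * (y : G)⁻¹ := by
      calc (x' : G)⁻¹ * (x : G) = (x' : G)⁻¹ * ((x : G) * (y : G)) * (y : G)⁻¹ := by group
        _ = (x' : G)⁻¹ * ((x' : G) * (y' : G)) * (y : G)⁻¹ := by rw [h']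
        _ = (y' : G) * (y : G)⁻¹ := by group
    have hwP : (x' : G)⁻¹ * (x : G) ∈ (P : Subgroup G) := mul_mem (inv_mem x'.2) x.2
    have hwK : (x' : G)⁻¹ * (x : G) ∈ K := by rw [hw]; exact mul_mem y'.2 (inv_mem y.2)
    have ho : orderOf ((x' : G)⁻¹ * (x : G)) ∣ p := by
      have := orderOf_dvd_natCard (⟨(x' : G)⁻¹ * (x : G), hwP⟩ : (P : Subgroup G))
      rwa [hP, Subgroup.orderOf_mk] at this
    have hw1 : (x' : G)⁻¹ * (x : G) = 1 := by
      rcases (Nat.dvd_prime hp).1 ho with h | h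
      · exact orderOf_eq_one_iff.1 h
      · exact absurd (dvd_of_eq h.symm) ((hK _).1 hwK).2
    have hxx : (x : G) = (x' : G) := by
      calc (x : G) = (x' : G) * ((x' : G)⁻¹ * (x : G)) := by group
        _ = (x' : G) := by rw [hw1, mul_one]
    have hyy : (y : G) = (y' : G) := by
      rw [hxx] at h'
      exact mul_left_cancel h'
    exact Prod.ext (Subtype.ext hxx) (Subtype.ext hyy)
  have hfsurj : Function.Surjective f := by
    rintro ⟨c, hc⟩
    obtain ⟨A, B, h1c, h2c, h3c⟩ := h4_split p m hcop hm c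
    have hxC : c ^ ((m : ℤ) * B) ∈ C := zpow_mem hc _
    have hxP : c ^ ((m : ℤ) * B) ∈ (P : Subgroup G) :=
      h4_mem_sylow_of_pow p P _ (by rw [← hCdef]; exact hxC) h2c
    have hyK : c ^ ((p : ℤ) * A) ∈ K := by
      rw [hK]
      refine ⟨(Commute.zpow_left (show Commute c z from hCz c hc) _).eq, ?_⟩
      intro hdvd
      have h5 : orderOf (c ^ ((p : ℤ) * A)) ∣ m := orderOf_dvd_of_pow_eq_one h3c
      exact (Nat.Prime.coprime_iff_not_dvd hp).1 hcop (dvd_trans hdvd h5)
    refine ⟨(⟨_, hxP⟩, ⟨_, hyK⟩), ?_⟩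
    apply Subtype.ext
    exact h1c.symm
  have hfbij : Function.Bijective f := ⟨hfinj, hfsurj⟩
  -- norms
  have hnormC : classInner θ.1 θ.1 = 1 := by
    have := Cfsg.Agent.Lib.Helper83.irr_orthonormal θ θ
    simpa using this
  have hcardC : Nat.card C = p * Nat.card K := by
    rw [← Nat.card_congr (Equiv.ofBijective f hfbij), Nat.card_prod, hP]
  have hsum : ∑ c : C, θ.1 c * conj (θ.1 c) = (p : ℂ) * ∑ y : K, θK y * conj (θK y) := by
    rw [← Fintype.sum_bijective f hfbij (fun q => θK q.2 * conj (θK q.2))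
      (fun c => θ.1 c * conj (θ.1 c))]
    · rw [Fintype.sum_prod_type]
      simp only [Finset.sum_const, Finset.card_univ, nsmul_eq_mul]
      rw [← Nat.card_eq_fintype_card, hP]
    · rintro ⟨x, y⟩
      have h6 : θ.1 (f (x, y)) = θK y := by
        have h7 : f (x, y) = (⟨(x : G), hmemC _ (hPcomm _ x.2)⟩ : C) * ⟨(y : G), hKC y.2⟩ := rfl
        rw [h7, hmul _ _ x.2]
      rw [h6]
  have hKpos : (Nat.card K : ℂ) ≠ 0 := by exact_mod_cast (Nat.card_pos (α := K)).ne'
  have hpC : (p : ℂ) ≠ 0 := by exact_mod_cast hp.ne_zero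
  have hnormK : classInner θK θK = 1 := by
    unfold classInner at hnormC ⊢
    rw [hsum, hcardC] at hnormC
    push_cast at hnormC
    field_simp at hnormC ⊢
    linear_combination hnormC
  refine ⟨⟨θK, Cfsg.Agent.Lib.Helper4.isIrrCharacter_of_norm_one θK hchar hnormK⟩, ?_⟩
  intro y hy
  rfl

/-- PIECE KIRR -/
theorem exists_thetaK {G : Type*} [Group G] [Fintype G] (p : ℕ) [Fact p.Prime] (P : Sylow p G)
    (hP : Nat.card P = p)
    (z : G) (hz : z ∈ (P : Subgroup G)) (hz1 : z ≠ 1)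
    (K : Subgroup G) (hK : ∀ y : G, y ∈ K ↔ (y * z = z * y ∧ ¬ p ∣ orderOf y))
    (θ : IrrCharacter (Subgroup.centralizer ((P : Subgroup G) : Set G)))
    (hθP : ∀ x : Subgroup.centralizer ((P : Subgroup G) : Set G),
      (x : G) ∈ (P : Subgroup G) → θ.1 x = θ.1 1) :
    ∃ θK : IrrCharacter K,
      ∀ (y : K) (hy : (y : G) ∈ Subgroup.centralizer ((P : Subgroup G) : Set G)),
        θK.1 y = θ.1 ⟨(y : G), hy⟩ :=
  h4_exists_thetaK_aux p P hP z hz hz1 K hK _ rfl θ hθP

end Cfsg.Agent.Lib.Helper4.DG
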