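import Mathlib
import Cfsg.Agent.Lib.Helper4.CharDual
import Cfsg.Agent.Lib.Helper4.BrSpan
import Cfsg.Agent.Lib.Helper4.CharClosure
import Cfsg.Agent.Lib.Helper82.CharCore
import Cfsg.Agent.Lib.Helper83.IrrBasic

/-! S0997 (Brauer–Tuan, short route of helper5), piece BW-C4 (helper4): `xm_bound`. -/

set_option autoImplicit false
set_option linter.style.haveILetI false

namespace Cfsg.Agent.Lib.Helper5.BW

open Cfsg
open scoped ComplexConjugate

/-- an element of order divisible by `p` is conjugate into `P \ 1` when `P` is a self-centralizing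
Sylow `p`-subgroup of order `p` -/
theorem xm_conj_mem {G : Type*} [Group G] [Finite G] (p : ℕ) [Fact p.Prime] (P : Sylow p G)
    (hP : Nat.card P = p)
    (hCP : Subgroup.centralizer ((P : Subgroup G) : Set G) = (P : Subgroup G))
    (g : G) (hg : p ∣ orderOf g) :
    ∃ h : G, h * g * h⁻¹ ∈ (P : Subgroup G) ∧ h * g * h⁻¹ ≠ 1 := by
  have hp : p.Prime := Fact.out
  have hgpos : 0 < orderOf g := orderOf_pos g
  obtain ⟨k, hk⟩ := hg
  have hk0 : k ≠ 0 := by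
    rintro rfl
    rw [mul_zero] at hk
    omega
  have hy : orderOf (g ^ k) = p := by
    rw [orderOf_pow_of_dvd hk0 ⟨p, by rw [hk, mul_comm]⟩, hk]
    exact Nat.mul_div_cancel _ (Nat.pos_of_ne_zero hk0)
  have hpg : IsPGroup p ↥(Subgroup.zpowers (g ^ k)) :=
    IsPGroup.of_card (n := 1) (by rw [Nat.card_zpowers, hy, pow_one])
  obtain ⟨Q, hQ⟩ := hpg.exists_le_sylow
  obtain ⟨h, hh⟩ := MulAction.exists_smul_eq G Q P
  have hy'P : h * g ^ k * h⁻¹ ∈ (P : Subgroup G) := by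
    rw [← hh, Sylow.coe_subgroup_smul]
    exact Subgroup.smul_mem_pointwise_smul _ (MulAut.conj h) _ (hQ (Subgroup.mem_zpowers _))
  have hy'ord : orderOf (h * g ^ k * h⁻¹) = p := by
    have h1 : SemiconjBy h (g ^ k) (h * g ^ k * h⁻¹) := by
      show h * g ^ k = h * g ^ k * h⁻¹ * h
      group
    rw [← h1.orderOf_eq, hy]
  have hzp : Subgroup.zpowers (h * g ^ k * h⁻¹) = (P : Subgroup G) := by
    apply Subgroup.eq_of_le_of_card_ge
    · rw [Subgroup.zpowers_le]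
      exact hy'P
    · rw [Nat.card_zpowers, hy'ord, hP]
  have hcomm : ∀ x ∈ (P : Subgroup G), x * (h * g * h⁻¹) = (h * g * h⁻¹) * x := by
    intro x hx
    rw [← hzp] at hx
    obtain ⟨j, rfl⟩ := Subgroup.mem_zpowers_iff.mp hx
    have h1 : Commute (h * g ^ k * h⁻¹) (h * g * h⁻¹) := by
      have h2 : Commute (g ^ k) g := (Commute.refl g).pow_left k
      show h * g ^ k * h⁻¹ * (h * g * h⁻¹) = h * g * h⁻¹ * (h * g ^ k * h⁻¹)
      have h3 : g ^ k * g = g * g ^ k := h2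
      calc h * g ^ k * h⁻¹ * (h * g * h⁻¹) = h * (g ^ k * g) * h⁻¹ := by group
        _ = h * (g * g ^ k) * h⁻¹ := by rw [h3]
        _ = h * g * h⁻¹ * (h * g ^ k * h⁻¹) := by group
    exact (h1.zpow_left j)
  have hmem : h * g * h⁻¹ ∈ Subgroup.centralizer ((P : Subgroup G) : Set G) := by
    rw [Subgroup.mem_centralizer_iff]
    intro x hx
    exact hcomm x hx
  rw [hCP] at hmem
  refine ⟨h, hmem, ?_⟩
  intro h1
  have h2 : g = 1 := by
    have h3 : g = h⁻¹ * (h * g * h⁻¹) * h := by group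
    rw [h3, h1]
    group
  rw [h2, orderOf_one] at hk
  have h4 : p = 1 := Nat.eq_one_of_mul_eq_one_right hk.symm
  exact hp.one_lt.ne' h4

/-- BW-C4 -/
theorem xm_bound {G : Type*} [Group G] [Fintype G] (p : ℕ) [Fact p.Prime] (P : Sylow p G)
    (hP : Nat.card P = p)
    (hCP : Subgroup.centralizer ((P : Subgroup G) : Set G) = (P : Subgroup G))
    (χ θ₁ θ₂ : IrrCharacter G) (h12 : θ₁ ≠ θ₂)
    (hreg : ∀ g : G, ¬ p ∣ orderOf g → (θ₁ : G → ℂ) g = (θ₂ : G → ℂ) g)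
    (hval : ∀ x ∈ (P : Subgroup G), x ≠ 1 → (χ : G → ℂ) x = -1) :
    charDegree (χ : G → ℂ) ≤ charDegree (θ₁ : G → ℂ) * charDegree (θ₂ : G → ℂ) := by
  classical
  have hfin := Cfsg.Agent.Lib.Helper4.irr_finite (G := G)
  letI : Fintype (IrrCharacter G) := Fintype.ofFinite _
  -- χ = -1 on all p-singular elements
  have hsing : ∀ g : G, p ∣ orderOf g → (χ : G → ℂ) g = -1 := by
    intro g hg
    obtain ⟨h, hmem, hne⟩ := xm_conj_mem p P hP hCP g hg
    rw [← Cfsg.Agent.Lib.Helper83.irr_classFunction χ.2 g h]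
    exact hval _ hmem hne
  -- pointwise identity
  have hpt : ∀ g : G, (θ₁ : G → ℂ) g * conj ((θ₂ : G → ℂ) g) * conj ((χ : G → ℂ) g) =
      (θ₁ : G → ℂ) g * conj ((θ₁ : G → ℂ) g) * conj ((χ : G → ℂ) g) +
        ((θ₁ : G → ℂ) g * conj ((θ₁ : G → ℂ) g) - (θ₁ : G → ℂ) g * conj ((θ₂ : G → ℂ) g)) := by
    intro g
    by_cases hg : p ∣ orderOf g
    · rw [hsing g hg]
      simp only [map_neg, map_one]
      ring
    · rw [hreg g hg]
      ring
  have hinner : classInner (fun g => (θ₁ : G → ℂ) g * conj ((θ₂ : G → ℂ) g)) (χ : G → ℂ) =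
      classInner (fun g => (θ₁ : G → ℂ) g * conj ((θ₁ : G → ℂ) g)) (χ : G → ℂ) + 1 := by
    have h11 := Cfsg.Agent.Lib.Helper83.irr_orthonormal θ₁ θ₁
    have h12' := Cfsg.Agent.Lib.Helper83.irr_orthonormal θ₁ θ₂
    rw [if_pos rfl] at h11
    rw [if_neg h12] at h12'
    unfold classInner at h11 h12' ⊢
    have hsum : ∑ g : G, (θ₁ : G → ℂ) g * conj ((θ₂ : G → ℂ) g) * conj ((χ : G → ℂ) g) =
        ∑ g : G, (θ₁ : G → ℂ) g * conj ((θ₁ : G → ℂ) g) * conj ((χ : G → ℂ) g) +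
          (∑ g : G, (θ₁ : G → ℂ) g * conj ((θ₁ : G → ℂ) g) -
            ∑ g : G, (θ₁ : G → ℂ) g * conj ((θ₂ : G → ℂ) g)) := by
      rw [← Finset.sum_sub_distrib, ← Finset.sum_add_distrib]
      exact Finset.sum_congr rfl fun g _ => hpt g
    rw [hsum, mul_add, mul_sub, h11, h12', sub_zero]
  -- the two products are characters
  have hc1 : IsCharacter G (fun g => (θ₁ : G → ℂ) g * conj ((θ₁ : G → ℂ) g)) :=
    Cfsg.Agent.Lib.Helper4.isCharacter_mul _ _ (Cfsg.Agent.Lib.Helper4.isCharacter_of_irr θ₁)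
      (Cfsg.Agent.Lib.Helper4.isCharacter_conj _ (Cfsg.Agent.Lib.Helper4.isCharacter_of_irr θ₁))
  have hc2 : IsCharacter G (fun g => (θ₁ : G → ℂ) g * conj ((θ₂ : G → ℂ) g)) :=
    Cfsg.Agent.Lib.Helper4.isCharacter_mul _ _ (Cfsg.Agent.Lib.Helper4.isCharacter_of_irr θ₁)
      (Cfsg.Agent.Lib.Helper4.isCharacter_conj _ (Cfsg.Agent.Lib.Helper4.isCharacter_of_irr θ₂))
  obtain ⟨m₁, hm₁⟩ := Cfsg.Agent.Lib.Helper4.exists_decomp_of_isCharacter _ hc1
  obtain ⟨m₂, hm₂⟩ := Cfsg.Agent.Lib.Helper4.exists_decomp_of_isCharacter _ hc2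
  have e1 := Cfsg.Agent.Lib.Helper4.classInner_sum_irr (fun ψ => (m₁ ψ : ℂ)) χ
  have e2 := Cfsg.Agent.Lib.Helper4.classInner_sum_irr (fun ψ => (m₂ ψ : ℂ)) χ
  rw [← hm₁] at e1
  rw [← hm₂] at e2
  rw [e1, e2] at hinner
  have hm2 : m₂ χ = m₁ χ + 1 := by exact_mod_cast hinner
  -- evaluate at 1
  have hd : ∀ ψ : IrrCharacter G, (ψ : G → ℂ) 1 = ((charDegree (ψ : G → ℂ) : ℕ) : ℂ) :=
    fun ψ => (Cfsg.Agent.Lib.Helper82.irr_charDegree ψ).1.symm
  have hev := congrFun hm₂ 1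
  simp only [Finset.sum_apply, Pi.smul_apply, smul_eq_mul] at hev
  rw [hd θ₁, hd θ₂, Complex.conj_natCast] at hev
  have hev' : charDegree (θ₁ : G → ℂ) * charDegree (θ₂ : G → ℂ) =
      ∑ ψ : IrrCharacter G, m₂ ψ * charDegree (ψ : G → ℂ) := by
    have h1 : ((charDegree (θ₁ : G → ℂ) * charDegree (θ₂ : G → ℂ) : ℕ) : ℂ) =
        ((∑ ψ : IrrCharacter G, m₂ ψ * charDegree (ψ : G → ℂ) : ℕ) : ℂ) := by
      push_cast
      rw [hev]
      exact Finset.sum_congr rfl fun ψ _ => by rw [hd ψ]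
    exact_mod_cast h1
  rw [hev']
  calc charDegree (χ : G → ℂ) ≤ m₂ χ * charDegree (χ : G → ℂ) := by
        rw [hm2]
        exact Nat.le_mul_of_pos_left _ (Nat.succ_pos _)
    _ ≤ ∑ ψ : IrrCharacter G, m₂ ψ * charDegree (ψ : G → ℂ) :=
        Finset.single_le_sum (f := fun ψ : IrrCharacter G => m₂ ψ * charDegree (ψ : G → ℂ))
          (fun _ _ => Nat.zero_le _) (Finset.mem_univ χ)

end Cfsg.Agent.Lib.Helper5.BW
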