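import Cfsg.Agent.Lib.Helper59.CL1

/-!
# Piece GAMMA of S3084 (helper59): a quadratic refinement of an alternating form over `ZMod 2`
-/

set_option autoImplicit false

namespace Cfsg.Agent.Lib.Helper59.CL

variable {U : Type*} [AddCommGroup U] [Module (ZMod 2) U]

theorem exists_gamma [Module.Finite (ZMod 2) U] (η : U →ₗ[ZMod 2] U →ₗ[ZMod 2] ZMod 2)
    (halt : ∀ u, η u u = 0) : ∃ γ : U → ZMod 2, ∀ u v, γ (u + v) = γ u + γ v + η u v := by
  classical
  have hsymm : ∀ u v, η u v = η v u := by
    intro u v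
    have h := halt (u + v)
    simp only [map_add, LinearMap.add_apply, halt, zero_add, add_zero] at h
    exact (CharTwo.add_eq_zero.mp h).symm
  obtain ⟨b⟩ : Nonempty (Module.Basis (Fin (Module.finrank (ZMod 2) U)) (ZMod 2) U) :=
    ⟨Module.finBasis (ZMod 2) U⟩
  have hη : ∀ u v, η u v = ∑ i, ∑ j, η (b i) (b j) * b.repr u i * b.repr v j := by
    intro u v
    conv_lhs => rw [← LinearMap.sum_repr_mul_repr_mul b b (B := η) u v]
    rw [Finsupp.sum_fintype _ _ (by simp)]
    refine Finset.sum_congr rfl (fun i _ => ?_)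
    rw [Finsupp.sum_fintype _ _ (by simp)]
    refine Finset.sum_congr rfl (fun j _ => ?_)
    simp only [smul_eq_mul]
    ring
  refine ⟨fun u => ∑ i, ∑ j, if i < j then η (b i) (b j) * b.repr u i * b.repr u j else 0, ?_⟩
  intro u v
  show (∑ i, ∑ j, if i < j then η (b i) (b j) * b.repr (u + v) i * b.repr (u + v) j else 0)
    = (∑ i, ∑ j, if i < j then η (b i) (b j) * b.repr u i * b.repr u j else 0)
      + (∑ i, ∑ j, if i < j then η (b i) (b j) * b.repr v i * b.repr v j else 0) + η u v
  have hswap : (∑ i, ∑ j, if i < j then η (b i) (b j) * b.repr v i * b.repr u j else 0)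
      = ∑ i, ∑ j, if j < i then η (b i) (b j) * b.repr u i * b.repr v j else 0 := by
    rw [Finset.sum_comm]
    refine Finset.sum_congr rfl (fun i _ => Finset.sum_congr rfl (fun j _ => ?_))
    rw [hsymm (b j) (b i)]
    split_ifs
    · ring
    · rfl
  have hη' : η u v = (∑ i, ∑ j, if i < j then η (b i) (b j) * b.repr u i * b.repr v j else 0)
      + ∑ i, ∑ j, if i < j then η (b i) (b j) * b.repr v i * b.repr u j else 0 := by
    rw [hswap, hη u v, ← Finset.sum_add_distrib]
    refine Finset.sum_congr rfl (fun i _ => ?_)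
    rw [← Finset.sum_add_distrib]
    refine Finset.sum_congr rfl (fun j _ => ?_)
    rcases lt_trichotomy i j with h | h | h
    · rw [if_pos h, if_neg (not_lt.mpr h.le), add_zero]
    · subst h
      rw [if_neg (lt_irrefl _), halt, zero_mul, zero_mul, add_zero]
    · rw [if_neg (not_lt.mpr h.le), if_pos h, zero_add]
  rw [hη']
  simp only [← Finset.sum_add_distrib]
  refine Finset.sum_congr rfl (fun i _ => Finset.sum_congr rfl (fun j _ => ?_))
  split_ifs
  · simp only [map_add, Finsupp.add_apply]
    ring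
  · simp

end Cfsg.Agent.Lib.Helper59.CL
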