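import Mathlib

set_option autoImplicit false

namespace Cfsg.Agent.Lib.Helper4.DCP4a

open scoped Classical in
/-- Two elementwise commuting subgroups meeting trivially: the join has the product order. -/
theorem card_sup_of_commute {G : Type*} [Group G] [Finite G] (A B : Subgroup G)
    (hcomm : ∀ a ∈ A, ∀ b ∈ B, a * b = b * a) (hdisj : ∀ x ∈ A, x ∈ B → x = 1) :
    Nat.card ↥(A ⊔ B) = Nat.card A * Nat.card B := by
  have comm : ∀ (m : A) (n : B), Commute (A.subtype m) (B.subtype n) := fun m n =>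
    hcomm m.1 m.2 n.1 n.2
  have hinj : Function.Injective (MonoidHom.noncommCoprod A.subtype B.subtype comm) := by
    rw [MonoidHom.noncommCoprod_injective]
    refine ⟨A.subtype_injective, B.subtype_injective, ?_⟩
    rw [Subgroup.range_subtype, Subgroup.range_subtype, disjoint_iff_inf_le]
    intro x hx
    rw [Subgroup.mem_bot]
    exact hdisj x hx.1 hx.2
  have hrange : (MonoidHom.noncommCoprod A.subtype B.subtype comm).range = A ⊔ B := by
    rw [MonoidHom.noncommCoprod_range, Subgroup.range_subtype, Subgroup.range_subtype]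
  rw [← hrange]
  rw [← Nat.card_prod]
  exact (Nat.card_congr (Equiv.ofInjective _ hinj)).symm

open scoped Classical in
/-- A finite family of pairwise elementwise commuting centreless subgroups of the same order `n`
generates a subgroup of order `n ^ (number of subgroups)`. -/
theorem card_finset_sup {G : Type*} [Group G] [Finite G] (n : ℕ) (S : Finset (Subgroup G)) :
    (∀ A ∈ S, (∀ x ∈ A, (∀ y ∈ A, x * y = y * x) → x = 1) ∧ Nat.card A = n) →
    (∀ A ∈ S, ∀ B ∈ S, A ≠ B → ∀ a ∈ A, ∀ b ∈ B, a * b = b * a) →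
    Nat.card ↥(S.sup id) = n ^ S.card := by
  induction S using Finset.induction_on with
  | empty =>
    intro _ _
    simp
  | insert A S hA ih =>
    intro h1 h2
    have ih' := ih (fun B hB => h1 B (Finset.mem_insert_of_mem hB))
      (fun B hB C hC => h2 B (Finset.mem_insert_of_mem hB) C (Finset.mem_insert_of_mem hC))
    rw [Finset.sup_insert, Finset.card_insert_of_notMem hA, pow_succ', id]
    have hAself := h1 A (Finset.mem_insert_self A S)
    have hle : S.sup id ≤ Subgroup.centralizer (A : Set G) := by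
      apply Finset.sup_le
      intro B hB
      have hne : A ≠ B := fun h => hA (h ▸ hB)
      intro b hb
      rw [Subgroup.mem_centralizer_iff]
      intro a ha
      exact h2 A (Finset.mem_insert_self A S) B (Finset.mem_insert_of_mem hB) hne a ha b hb
    have hcomm : ∀ a ∈ A, ∀ b ∈ S.sup id, a * b = b * a := by
      intro a ha b hb
      have := hle hb
      rw [Subgroup.mem_centralizer_iff] at this
      exact this a ha
    have hdisj : ∀ x ∈ A, x ∈ S.sup id → x = 1 := by
      intro x hxA hxB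
      apply hAself.1 x hxA
      intro y hy
      exact (hcomm y hy x hxB).symm
    rw [card_sup_of_commute A (S.sup id) hcomm hdisj, hAself.2, ih']

/-- PIECE P4a : structure of a non-abelian minimal normal subgroup. -/
theorem minimal_normal_structure {G : Type*} [Group G] [Finite G] (M : Subgroup G) [M.Normal]
    (hmin : ∀ N : Subgroup G, N.Normal → N ≤ M → N = ⊥ ∨ N = M)
    (hnc : ¬ ∀ x ∈ M, ∀ y ∈ M, x * y = y * x) :
    ∃ (T : Subgroup G) (k : ℕ), T ≤ M ∧ T ≠ ⊥ ∧
      (∀ R : Subgroup G, R ≤ T → (∀ t ∈ T, ∀ r ∈ R, t * r * t⁻¹ ∈ R) → R = ⊥ ∨ R = T) ∧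
      (∀ x ∈ T, (∀ y ∈ T, x * y = y * x) → x = 1) ∧
      (∀ g : G, (∀ t ∈ T, g * t * g⁻¹ ∈ T) ∨
        ((∀ t ∈ T, ∀ s ∈ T, t * (g * s * g⁻¹) = (g * s * g⁻¹) * t) ∧
          ∀ t ∈ T, g * t * g⁻¹ ∈ T → t = 1)) ∧
      Nat.card M = Nat.card T ^ k := by
  classical
  -- the `M`-normal nontrivial subgroups of `M`
  let P : Subgroup G → Prop := fun A =>
    A ≤ M ∧ (∀ m ∈ M, ∀ a ∈ A, m * a * m⁻¹ ∈ A) ∧ A ≠ ⊥
  have hMbot : M ≠ ⊥ := by
    intro h
    apply hnc
    intro x hx y hy
    rw [h, Subgroup.mem_bot] at hx hy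
    rw [hx, hy]
  have hPM : P M := ⟨le_refl M, fun m _ a ha => Subgroup.Normal.conj_mem inferInstance a ha m, hMbot⟩
  have hex : ∃ n, ∃ A : Subgroup G, P A ∧ Nat.card A = n := ⟨_, M, hPM, rfl⟩
  obtain ⟨T, hPT, hTn⟩ := Nat.find_spec hex
  have hminT : ∀ A, P A → Nat.card T ≤ Nat.card A := fun A hA => by
    rw [hTn]; exact Nat.find_min' hex ⟨A, hA, rfl⟩
  obtain ⟨hTM, hTnorm, hTbot⟩ := hPT
  -- key lemma: two distinct minimal ones meet trivially and commute
  have key : ∀ A B : Subgroup G, P A → P B → Nat.card A = Nat.card T → Nat.card B = Nat.card T →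
      A ≠ B → (∀ x ∈ A, x ∈ B → x = 1) ∧ (∀ a ∈ A, ∀ b ∈ B, a * b = b * a) := by
    intro A B hA hB hcA hcB hne
    have hint : A ⊓ B = ⊥ := by
      by_contra hbot
      have hPAB : P (A ⊓ B) := by
        refine ⟨inf_le_left.trans hA.1, ?_, hbot⟩
        intro m hm a ha
        exact ⟨hA.2.1 m hm a ha.1, hB.2.1 m hm a ha.2⟩
      have h1 : Nat.card A ≤ Nat.card ↥(A ⊓ B) := by rw [hcA]; exact hminT _ hPAB
      have h2 : A ⊓ B = A := Subgroup.eq_of_le_of_card_ge inf_le_left h1
      have h3 : A ≤ B := by rw [← h2]; exact inf_le_right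
      exact hne (Subgroup.eq_of_le_of_card_ge h3 (by rw [hcA, hcB]))
    have hdisj : ∀ x ∈ A, x ∈ B → x = 1 := by
      intro x hxA hxB
      have : x ∈ A ⊓ B := ⟨hxA, hxB⟩
      rwa [hint, Subgroup.mem_bot] at this
    refine ⟨hdisj, ?_⟩
    intro a ha b hb
    have hbM : b ∈ M := hB.1 hb
    have haM : a ∈ M := hA.1 ha
    have h1 : a * b * a⁻¹ * b⁻¹ ∈ A := by
      have : b * a⁻¹ * b⁻¹ ∈ A := hA.2.1 b hbM a⁻¹ (inv_mem ha)
      have h' := mul_mem ha this
      have e : a * (b * a⁻¹ * b⁻¹) = a * b * a⁻¹ * b⁻¹ := by group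
      rwa [e] at h'
    have h2 : a * b * a⁻¹ * b⁻¹ ∈ B := mul_mem (hB.2.1 a haM b hb) (inv_mem hb)
    have h3 := hdisj _ h1 h2
    have e : a * b = (a * b * a⁻¹ * b⁻¹) * (b * a) := by group
    rw [e, h3, one_mul]
  -- conjugates of `T`
  let Tg : G → Subgroup G := fun g => T.map (MulAut.conj g).toMonoidHom
  have hmemTg : ∀ g x, x ∈ Tg g ↔ ∃ t ∈ T, g * t * g⁻¹ = x := by
    intro g x
    simp only [Tg, Subgroup.mem_map]
    rfl
  have hcardTg : ∀ g, Nat.card (Tg g) = Nat.card T := fun g =>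
    Subgroup.card_map_of_injective (MulAut.conj g).injective
  have hPTg : ∀ g, P (Tg g) := by
    intro g
    refine ⟨?_, ?_, ?_⟩
    · intro x hx
      obtain ⟨t, ht, rfl⟩ := (hmemTg g x).1 hx
      exact Subgroup.Normal.conj_mem inferInstance t (hTM ht) g
    · intro m hm a ha
      obtain ⟨t, ht, rfl⟩ := (hmemTg g a).1 ha
      rw [hmemTg]
      refine ⟨(g⁻¹ * m * g) * t * (g⁻¹ * m * g)⁻¹, ?_, by group⟩
      apply hTnorm _ _ t ht
      have := Subgroup.Normal.conj_mem (inferInstance : M.Normal) m hm g⁻¹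
      simpa using this
    · intro hbot
      apply hTbot
      rw [Subgroup.eq_bot_iff_forall]
      intro t ht
      have : g * t * g⁻¹ ∈ Tg g := (hmemTg g _).2 ⟨t, ht, rfl⟩
      rw [hbot, Subgroup.mem_bot] at this
      have e : t = g⁻¹ * (g * t * g⁻¹) * g := by group
      rw [e, this]; group
  have hPT' : P T := ⟨hTM, hTnorm, hTbot⟩
  -- `M` is generated by the conjugates of `T`
  have hMeq : Subgroup.normalClosure (T : Set G) = M := by
    have hle : Subgroup.normalClosure (T : Set G) ≤ M := Subgroup.normalClosure_le_normal hTM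
    rcases hmin _ Subgroup.normalClosure_normal hle with h | h
    · exfalso
      apply hTbot
      rw [eq_bot_iff, ← h]
      exact Subgroup.le_normalClosure
    · exact h
  have hMclos : M = Subgroup.closure (Group.conjugatesOfSet (T : Set G)) := by
    rw [← hMeq]; rfl
  have hconjmem : ∀ s ∈ Group.conjugatesOfSet (T : Set G), ∃ g, s ∈ Tg g := by
    intro s hs
    rw [Group.mem_conjugatesOfSet_iff] at hs
    obtain ⟨t, ht, hts⟩ := hs
    rw [isConj_iff] at hts
    obtain ⟨c, hc⟩ := hts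
    exact ⟨c, (hmemTg c s).2 ⟨t, ht, hc⟩⟩
  -- `T` is not abelian
  have hTnab : ¬ ∀ x ∈ T, ∀ y ∈ T, x * y = y * x := by
    intro hab
    apply hnc
    have hS : ∀ s₁ ∈ Group.conjugatesOfSet (T : Set G), ∀ s₂ ∈ Group.conjugatesOfSet (T : Set G),
        s₁ * s₂ = s₂ * s₁ := by
      intro s₁ h₁ s₂ h₂
      obtain ⟨g₁, hg₁⟩ := hconjmem s₁ h₁
      obtain ⟨g₂, hg₂⟩ := hconjmem s₂ h₂
      by_cases hE : Tg g₁ = Tg g₂
      · rw [← hE] at hg₂
        obtain ⟨t₁, ht₁, rfl⟩ := (hmemTg g₁ s₁).1 hg₁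
        obtain ⟨t₂, ht₂, rfl⟩ := (hmemTg g₁ s₂).1 hg₂
        have := hab t₁ ht₁ t₂ ht₂
        calc g₁ * t₁ * g₁⁻¹ * (g₁ * t₂ * g₁⁻¹) = g₁ * (t₁ * t₂) * g₁⁻¹ := by group
          _ = g₁ * (t₂ * t₁) * g₁⁻¹ := by rw [this]
          _ = g₁ * t₂ * g₁⁻¹ * (g₁ * t₁ * g₁⁻¹) := by group
      · exact (key _ _ (hPTg g₁) (hPTg g₂) (hcardTg g₁) (hcardTg g₂) hE).2 s₁ hg₁ s₂ hg₂
    have h1 : M ≤ Subgroup.centralizer (Group.conjugatesOfSet (T : Set G)) := by
      rw [hMclos, Subgroup.closure_le]
      intro s hs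
      rw [SetLike.mem_coe, Subgroup.mem_centralizer_iff]
      intro s' hs'
      exact hS s' hs' s hs
    have h2 : M ≤ Subgroup.centralizer (M : Set G) := by
      conv_lhs => rw [hMclos]
      rw [Subgroup.closure_le]
      intro s hs
      rw [SetLike.mem_coe, Subgroup.mem_centralizer_iff]
      intro m hm
      have := h1 hm
      rw [Subgroup.mem_centralizer_iff] at this
      exact (this s hs).symm
    intro x hx y hy
    have := h2 hy
    rw [Subgroup.mem_centralizer_iff] at this
    exact this x hx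
  -- (1) simplicity
  have hsimple : ∀ R : Subgroup G, R ≤ T → (∀ t ∈ T, ∀ r ∈ R, t * r * t⁻¹ ∈ R) →
      R = ⊥ ∨ R = T := by
    intro R hRT hRn
    by_cases hR : R = ⊥
    · exact Or.inl hR
    right
    have hnormR : M ≤ Subgroup.normalizer (R : Set G) := by
      rw [hMclos, Subgroup.closure_le]
      intro s hs
      obtain ⟨g, hg⟩ := hconjmem s hs
      rw [SetLike.mem_coe, Subgroup.mem_normalizer_iff]
      by_cases hE : Tg g = T
      · rw [hE] at hg
        intro r
        constructor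
        · intro hr; exact hRn s hg r hr
        · intro hr
          have := hRn s⁻¹ (inv_mem hg) _ hr
          have e : s⁻¹ * (s * r * s⁻¹) * s⁻¹⁻¹ = r := by group
          rwa [e] at this
      · have hc := (key _ _ (hPTg g) hPT' (hcardTg g) rfl hE).2 s hg
        intro r
        constructor
        · intro hr
          have := hc r (hRT hr)
          have e : s * r * s⁻¹ = r := by rw [this]; group
          rw [e]; exact hr
        · intro hr
          have := hc _ (hRT hr)
          have e : s * r * s⁻¹ = r := by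
            have h3 : s * (s * r * s⁻¹) = s * r := by rw [this]; group
            exact mul_left_cancel h3
          rw [e] at hr; exact hr
    have hPR : P R := by
      refine ⟨hRT.trans hTM, ?_, hR⟩
      intro m hm r hr
      have := hnormR hm
      rw [Subgroup.mem_normalizer_iff] at this
      exact (this r).1 hr
    exact Subgroup.eq_of_le_of_card_ge hRT (hminT R hPR)
  -- (2) trivial centre
  have hcenter : ∀ x ∈ T, (∀ y ∈ T, x * y = y * x) → x = 1 := by
    intro x hx hxc
    let Z : Subgroup G := T ⊓ Subgroup.centralizer (T : Set G)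
    have hZT : Z ≤ T := inf_le_left
    have hZn : ∀ t ∈ T, ∀ r ∈ Z, t * r * t⁻¹ ∈ Z := by
      intro t ht r hr
      have hrc := (Subgroup.mem_inf.1 hr).2
      rw [Subgroup.mem_centralizer_iff] at hrc
      have e : t * r * t⁻¹ = r := by rw [hrc t ht]; group
      rw [e]; exact hr
    have hxZ : x ∈ Z := by
      refine Subgroup.mem_inf.2 ⟨hx, ?_⟩
      rw [Subgroup.mem_centralizer_iff]
      intro y hy
      exact (hxc y hy).symm
    rcases hsimple Z hZT hZn with h | h
    · rw [h, Subgroup.mem_bot] at hxZ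
      exact hxZ
    · exfalso
      apply hTnab
      intro a ha b hb
      rw [← h] at ha
      have hac := (Subgroup.mem_inf.1 ha).2
      rw [Subgroup.mem_centralizer_iff] at hac
      exact (hac b hb).symm
  have hcenterTg : ∀ g, ∀ x ∈ Tg g, (∀ y ∈ Tg g, x * y = y * x) → x = 1 := by
    intro g x hx hxc
    obtain ⟨t, ht, rfl⟩ := (hmemTg g x).1 hx
    have : t = 1 := by
      apply hcenter t ht
      intro y hy
      have := hxc (g * y * g⁻¹) ((hmemTg g _).2 ⟨y, hy, rfl⟩)
      have e1 : t * y = g⁻¹ * (g * t * g⁻¹ * (g * y * g⁻¹)) * g := by group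
      have e2 : y * t = g⁻¹ * (g * y * g⁻¹ * (g * t * g⁻¹)) * g := by group
      rw [e1, e2, this]
    rw [this]; group
  -- (3) conjugates
  have hconj : ∀ g : G, (∀ t ∈ T, g * t * g⁻¹ ∈ T) ∨
      ((∀ t ∈ T, ∀ s ∈ T, t * (g * s * g⁻¹) = (g * s * g⁻¹) * t) ∧
        ∀ t ∈ T, g * t * g⁻¹ ∈ T → t = 1) := by
    intro g
    by_cases hE : Tg g = T
    · left
      intro t ht
      rw [← hE]
      exact (hmemTg g _).2 ⟨t, ht, rfl⟩
    · right
      have hk := key _ _ hPT' (hPTg g) rfl (hcardTg g) (fun h => hE h.symm)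
      refine ⟨?_, ?_⟩
      · intro t ht s hs
        exact hk.2 t ht _ ((hmemTg g _).2 ⟨s, hs, rfl⟩)
      · intro t ht htT
        have := hk.1 _ htT ((hmemTg g _).2 ⟨t, ht, rfl⟩)
        have e : t = g⁻¹ * (g * t * g⁻¹) * g := by group
        rw [e, this]; group
  -- (4) the order
  have : Fintype G := Fintype.ofFinite G
  let CC : Finset (Subgroup G) := Finset.univ.image Tg
  have hCC : ∀ A ∈ CC, ∃ g, A = Tg g := by
    intro A hA
    obtain ⟨g, -, rfl⟩ := Finset.mem_image.1 hA
    exact ⟨g, rfl⟩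
  have hcard := card_finset_sup (Nat.card T) CC
    (by
      intro A hA
      obtain ⟨g, rfl⟩ := hCC A hA
      exact ⟨hcenterTg g, hcardTg g⟩)
    (by
      intro A hA B hB hne
      obtain ⟨g, rfl⟩ := hCC A hA
      obtain ⟨g', rfl⟩ := hCC B hB
      exact (key _ _ (hPTg g) (hPTg g') (hcardTg g) (hcardTg g') hne).2)
  have hsup : CC.sup id = M := by
    apply le_antisymm
    · apply Finset.sup_le
      intro A hA
      obtain ⟨g, rfl⟩ := hCC A hA
      exact (hPTg g).1
    · rw [hMclos, Subgroup.closure_le]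
      intro s hs
      obtain ⟨g, hg⟩ := hconjmem s hs
      have hle : Tg g ≤ CC.sup id :=
        Finset.le_sup (f := id) (Finset.mem_image.2 ⟨g, Finset.mem_univ g, rfl⟩)
      exact hle hg
  refine ⟨T, CC.card, hTM, hTbot, hsimple, hcenter, hconj, ?_⟩
  rw [← hcard, hsup]

end Cfsg.Agent.Lib.Helper4.DCP4a
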