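import Mathlib
import Cfsg.Agent.Lib.Helper79.DGMK
import Cfsg.Agent.Lib.Helper79.Blk2
import Cfsg.Agent.Lib.Helper67.DGGD
import Cfsg.Agent.Lib.Helper82.Major
import Cfsg.Agent.Lib.Helper92.DOCL5
import Cfsg.Agent.Lib.Helper81.BrMax
import Cfsg.Agent.Lib.Helper81.BrSubgrp
import Cfsg.Agent.Lib.Helper81.BrPair
import Cfsg.Agent.Lib.Helper81.BrPairs
import Cfsg.Agent.Lib.Helper33.KleinPair

/-!
# Piece ROOTQ of S4502 (helper79): the root of a block at a given Sylow subgroup of order `p`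
-/

set_option autoImplicit false
set_option linter.style.haveILetI false
set_option maxHeartbeats 1600000

namespace Cfsg.Agent.Lib.Helper4.DG

open Cfsg Cfsg.Agent.Lib.Helper79.DG
open scoped ComplexConjugate

section

variable {H : Type*} [Group H] [Fintype H]

/-- PIECE ROOTQ -/
theorem exists_root_at (p : ℕ) [Fact p.Prime] (M : Ideal AlgInt) (hM : IsPModular p M)
    (Q : Sylow p H) (hQ : Nat.card Q = p)
    (B : Set (IrrCharacter H)) (hB : IsPBlock M B) (hd : 0 < blockDefect p B) :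
    IsDefectGroup p M B Q ∧
    ∃ θ : IrrCharacter (Subgroup.centralizer ((Q : Subgroup H) : Set H)),
      IsCanon (Q : Subgroup H) θ ∧
      IsInducedBlock M (Subgroup.centralizer ((Q : Subgroup H) : Set H)) (blockOf M θ.1) B := by
  classical
  have hp : p.Prime := Fact.out
  have hfac : (Nat.card H).factorization p = 1 := by
    have h1 := Q.card_eq_multiplicity
    rw [hQ] at h1
    have h2 : p ^ 1 = p ^ (Nat.card H).factorization p := by rw [pow_one]; exact h1
    exact (Nat.pow_right_injective hp.two_le h2).symm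
  have hdef : blockDefect p B = 1 := by
    have h1 : blockDefect p B ≤ (Nat.card H).factorization p := by
      unfold blockDefect
      exact Nat.sub_le _ _
    omega
  obtain ⟨D, u, hmax⟩ := Cfsg.Agent.Lib.Helper81.exists_maximalBrauerPair hM B hB
  have hDdef := Cfsg.Agent.Lib.Helper81.isDefectGroup_of_maximal hM B D u hmax
  have hcard : Nat.card D = p := by
    rw [Cfsg.Agent.Lib.Helper82.card_defectGroup hM B hB D hDdef, hdef, pow_one]
  -- conjugate `D` onto `Q`
  obtain ⟨x, hx⟩ := MulAction.exists_smul_eq H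
    (Sylow.ofCard D (by rw [hcard, hfac, pow_one]) : Sylow p H) Q
  have hDQ : D.map (MulAut.conj x).toMonoidHom = (Q : Subgroup H) := by
    rw [← hx, Sylow.coe_subgroup_smul]
    ext y
    rw [Cfsg.Agent.Lib.Helper22.mem_conj_map_iff,
      Subgroup.mem_pointwise_smul_iff_inv_smul_mem]
    have e0 : (MulAut.conj x)⁻¹ • y = x⁻¹ * y * x := by
      rw [MulAut.smul_def, MulAut.conj_inv_apply]
    rw [e0]
    rfl
  have hmaxc := Cfsg.Agent.Lib.Helper81.isMaximal_conjPair hM B ⟨D, u⟩ hmax x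
  obtain ⟨b, hb⟩ := Cfsg.Agent.Lib.Helper33.Klein.exists_snd
    (Cfsg.Agent.Lib.Helper81.conjPair x ⟨D, u⟩) (Q : Subgroup H) hDQ
  rw [← hb] at hmaxc
  have hmaxQ : IsMaximalBrauerPair p M B (Q : Subgroup H) b := hmaxc
  have hQdef := Cfsg.Agent.Lib.Helper81.isDefectGroup_of_maximal hM B (Q : Subgroup H) b hmaxQ
  have hQp : IsPGroup p (Q : Subgroup H) := Q.isPGroup'
  have hind :=
    (Cfsg.Agent.Lib.Helper81.isBrauerPairOf_iff_isInducedBlock hM (Q : Subgroup H) hQp b B).mp
      hmaxQ.1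
  have hbblk : IsPBlock M b := hmaxQ.1.1.2
  -- a generator of `Q`
  obtain ⟨z, hz, hz1⟩ : ∃ z ∈ (Q : Subgroup H), z ≠ 1 := by
    by_contra hno
    push Not at hno
    have h1 : (Q : Subgroup H) = ⊥ := (Subgroup.eq_bot_iff_forall _).mpr hno
    have h2 : Nat.card (Q : Subgroup H) = 1 := by rw [h1, Subgroup.card_bot]
    rw [hQ] at h2
    exact hp.one_lt.ne' h2
  have hzo := Cfsg.Agent.Lib.Helper92.DO.cf_order p Q hQ z hz hz1
  have hzp := Cfsg.Agent.Lib.Helper92.DO.cf_zpowers p Q hQ z hz hz1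
  have hzc : z ∈ Subgroup.centralizer ((Q : Subgroup H) : Set H) := by
    rw [Subgroup.mem_centralizer_iff]
    intro y hy
    have hy' : y ∈ Subgroup.zpowers z := by rw [← hzp]; exact hy
    obtain ⟨k, rfl⟩ := Subgroup.mem_zpowers_iff.mp hy'
    exact ((Commute.refl z).zpow_left k).eq
  letI : Fintype (Subgroup.centralizer ((Q : Subgroup H) : Set H)) := Fintype.ofFinite _
  have hfinI : Finite (IrrCharacter (Subgroup.centralizer ((Q : Subgroup H) : Set H))) :=
    Cfsg.Agent.Lib.Helper4.irr_finite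
  letI : Fintype (IrrCharacter (Subgroup.centralizer ((Q : Subgroup H) : Set H))) :=
    Fintype.ofFinite _
  have hzcen : (⟨z, hzc⟩ : Subgroup.centralizer ((Q : Subgroup H) : Set H)) ∈
      Subgroup.center (Subgroup.centralizer ((Q : Subgroup H) : Set H)) := by
    rw [Subgroup.mem_center_iff]
    intro h
    apply Subtype.ext
    simp only [Subgroup.coe_mul]
    exact (Subgroup.mem_centralizer_iff.mp h.2 z hz).symm
  have hCH : Subgroup.centralizer ({z} : Set H) ≤
      Subgroup.centralizer ((Q : Subgroup H) : Set H) := by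
    rw [Cfsg.Agent.Lib.Helper33.Klein.centralizer_singleton_eq, ← hzp]
  obtain ⟨θ, hθb, hθ⟩ := Cfsg.Agent.Lib.Helper67.DG.exists_canon
    (Subgroup.centralizer ((Q : Subgroup H) : Set H)) hM ⟨z, hzc⟩ hzcen hzo hCH b B hind hdef
  refine ⟨hQdef, θ, ?_, ?_⟩
  · intro y hy
    have hy' : (y : H) ∈ Subgroup.zpowers z := by rw [← hzp]; exact hy
    have hy'' : (y : H) ∈ Submonoid.powers z := mem_powers_iff_mem_zpowers.mpr hy'
    obtain ⟨k, hk⟩ := hy''
    have h1 : y = (⟨z, hzc⟩ : Subgroup.centralizer ((Q : Subgroup H) : Set H)) ^ k :=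
      Subtype.ext (by rw [Subgroup.coe_pow]; exact hk.symm)
    rw [h1]
    exact hθ k
  · rw [← Cfsg.Agent.Lib.Helper79.blockOf_eq_of_mem hM hbblk hθb]
    exact hind

end

end Cfsg.Agent.Lib.Helper4.DG
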