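import Mathlib

/-!
# Integrality condition for triangle-free strongly regular graphs (piece F15-SRG of S1615)
-/

set_option autoImplicit false

namespace Cfsg.Agent.Lib.Helper4.F15

theorem srg_tf {V : Type*} [Finite V] [Nonempty V] (adj : V → V → Prop)
    (hsymm : ∀ x y, adj x y → adj y x) (hirr : ∀ x, ¬ adj x x) (k μ : ℕ) (hk : 3 ≤ k)
    (hμ : 1 ≤ μ) (hμk : μ ≤ k) (hreg : ∀ x, {y | adj x y}.ncard = k)
    (htri : ∀ x y z, adj x y → adj x z → ¬ adj y z)
    (hmu : ∀ x y, x ≠ y → ¬ adj x y → {z | adj x z ∧ adj y z}.ncard = μ) :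
    ∃ s : ℕ, s * s = μ * μ + 4 * (k - μ) ∧ s ∣ k * (k + μ - 3) := by
  classical
  have : Fintype V := Fintype.ofFinite V
  set v : ℕ := Fintype.card V with hv
  have hvpos : 0 < v := Fintype.card_pos
  have hregF : ∀ x, (Finset.univ.filter (fun y => adj x y)).card = k := by
    intro x
    rw [← hreg x, Set.ncard_eq_toFinset_card', Set.toFinset_ofPred]
  have hmuF : ∀ x y, x ≠ y → ¬ adj x y →
      (Finset.univ.filter (fun z => adj x z ∧ adj y z)).card = μ := by
    intro x y hxy hna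
    rw [← hmu x y hxy hna, Set.ncard_eq_toFinset_card', Set.toFinset_ofPred]
  obtain ⟨A, hA⟩ : ∃ A : Matrix V V ℝ, ∀ x y, A x y = if adj x y then 1 else 0 :=
    ⟨Matrix.of fun x y => if adj x y then 1 else 0, fun _ _ => rfl⟩
  obtain ⟨J, hJ⟩ : ∃ J : Matrix V V ℝ, ∀ x y, J x y = 1 :=
    ⟨Matrix.of fun _ _ => 1, fun _ _ => rfl⟩
  have hAJ : A * J = (k : ℝ) • J := by
    ext x y
    simp only [Matrix.mul_apply, Matrix.smul_apply, hA, hJ, mul_one, smul_eq_mul]
    rw [Finset.sum_boole, hregF x]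
  have hJA : J * A = (k : ℝ) • J := by
    ext x y
    simp only [Matrix.mul_apply, Matrix.smul_apply, hA, hJ, one_mul, mul_one, smul_eq_mul]
    rw [Finset.sum_boole]
    have : Finset.univ.filter (fun z => adj z y) = Finset.univ.filter (fun z => adj y z) := by
      ext z
      simp only [Finset.mem_filter, Finset.mem_univ, true_and]
      exact ⟨hsymm z y, hsymm y z⟩
    rw [this, hregF y]
  have hJJ : J * J = (v : ℝ) • J := by
    ext x y
    simp [Matrix.mul_apply, hJ, hv]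
  have hAA : A * A = ((k : ℝ) - μ) • (1 : Matrix V V ℝ) + (μ : ℝ) • J - (μ : ℝ) • A := by
    ext x y
    simp only [Matrix.mul_apply, Matrix.add_apply, Matrix.sub_apply, Matrix.smul_apply,
      smul_eq_mul, hA, hJ, mul_one]
    have hsum : ∑ z, (if adj x z then (1:ℝ) else 0) * (if adj z y then (1:ℝ) else 0)
        = ((Finset.univ.filter (fun z => adj x z ∧ adj y z)).card : ℝ) := by
      rw [← Finset.sum_boole]
      apply Finset.sum_congr rfl
      intro z _
      by_cases h1 : adj x z <;> by_cases h2 : adj z y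
      · have h3 : adj y z := hsymm z y h2
        simp [h1, h2, h3]
      · have h3 : ¬ adj y z := fun h => h2 (hsymm y z h)
        simp [h1, h2, h3]
      · simp [h1]
      · simp [h1]
    rw [hsum]
    by_cases hxy : x = y
    · subst hxy
      have : Finset.univ.filter (fun z => adj x z ∧ adj x z)
          = Finset.univ.filter (fun z => adj x z) := by
        ext z; simp
      rw [this, hregF x]
      simp [hirr x]
    · by_cases ha : adj x y
      · have : Finset.univ.filter (fun z => adj x z ∧ adj y z) = ∅ := by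
          rw [Finset.filter_eq_empty_iff]
          rintro z - ⟨h1, h2⟩
          exact htri x y z ha h1 h2
        rw [this]
        simp [hxy, ha]
      · rw [hmuF x y hxy ha]
        simp [hxy, ha]
  have htrA : Matrix.trace A = 0 := by
    simp [Matrix.trace, hA, hirr]
  have htrJ : Matrix.trace J = (v : ℝ) := by
    simp [Matrix.trace, hJ, hv]
  have htr1 : Matrix.trace (1 : Matrix V V ℝ) = (v : ℝ) := by
    rw [Matrix.trace_one]
  -- (4)
  obtain ⟨x₀⟩ := ‹Nonempty V›
  have h4 : (k : ℝ) * k = (k : ℝ) - μ + μ * v - μ * k := by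
    have h1 : A * A * J = ((k : ℝ) * k) • J := by
      rw [Matrix.mul_assoc, hAJ, Matrix.mul_smul, hAJ, smul_smul]
    have h2 : A * A * J = ((k : ℝ) - μ + μ * v - μ * k) • J := by
      rw [hAA, Matrix.sub_mul, Matrix.add_mul, Matrix.smul_mul, Matrix.smul_mul, Matrix.smul_mul,
        Matrix.one_mul, hJJ, hAJ]
      module
    have h3 := congrFun (congrFun (h1.symm.trans h2) x₀) x₀
    simpa [hJ] using h3
  -- the numbers
  have hkR : (3 : ℝ) ≤ k := by exact_mod_cast hk
  have hμR : (1 : ℝ) ≤ μ := by exact_mod_cast hμ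
  have hμkR : (μ : ℝ) ≤ k := by exact_mod_cast hμk
  have hvR : (0 : ℝ) < v := by exact_mod_cast hvpos
  set Δ : ℕ := μ * μ + 4 * (k - μ) with hΔ
  have hΔR : (Δ : ℝ) = (μ : ℝ) * μ + 4 * ((k : ℝ) - μ) := by
    rw [hΔ]; push_cast [Nat.cast_sub hμk]; ring
  have hΔpos : (0 : ℝ) < Δ := by rw [hΔR]; nlinarith
  set s : ℝ := Real.sqrt Δ with hs
  have hs2 : s * s = (μ : ℝ) * μ + 4 * ((k : ℝ) - μ) := by
    rw [hs, Real.mul_self_sqrt hΔpos.le, hΔR]
  have hspos : 0 < s := Real.sqrt_pos.2 hΔpos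
  set τ : ℝ := (-(μ : ℝ) - s) / 2 with hτ
  set c : ℝ := (τ - k) / v with hc
  have hcv : c * v = τ - k := by rw [hc]; field_simp
  have e1 : -(μ : ℝ) - 2 * τ = s := by rw [hτ]; ring
  have e2 : (k : ℝ) - μ + τ * τ = -(s * τ) := by
    rw [hτ]; linear_combination (-1 / 4 : ℝ) * hs2
  have e3 : (μ : ℝ) + c * (c * v) + 2 * c * k - 2 * τ * c = s * c := by
    have h5 : (μ : ℝ) * v + (τ - k) * (k - τ - s) = 0 := by
      rw [hτ]; linear_combination (-1 : ℝ) * h4 + (1 / 4 : ℝ) * hs2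
    have h6 : c * (k - τ - s) = -(μ : ℝ) := by
      rw [hc, div_mul_eq_mul_div, div_eq_iff hvR.ne']; linarith
    rw [hcv]; linarith
  set M : Matrix V V ℝ := A - τ • (1 : Matrix V V ℝ) + c • J with hM
  have hMM : M * M = s • M := by
    have h1 : M * M = ((k : ℝ) - μ + τ * τ) • (1 : Matrix V V ℝ) + (-(μ : ℝ) - 2 * τ) • A
        + ((μ : ℝ) + c * (c * v) + 2 * c * k - 2 * τ * c) • J := by
      rw [hM]
      simp only [Matrix.add_mul, Matrix.mul_add, Matrix.sub_mul, Matrix.mul_sub, Matrix.smul_mul,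
        Matrix.mul_smul, Matrix.one_mul, Matrix.mul_one, hAA, hAJ, hJA, hJJ]
      module
    rw [h1, e1, e2, e3, hM]
    module
  set P : Matrix V V ℝ := s⁻¹ • M with hP
  have hPP : P * P = P := by
    rw [hP, Matrix.smul_mul, Matrix.mul_smul, hMM, smul_smul, smul_smul]
    congr 1
    field_simp
  have hidem : IsIdempotentElem (Matrix.toLin' P) := by
    unfold IsIdempotentElem
    rw [Module.End.mul_eq_comp, ← Matrix.toLin'_mul, hPP]
  have htr := (LinearMap.IsIdempotentElem.isProj_range _ hidem).trace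
  rw [Matrix.trace_toLin'_eq] at htr
  set m : ℕ := Module.finrank ℝ (LinearMap.range (Matrix.toLin' P)) with hm
  have htrP : Matrix.trace P = s⁻¹ * (-(τ * v) + c * v) := by
    rw [hP, hM, Matrix.trace_smul, Matrix.trace_add, Matrix.trace_sub, Matrix.trace_smul,
      Matrix.trace_smul, htrA, htrJ, htr1]
    simp only [smul_eq_mul]
    ring
  have hkey : s * (2 * (m : ℝ) - ((v : ℝ) - 1)) = (k : ℝ) * ((k : ℝ) + μ - 3) := by
    have h7 : (m : ℝ) * s = -(τ * v) + c * v := by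
      rw [← htr, htrP]; field_simp
    rw [hcv] at h7
    rw [hτ] at h7
    linear_combination (2 : ℝ) * h7 - h4
  -- integrality
  have hc0 : (0 : ℝ) < (k : ℝ) * ((k : ℝ) + μ - 3) := by
    apply mul_pos <;> linarith
  have hd0 : (2 * (m : ℝ) - ((v : ℝ) - 1)) ≠ 0 := by
    intro h0
    rw [h0, mul_zero] at hkey
    linarith
  have hsq : IsSquare Δ := by
    by_contra hns
    have hirrat : Irrational (Real.sqrt (Δ : ℝ)) := irrational_sqrt_natCast_iff.2 hns
    apply hirrat
    refine ⟨((k : ℚ) * ((k : ℚ) + μ - 3)) / (2 * (m : ℚ) - ((v : ℚ) - 1)), ?_⟩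
    push_cast
    rw [← hs, div_eq_iff hd0]
    exact hkey.symm
  obtain ⟨s₀, hs₀⟩ := hsq
  refine ⟨s₀, hs₀.symm, ?_⟩
  have hss₀ : s = (s₀ : ℝ) := by
    rw [hs, hs₀]
    push_cast
    exact Real.sqrt_mul_self (Nat.cast_nonneg s₀)
  rw [hss₀] at hkey
  have hkμ : 3 ≤ k + μ := by omega
  have hZ : (s₀ : ℤ) * (2 * (m : ℤ) - ((v : ℤ) - 1)) = ((k * (k + μ - 3) : ℕ) : ℤ) := by
    have : ((s₀ : ℤ) * (2 * (m : ℤ) - ((v : ℤ) - 1)) : ℝ) = (((k * (k + μ - 3) : ℕ) : ℤ) : ℝ) := by
      push_cast [Nat.cast_sub hkμ]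
      rw [hkey]
    exact_mod_cast this
  have hdvd : (s₀ : ℤ) ∣ ((k * (k + μ - 3) : ℕ) : ℤ) := ⟨_, hZ.symm⟩
  exact Int.natCast_dvd_natCast.1 hdvd

end Cfsg.Agent.Lib.Helper4.F15
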