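import Mathlib
import Cfsg.Agent.Lib.Helper92.FT12Defs
import Cfsg.Agent.Lib.Helper34.Lin2b
import Cfsg.Agent.Lib.Helper34.Rank2b

/-!
# S1421 (helper92's project FT12), piece NBAR

In the abelian Sylow case `N(A)/C(A)` is abelian: commutators of `N(A)` centralize `A`.
-/

set_option autoImplicit false
set_option linter.style.haveILetI false

namespace Cfsg.Agent.Lib.Helper4.FT12

open Cfsg Cfsg.Agent.Lib.Helper92.FT
open scoped commutatorElement

universe u

theorem nbar : NBarStmt.{u} := by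
  intro G _ _ hG M E hM hE p _ A hT hab n hn e he
  have hp : p.Prime := Fact.out
  obtain ⟨hAcomm, hAexp⟩ := hT.hA
  have hA2 := hT.hA2
  -- the normalizer is a proper subgroup
  obtain ⟨N, hNdef⟩ : ∃ N : Subgroup G, N = Subgroup.normalizer (A : Set G) := ⟨_, rfl⟩
  rw [← hNdef] at hn he
  have hNA : N ≤ Subgroup.normalizer (A : Set G) := le_of_eq hNdef
  have hNtop : N ≠ ⊤ := by
    intro htop
    have hAn : A.Normal := by
      rw [← Subgroup.normalizer_eq_top_iff, ← hNdef, htop]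
    have hsimple : IsSimpleGroup G := hG.2.1
    rcases hAn.eq_bot_or_eq_top with h | h
    · rw [h, Subgroup.card_bot] at hA2
      have h2 : 2 ≤ p := hp.two_le
      nlinarith
    · apply hG.2.2.1
      refine ⟨⟨fun x y => ?_⟩⟩
      have hx : x ∈ A := by rw [h]; exact Subgroup.mem_top x
      have hy : y ∈ A := by rw [h]; exact Subgroup.mem_top y
      exact congrArg Subtype.val (hAcomm.is_comm.comm ⟨x, hx⟩ ⟨y, hy⟩)
  have hsol : Group.IsSolvable ↥N := hG.2.2.2 N hNtop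
  have hodd : Odd (Nat.card ↥N) := Odd.of_dvd_nat hG.1 (Subgroup.card_subgroup_dvd_card N)
  -- an abelian Sylow subgroup containing A
  have hApg : IsPGroup p ↥A := IsPGroup.of_card hA2
  obtain ⟨S₁, hAS₁⟩ := hApg.exists_le_sylow
  obtain ⟨S, hS⟩ := hab
  obtain ⟨g, hg⟩ := MulAction.exists_smul_eq G S S₁
  have hS₁comm : ∀ x ∈ (S₁ : Subgroup G), ∀ y ∈ (S₁ : Subgroup G), x * y = y * x := by
    intro x hx y hy
    rw [← hg, Sylow.coe_subgroup_smul, Subgroup.mem_smul_pointwise_iff_exists] at hx hy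
    obtain ⟨s, hs, rfl⟩ := hx
    obtain ⟨t, ht, rfl⟩ := hy
    have hst : s * t = t * s := congrArg Subtype.val (hS.is_comm.comm ⟨s, hs⟩ ⟨t, ht⟩)
    simp only [MulAut.smul_def, MulAut.conj_apply]
    calc g * s * g⁻¹ * (g * t * g⁻¹) = g * (s * t) * g⁻¹ := by group
      _ = g * (t * s) * g⁻¹ := by rw [hst]
      _ = g * t * g⁻¹ * (g * s * g⁻¹) := by group
  have hS₁C : (S₁ : Subgroup G) ≤ Subgroup.centralizer (A : Set G) := by
    intro x hx
    rw [Subgroup.mem_centralizer_iff]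
    intro a ha
    exact hS₁comm a (hAS₁ ha) x hx
  have hS₁N : (S₁ : Subgroup G) ≤ N := by
    rw [hNdef]
    exact hS₁C.trans (Subgroup.centralizer_le_normalizer _)
  -- the action on A
  obtain ⟨φ, hφdef⟩ : ∃ φ : ↥N →* MulAut ↥A,
      φ = Cfsg.Agent.Lib.Helper34.conjAut A N hNA := ⟨_, rfl⟩
  have hφapp : ∀ (x : ↥N) (a : ↥A), ((φ x a : ↥A) : G) = (x : G) * a * (x : G)⁻¹ := by
    intro x a; rw [hφdef]; rfl
  have hφp : ∀ x ∈ commutator ↥N, (φ x) ^ p = 1 := by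
    letI : CommGroup ↥A :=
      { (inferInstance : Group ↥A) with mul_comm := fun x y => hAcomm.is_comm.comm x y }
    have hVp : ∀ x : ↥A, x ^ p = 1 := fun x => Subtype.ext (by simpa using hAexp x x.2)
    exact Cfsg.Agent.Lib.Helper34.mulAut_commutator_pow p hVp (le_of_eq hA2) hsol hodd φ
  -- the kernel contains a Sylow subgroup of N
  have hker : ((S₁.subtype hS₁N : Sylow p ↥N) : Subgroup ↥N) ≤ φ.ker := by
    intro x hx
    have hx' : (x : G) ∈ (S₁ : Subgroup G) := by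
      simpa [Sylow.coe_subtype, Subgroup.mem_subgroupOf] using hx
    rw [MonoidHom.mem_ker]
    ext a
    rw [hφapp]
    have hc := Subgroup.mem_centralizer_iff.mp (hS₁C hx') (a : G) a.2
    show (x : G) * a * (x : G)⁻¹ = ((1 : MulAut ↥A) a : ↥A)
    rw [MulAut.one_apply, ← hc, mul_inv_cancel_right]
  have hnd : ¬ p ∣ Nat.card φ.range := by
    rw [← Subgroup.index_ker]
    intro hdvd
    exact (S₁.subtype hS₁N).not_dvd_index (hdvd.trans (Subgroup.index_dvd_of_le hker))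
  have hφ1 : ∀ x ∈ commutator ↥N, φ x = 1 := by
    intro x hx
    have h1 : orderOf (φ x) ∣ p := orderOf_dvd_of_pow_eq_one (hφp x hx)
    have h2 : orderOf (φ x) ∣ Nat.card φ.range := by
      have h3 : (⟨φ x, MonoidHom.mem_range.mpr ⟨x, rfl⟩⟩ : φ.range) ^ Nat.card φ.range = 1 :=
        pow_card_eq_one'
      have h4 : (φ x) ^ Nat.card φ.range = 1 := by
        have := congrArg (fun y : φ.range => (y : MulAut ↥A)) h3
        simpa using this
      exact orderOf_dvd_of_pow_eq_one h4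
    have hcop : Nat.Coprime p (Nat.card φ.range) := (Nat.Prime.coprime_iff_not_dvd hp).mpr hnd
    have h5 : orderOf (φ x) = 1 := Nat.eq_one_of_dvd_coprimes hcop h1 h2
    exact orderOf_eq_one_iff.mp h5
  -- conclusion
  have hcm : ⁅(⟨n, hn⟩ : ↥N), (⟨e, he⟩ : ↥N)⁆ ∈ commutator ↥N := by
    rw [commutator_def]
    exact Subgroup.commutator_mem_commutator (Subgroup.mem_top _) (Subgroup.mem_top _)
  have h1 := hφ1 _ hcm
  rw [Subgroup.mem_centralizer_iff]
  intro a ha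
  have h2 := hφapp ⁅(⟨n, hn⟩ : ↥N), (⟨e, he⟩ : ↥N)⁆ ⟨a, ha⟩
  rw [h1, MulAut.one_apply] at h2
  have h3 : ((⁅(⟨n, hn⟩ : ↥N), (⟨e, he⟩ : ↥N)⁆ : ↥N) : G) = n * e * n⁻¹ * e⁻¹ := by
    rw [commutatorElement_def]; rfl
  rw [h3] at h2
  -- h2 : a = (n e n⁻¹ e⁻¹) a (n e n⁻¹ e⁻¹)⁻¹
  have h4 : (a : G) = n * e * n⁻¹ * e⁻¹ * a * (n * e * n⁻¹ * e⁻¹)⁻¹ := h2
  calc a * (n * e * n⁻¹ * e⁻¹)
      = (n * e * n⁻¹ * e⁻¹ * a * (n * e * n⁻¹ * e⁻¹)⁻¹) * (n * e * n⁻¹ * e⁻¹) := by rw [← h4]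
    _ = n * e * n⁻¹ * e⁻¹ * a := by group

end Cfsg.Agent.Lib.Helper4.FT12
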