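import Mathlib
import Cfsg.Agent.Lib.Helper83.ProjDeg
import Cfsg.Agent.Lib.Helper20.Ito
import Cfsg.Agent.Lib.Helper22.Defect

/-!
# A relative form of Itô's theorem (helper4)

* `ito_rep_comm` : the degree of an irreducible representation divides the index of a normal
  subgroup whose image under the representation is commutative.
* `mult_dvd_index_of_abelian` : if `χ ∈ Irr(G)` restricts to `N ⊴ G` as `e • θ`, `θ ∈ Irr(N)`,
  and `N ≤ A ⊴ G` with `A / N` abelian of exponent dividing `q`, `q` prime to `θ(1) |N|`,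
  then `e` divides `|G : A|`.
-/

set_option autoImplicit false

namespace Cfsg.Agent.Lib.Helper4

open scoped ComplexConjugate
open Cfsg

section ItoComm

/-- **Itô's theorem** for a normal subgroup whose image under the representation is
commutative. -/
theorem ito_rep_comm {G : Type*} [Group G] [Finite G] {V : Type*} [AddCommGroup V] [Module ℂ V]
    [FiniteDimensional ℂ V] (ρ : Representation ℂ G V) [hρ : ρ.IsIrreducible] (H : Subgroup G)
    [hHn : H.Normal] (hH : ∀ a ∈ H, ∀ b ∈ H, ρ a * ρ b = ρ b * ρ a) :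
    Module.finrank ℂ V ∣ H.index := by
  classical
  set φ : G →* (Module.End ℂ V)ˣ := MonoidHom.toHomUnits ρ with hφ
  let ρ' : Representation ℂ (G ⧸ φ.ker) V :=
    (Units.coeHom (Module.End ℂ V)).comp (QuotientGroup.kerLift φ)
  have hρ' : ∀ g : G, ρ' (QuotientGroup.mk g) = ρ g := by
    intro g
    show ((QuotientGroup.kerLift φ (QuotientGroup.mk g) : (Module.End ℂ V)ˣ) :
      Module.End ℂ V) = ρ g
    rw [QuotientGroup.kerLift_mk]
    rfl
  have hirr : ρ'.IsIrreducible :=
    Helper83.irreducible_of_equiv ρ ρ' (LinearEquiv.refl ℂ V)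
      (fun g => ⟨QuotientGroup.mk g, fun v => by rw [hρ' g]; rfl⟩) hρ
  have : (H.map (QuotientGroup.mk' φ.ker)).Normal :=
    hHn.map (QuotientGroup.mk' φ.ker) (QuotientGroup.mk'_surjective _)
  have hab : ∀ a ∈ H.map (QuotientGroup.mk' φ.ker), ∀ b ∈ H.map (QuotientGroup.mk' φ.ker),
      a * b = b * a := by
    rintro _ ⟨a, ha, rfl⟩ _ ⟨b, hb, rfl⟩
    show (QuotientGroup.mk a : G ⧸ φ.ker) * QuotientGroup.mk b =
      QuotientGroup.mk b * QuotientGroup.mk a
    rw [← QuotientGroup.mk_mul, ← QuotientGroup.mk_mul, QuotientGroup.eq, MonoidHom.mem_ker,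
      map_mul, map_inv, inv_mul_eq_one]
    apply Units.ext
    show ρ (a * b) = ρ (b * a)
    rw [map_mul, map_mul, hH a ha b hb]
  have h1 := Helper20.ito_rep ρ' (H.map (QuotientGroup.mk' φ.ker)) hab
  exact h1.trans (Subgroup.index_map_dvd H (QuotientGroup.mk'_surjective _))

end ItoComm

section RelIto

variable {G : Type*} [Group G] (N : Subgroup G) [hN : N.Normal]

/-- **Relative Itô**: if `χ ∈ Irr(G)` restricts to the normal subgroup `N` as `e • θ` with
`θ ∈ Irr(N)`, and `A` is a normal subgroup containing `N` with `A / N` abelian of exponent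
dividing `q`, where `q` is prime to `θ(1) |N|`, then `e` divides `|G : A|`. -/
theorem mult_dvd_index_of_abelian [Finite G] {χ : G → ℂ} (hχ : IsIrrCharacter G χ) {θ : N → ℂ}
    (hθ : IsIrrCharacter N θ) (e : ℕ) (hres : ∀ n : N, χ n = e * θ n)
    (A : Subgroup G) [hAn : A.Normal]
    (hab : ∀ a ∈ A, ∀ b ∈ A, a * b * a⁻¹ * b⁻¹ ∈ N)
    (q : ℕ) (hq : ∀ a ∈ A, a ^ q ∈ N)
    (hcop : Nat.Coprime q (charDegree θ * Nat.card N)) : e ∣ A.index := by
  classical
  have hθ' := hθ
  obtain ⟨d, σ, hσ, hσθ⟩ := hθ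
  have := hσ
  have he : (e : ℂ) ≠ 0 := by
    intro h0
    have h1 := hres 1
    rw [h0, zero_mul] at h1
    exact Helper83.irr_one_ne_zero hχ h1
  have he0 : 0 < e := Nat.pos_of_ne_zero (fun h => he (by rw [h]; simp))
  have hd : 0 < d := by
    have hnt := Helper5.irr_nontrivial σ
    by_contra h0
    have hd0 : d = 0 := by omega
    subst hd0
    exact not_subsingleton (Fin 0 → ℂ) inferInstance
  have hdeg : charDegree θ = d := by
    apply Cfsg.Agent.Lib.Helper22.charDegree_eq_of_one_eq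
    rw [← hσθ, Representation.char_one, Module.finrank_fin_fun]
  have hinv : ∀ (g : G) (n m : N), (m : G) = g * n * g⁻¹ → σ.character m = σ.character n := by
    intro g n m h
    have h1 := hres n
    have h2 := hres m
    rw [h, Helper83.irr_classFunction hχ] at h2
    rw [hσθ]
    have h3 : (e : ℂ) * θ m = e * θ n := by rw [← h2, ← h1]
    exact mul_left_cancel₀ he h3
  have hsurj := Helper83.liftFst_surjective N σ hd hinv
  have : Finite (Helper83.liftGroup N σ) := Helper83.liftGroup_finite N σ hσ hd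
  let _ : Fintype (Helper83.liftGroup N σ) := Fintype.ofFinite _
  let _ : Fintype (Helper83.liftN N σ) := Fintype.ofFinite _
  let _ : Fintype N := Fintype.ofFinite _
  set θt : Helper83.liftGroup N σ → ℂ := (Helper83.liftRep N σ).character with hθt
  have hθt_irr : IsIrrCharacter (Helper83.liftGroup N σ) θt :=
    ⟨d, Helper83.liftRep N σ, Helper83.liftRep_irreducible N σ hσ, rfl⟩
  have hθtN : IsIrrCharacter (Helper83.liftN N σ) (fun n : Helper83.liftN N σ => θt n) :=
    ⟨d, Helper83.liftRepN N σ, Helper83.liftRepN_irreducible N σ hσ, rfl⟩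
  set χt : Helper83.liftGroup N σ → ℂ := fun x => χ (Helper83.liftFst N σ x) with hχt
  have hχt_irr : IsIrrCharacter (Helper83.liftGroup N σ) χt :=
    Helper20.irr_comp_surjective (Helper83.liftFst N σ) hsurj hχ
  obtain ⟨h1, -, -⟩ := Cfsg.Agent.S0868.result (Helper83.liftN N σ) θt hθt_irr hθtN χt hχt_irr
    (Cfsg.Agent.S0868.eta (Helper83.liftN N σ) χt θt) rfl
  have hsum : ∀ F : Helper83.liftGroup N σ → ℂ,
      ∑ m : Helper83.liftN N σ, F m = ∑ n : N, F (Helper83.liftIncl N σ n) := by
    intro F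
    obtain ⟨E, hE⟩ : ∃ E : N ≃ Helper83.liftN N σ,
        ∀ n : N, (E n : Helper83.liftGroup N σ) = Helper83.liftIncl N σ n :=
      ⟨(MonoidHom.ofInjective (Helper83.liftIncl_injective N σ)).toEquiv, fun n => rfl⟩
    have h2 := (Equiv.sum_comp E (fun m : Helper83.liftN N σ => F m)).symm
    simp only [hE] at h2
    exact h2
  have hcardN : Nat.card (Helper83.liftN N σ) = Nat.card N :=
    (Nat.card_congr (MonoidHom.ofInjective (Helper83.liftIncl_injective N σ)).toEquiv).symm
  have hnorm : classInner θ θ = 1 := by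
    have := Helper83.irr_orthonormal (⟨θ, hθ'⟩ : IrrCharacter N) ⟨θ, hθ'⟩
    simpa using this
  have hinner : classInner (fun n : Helper83.liftN N σ => χt n)
      (fun n : Helper83.liftN N σ => θt n) = e := by
    unfold classInner
    rw [hcardN, hsum (fun x => χt x * conj (θt x))]
    have h2 : ∀ n : N, χt (Helper83.liftIncl N σ n) * conj (θt (Helper83.liftIncl N σ n)) =
        e * (θ n * conj (θ n)) := by
      intro n
      have h3 : χt (Helper83.liftIncl N σ n) = χ n := rfl
      have h4 : θt (Helper83.liftIncl N σ n) = θ n := by rw [← hσθ]; rfl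
      rw [h3, h4, hres n, mul_assoc]
    rw [Finset.sum_congr rfl (fun n _ => h2 n), ← Finset.mul_sum, ← mul_assoc,
      mul_comm _ (e : ℂ), mul_assoc]
    unfold classInner at hnorm
    rw [hnorm, mul_one]
  have hη := h1 (by rw [hinner]; exact he)
  have hη1 : Cfsg.Agent.S0868.eta (Helper83.liftN N σ) χt θt 1 = e := by
    rw [Cfsg.Agent.S0868.eta_one]
    exact hinner
  have hηN : ∀ n : N, Cfsg.Agent.S0868.eta (Helper83.liftN N σ) χt θt (Helper83.liftIncl N σ n) =
      Cfsg.Agent.S0868.eta (Helper83.liftN N σ) χt θt 1 := by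
    intro n
    have h2 := Cfsg.Agent.S0868.eta_mul_left (Helper83.liftN N σ) χt θt 1
      ⟨Helper83.liftIncl N σ n, ⟨n, rfl⟩⟩
    rw [mul_one] at h2
    exact h2
  obtain ⟨m, ρ, hρ, hρη⟩ := hη
  have := hρ
  have hm : m = e := by
    have h2 := Representation.char_one ρ
    rw [hρη, hη1, Module.finrank_fin_fun] at h2
    exact_mod_cast h2.symm
  have hm0 : 0 < m := hm ▸ he0
  have hρn : ∀ n : N, ρ (Helper83.liftIncl N σ n) = 1 := by
    intro n
    apply (Helper83.char_eq_iff_rho_eq_one ρ _).mp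
    rw [hρη, hηN]
  -- scalars on the preimage of `N`, of order dividing `d * |N|`
  have hscal : ∀ a ∈ N.comap (Helper83.liftFst N σ), ∃ c : ℂ, ρ a = c • LinearMap.id ∧
      c ^ (d * Nat.card N) = 1 := by
    intro a ha
    let n : N := ⟨Helper83.liftFst N σ a, ha⟩
    set b : Helper83.liftGroup N σ := (Helper83.liftIncl N σ n)⁻¹ * a with hb
    have hb1 : b.1.1 = 1 := by
      show ((Helper83.liftIncl N σ n)⁻¹ * a).1.1 = 1
      have h2 : ((Helper83.liftIncl N σ n)⁻¹ * a).1.1 =
        ((Helper83.liftIncl N σ n).1.1)⁻¹ * a.1.1 := rfl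
      rw [h2, Helper83.liftIncl_fst]
      exact inv_mul_cancel _
    have ha' : a = Helper83.liftIncl N σ n * b := by rw [hb]; group
    obtain ⟨c0, hc0, hc0pow⟩ := Helper83.liftGroup_scalar N σ b hb1
    have hbc : ∀ y : Helper83.liftGroup N σ, b * y = y * b := by
      intro y
      apply Subtype.ext
      apply Prod.ext
      · show b.1.1 * y.1.1 = y.1.1 * b.1.1
        rw [hb1, one_mul, mul_one]
      · apply Units.ext
        show (b.1.2 : Module.End ℂ (Fin d → ℂ)) * (y.1.2 : Module.End ℂ (Fin d → ℂ)) =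
          (y.1.2 : Module.End ℂ (Fin d → ℂ)) * (b.1.2 : Module.End ℂ (Fin d → ℂ))
        rw [hc0]
        apply LinearMap.ext
        intro v
        simp
    have hcomm : ∀ (y : Helper83.liftGroup N σ) (v : Fin m → ℂ), ρ b (ρ y v) = ρ y (ρ b v) := by
      intro y v
      have h2 : ρ b * ρ y = ρ y * ρ b := by rw [← map_mul, hbc y, map_mul]
      exact congrArg (fun f : Module.End ℂ (Fin m → ℂ) => f v) h2
    obtain ⟨c, hc⟩ := Helper5.schur_scalar ρ (ρ b) hcomm
    refine ⟨c, by rw [ha', map_mul, hρn, one_mul, hc], ?_⟩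
    -- `b ^ (d * |N|) = 1`
    have hbpow : b ^ (d * Nat.card N) = 1 := by
      apply Subtype.ext
      apply Prod.ext
      · show (b ^ (d * Nat.card N)).1.1 = 1
        have h2 : (b ^ (d * Nat.card N)).1.1 = b.1.1 ^ (d * Nat.card N) := by
          rw [Subgroup.coe_pow, Prod.pow_fst]
        rw [h2, hb1, one_pow]
      · apply Units.ext
        show (((b ^ (d * Nat.card N)).1.2 : (Module.End ℂ (Fin d → ℂ))ˣ) :
          Module.End ℂ (Fin d → ℂ)) = 1
        have h2 : (b ^ (d * Nat.card N)).1.2 = b.1.2 ^ (d * Nat.card N) := by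
          rw [Subgroup.coe_pow, Prod.pow_snd]
        rw [h2, Units.val_pow_eq_pow_val, hc0, smul_pow, hc0pow, one_smul]
        exact one_pow _
    have h3 : ρ b ^ (d * Nat.card N) = 1 := by rw [← map_pow, hbpow, map_one]
    rw [hc, smul_pow] at h3
    have h4 := congrArg (fun f : Module.End ℂ (Fin m → ℂ) => f (fun _ => (1 : ℂ)) ⟨0, hm0⟩) h3
    simpa using h4
  -- the preimage of `A`
  have hAt : (A.comap (Helper83.liftFst N σ)).Normal := hAn.comap _
  have hcommA : ∀ a ∈ A.comap (Helper83.liftFst N σ), ∀ b ∈ A.comap (Helper83.liftFst N σ),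
      ρ a * ρ b = ρ b * ρ a := by
    intro a ha b hb
    have hw : a * b * a⁻¹ * b⁻¹ ∈ N.comap (Helper83.liftFst N σ) := by
      rw [Subgroup.mem_comap, map_mul, map_mul, map_mul, map_inv, map_inv]
      exact hab _ ha _ hb
    obtain ⟨c, hc, hcpow⟩ := hscal _ hw
    have hbq : b ^ q ∈ N.comap (Helper83.liftFst N σ) := by
      rw [Subgroup.mem_comap, map_pow]
      exact hq _ hb
    obtain ⟨c', hc', -⟩ := hscal _ hbq
    -- `ρ a * ρ b = c • (ρ b * ρ a)`
    have h5 : ρ a * ρ b = c • (ρ b * ρ a) := by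
      have h6 : ρ (a * b * a⁻¹ * b⁻¹) * (ρ b * ρ a) = ρ a * ρ b := by
        rw [← map_mul ρ b a, ← map_mul, ← map_mul ρ a b]
        congr 1
        group
      rw [← h6, hc, smul_mul_assoc, ← Module.End.one_eq_id, one_mul]
    -- by induction `ρ a * ρ b ^ k = c ^ k • (ρ b ^ k * ρ a)`
    have h7 : ∀ k : ℕ, ρ a * ρ b ^ k = c ^ k • (ρ b ^ k * ρ a) := by
      intro k
      induction k with
      | zero => simp
      | succ k ih =>
        rw [pow_succ, ← mul_assoc, ih, smul_mul_assoc, mul_assoc, h5, mul_smul_comm, smul_smul,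
          ← mul_assoc, ← pow_succ]
    have h8 := h7 q
    rw [← map_pow, hc'] at h8
    have h9 : (c' • LinearMap.id : Module.End ℂ (Fin m → ℂ)) * ρ a =
        ρ a * (c' • LinearMap.id : Module.End ℂ (Fin m → ℂ)) := by
      apply LinearMap.ext
      intro v
      simp
    rw [← h9] at h8
    -- `c ^ q = 1`
    have hunit : IsUnit ((c' • LinearMap.id : Module.End ℂ (Fin m → ℂ)) * ρ a) := by
      rw [← hc', ← map_mul]
      exact (MonoidHom.toHomUnits ρ (b ^ q * a)).isUnit
    have h10 : c ^ q = 1 := by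
      obtain ⟨u, hu⟩ := hunit
      rw [← hu] at h8
      have h11 : (1 : Module.End ℂ (Fin m → ℂ)) = c ^ q • (1 : Module.End ℂ (Fin m → ℂ)) := by
        have h12 := congrArg (fun f : Module.End ℂ (Fin m → ℂ) =>
          f * ((u⁻¹ : (Module.End ℂ (Fin m → ℂ))ˣ) : Module.End ℂ (Fin m → ℂ))) h8
        simp only [smul_mul_assoc, Units.mul_inv] at h12
        exact h12
      have h13 := congrArg (fun f : Module.End ℂ (Fin m → ℂ) => f (fun _ => (1 : ℂ)) ⟨0, hm0⟩) h11
      simpa using h13.symm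
    have h14 : c ^ (Nat.gcd q (d * Nat.card N)) = 1 := pow_gcd_eq_one.mpr ⟨h10, hcpow⟩
    rw [← hdeg] at h14
    rw [Nat.Coprime] at hcop
    rw [hcop, pow_one] at h14
    rw [h5, h14, one_smul]
  have hdvd := ito_rep_comm ρ (A.comap (Helper83.liftFst N σ)) hcommA
  rw [Subgroup.index_comap_of_surjective A hsurj, Module.finrank_fin_fun, hm] at hdvd
  exact hdvd

end RelIto

end Cfsg.Agent.Lib.Helper4
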