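import Mathlib
import Cfsg.Agent.Lib.Helper40.HallHigman
import Cfsg.Agent.Lib.Helper55.Basic
import Cfsg.Agent.Lib.Helper75.FrattiniAct
import Cfsg.Agent.Lib.Helper31.PComp
import Cfsg.Agent.Lib.Helper81.BlockNormal

/-!
# Group theory for Fong's height bound (helper4)

`exists_abelian_over_pPrimeCore`: in a `p`-solvable group `G` with `N = O_{p'}(G)` and a Sylow
`p`-subgroup `P` there is a normal subgroup `A ⊇ N` with `A / N` an abelian `p`-group and
`ν_p |G : A| ≤ ν_p |P : Z(P)|` (namely the preimage of `Z(O_p(G / N))`).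
-/

set_option autoImplicit false

namespace Cfsg.Agent.Lib.Helper4

open Cfsg

theorem exists_abelian_over_pPrimeCore {G : Type*} [Group G] [Finite G] (p : ℕ) [Fact p.Prime]
    (hsolv : IsPSolvable p G) (P : Sylow p G) :
    ∃ A : Subgroup G, A.Normal ∧ pPrimeCore p G ≤ A ∧
      (∀ a ∈ A, ∀ b ∈ A, a * b * a⁻¹ * b⁻¹ ∈ pPrimeCore p G) ∧
      (∃ k : ℕ, ∀ a ∈ A, a ^ (p ^ k) ∈ pPrimeCore p G) ∧
      (A.index).factorization p ≤
        ((Subgroup.center (P : Subgroup G)).index).factorization p := by
  classical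
  have hp : p.Prime := Fact.out
  have hNn : (pPrimeCore p G).Normal := Cfsg.Agent.Lib.Helper81.pPrimeCore_normal p
  have hNc : (Nat.card (pPrimeCore p G)).Coprime p := Cfsg.Agent.Lib.Helper81.pPrimeCore_coprime p
  have hsolvQ : IsPSolvable p (G ⧸ pPrimeCore p G) :=
    Cfsg.Agent.Lib.Helper75.Fratt.isPSolvable_quotient (pPrimeCore p G) hsolv
  have hcoreQ : pPrimeCore p (G ⧸ pPrimeCore p G) = ⊥ :=
    Cfsg.Agent.Lib.Helper31.pPrimeCore_quotient_eq_bot p
  have hHH := Cfsg.Agent.Lib.Helper40.centralizer_pCore_le hsolvQ hcoreQ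
  have hQn : (pCore p (G ⧸ pPrimeCore p G)).Normal := Cfsg.Agent.Lib.Helper40.pCore_normal' p
  have hQp : IsPGroup p (pCore p (G ⧸ pPrimeCore p G)) :=
    Cfsg.Agent.Lib.Helper40.pCore_isPGroup' p
  set Q := pCore p (G ⧸ pPrimeCore p G) with hQ
  set Z : Subgroup (G ⧸ pPrimeCore p G) := (Subgroup.center Q).map Q.subtype with hZ
  have hZn : Z.Normal := ConjAct.normal_of_characteristic_of_normal
  have hmemZ : ∀ x : G ⧸ pPrimeCore p G, x ∈ Z ↔ x ∈ Q ∧ ∀ y ∈ Q, y * x = x * y := by
    intro x
    constructor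
    · rintro ⟨z, hz, rfl⟩
      refine ⟨z.2, fun y hy => ?_⟩
      have h1 := Subgroup.mem_center_iff.mp hz ⟨y, hy⟩
      exact congrArg Subtype.val h1
    · rintro ⟨hx, hc⟩
      exact ⟨⟨x, hx⟩, Subgroup.mem_center_iff.mpr (fun g => Subtype.ext (hc g g.2)), rfl⟩
  have hZQ : Z ≤ Q := fun x hx => ((hmemZ x).mp hx).1
  refine ⟨Z.comap (QuotientGroup.mk' (pPrimeCore p G)), hZn.comap _, ?_, ?_, ?_, ?_⟩
  · intro n hn
    rw [Subgroup.mem_comap]
    have : QuotientGroup.mk' (pPrimeCore p G) n = 1 := (QuotientGroup.eq_one_iff n).mpr hn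
    rw [this]
    exact Z.one_mem
  · intro a ha b hb
    rw [Subgroup.mem_comap] at ha hb
    have h1 := ((hmemZ _).mp ha).2 _ (hZQ hb)
    rw [← QuotientGroup.eq_one_iff]
    show QuotientGroup.mk' (pPrimeCore p G) (a * b * a⁻¹ * b⁻¹) = 1
    rw [map_mul, map_mul, map_mul, map_inv, map_inv, ← h1]
    group
  · obtain ⟨k, hk⟩ := hQp.exists_card_eq
    refine ⟨k, fun a ha => ?_⟩
    rw [Subgroup.mem_comap] at ha
    have h1 : (⟨_, hZQ ha⟩ : Q) ^ Nat.card Q = 1 := pow_card_eq_one'
    have h2 := congrArg Subtype.val h1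
    rw [hk] at h2
    rw [← QuotientGroup.eq_one_iff]
    exact h2
  · rw [Subgroup.index_comap_of_surjective Z (QuotientGroup.mk'_surjective _)]
    -- cardinalities
    have hcard : Nat.card G = Nat.card (G ⧸ pPrimeCore p G) * Nat.card (pPrimeCore p G) :=
      Subgroup.card_eq_card_quotient_mul_card_subgroup _
    have hNp : ¬ p ∣ Nat.card (pPrimeCore p G) := by
      intro h
      exact hp.one_lt.ne' (Nat.Coprime.eq_one_of_dvd hNc.symm h)
    have hfac : (Nat.card G).factorization p =
        (Nat.card (G ⧸ pPrimeCore p G)).factorization p := by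
      rw [hcard, Nat.factorization_mul Nat.card_pos.ne' Nat.card_pos.ne', Finsupp.add_apply,
        Nat.factorization_eq_zero_of_not_dvd hNp, add_zero]
    have hPcard : Nat.card (P : Subgroup G) = p ^ (Nat.card G).factorization p :=
      Sylow.card_eq_multiplicity P
    have hZp : IsPGroup p Z := hQp.to_le hZQ
    obtain ⟨z, hz⟩ := hZp.exists_card_eq
    have hCp : IsPGroup p (Subgroup.center (P : Subgroup G)) :=
      P.isPGroup'.to_subgroup _
    obtain ⟨z', hz'⟩ := hCp.exists_card_eq
    have h1 : Z.index * p ^ z = Nat.card (G ⧸ pPrimeCore p G) := by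
      rw [← hz]; exact Subgroup.index_mul_card Z
    have h2 : (Subgroup.center (P : Subgroup G)).index * p ^ z' =
        p ^ (Nat.card G).factorization p := by
      rw [← hz', ← hPcard]; exact Subgroup.index_mul_card _
    have hZi : Z.index ≠ 0 := Subgroup.index_ne_zero_of_finite
    have hCi : (Subgroup.center (P : Subgroup G)).index ≠ 0 := Subgroup.index_ne_zero_of_finite
    have h3 : (Z.index).factorization p + z = (Nat.card G).factorization p := by
      have := congrArg (fun n => n.factorization p) h1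
      simp only [Nat.factorization_mul hZi (pow_ne_zero _ hp.ne_zero), Finsupp.add_apply,
        Nat.Prime.factorization_pow hp, Finsupp.single_eq_same] at this
      rw [hfac]; exact this
    have h4 : ((Subgroup.center (P : Subgroup G)).index).factorization p + z' =
        (Nat.card G).factorization p := by
      have := congrArg (fun n => n.factorization p) h2
      simp only [Nat.factorization_mul hCi (pow_ne_zero _ hp.ne_zero), Finsupp.add_apply,
        Nat.Prime.factorization_pow hp, Finsupp.single_eq_same] at this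
      exact this
    -- `|Z(P)| ≤ |Z|`
    have hsurj : Function.Surjective (QuotientGroup.mk' (pPrimeCore p G)) :=
      QuotientGroup.mk'_surjective _
    have hQP : Q ≤ (P : Subgroup G).map (QuotientGroup.mk' (pPrimeCore p G)) := by
      have := Cfsg.Agent.Lib.Helper55.pCore_le_sylow (P.mapSurjective hsurj)
      exact this
    have hmem : ∀ c : Subgroup.center (P : Subgroup G),
        QuotientGroup.mk' (pPrimeCore p G) ((c : (P : Subgroup G)) : G) ∈ Z := by
      intro c
      have hcent : QuotientGroup.mk' (pPrimeCore p G) ((c : (P : Subgroup G)) : G) ∈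
          Subgroup.centralizer (Q : Set (G ⧸ pPrimeCore p G)) := by
        rw [Subgroup.mem_centralizer_iff]
        intro y hy
        obtain ⟨u, hu, rfl⟩ := hQP hy
        have h5 := Subgroup.mem_center_iff.mp c.2 ⟨u, hu⟩
        have h6 : u * ((c : (P : Subgroup G)) : G) = ((c : (P : Subgroup G)) : G) * u :=
          congrArg Subtype.val h5
        rw [← map_mul, ← map_mul, h6]
      refine (hmemZ _).mpr ⟨hHH hcent, fun y hy => ?_⟩
      exact (Subgroup.mem_centralizer_iff.mp hcent y hy)
    have hinj : Function.Injective (fun c : Subgroup.center (P : Subgroup G) =>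
        (⟨_, hmem c⟩ : Z)) := by
      intro c c' hcc
      have h5 : QuotientGroup.mk' (pPrimeCore p G) ((c : (P : Subgroup G)) : G) =
          QuotientGroup.mk' (pPrimeCore p G) ((c' : (P : Subgroup G)) : G) :=
        congrArg Subtype.val hcc
      have h6 : (((c : (P : Subgroup G)) : G))⁻¹ * ((c' : (P : Subgroup G)) : G) ∈
          pPrimeCore p G := QuotientGroup.eq.mp h5
      have h7 : (((c : (P : Subgroup G)) : G))⁻¹ * ((c' : (P : Subgroup G)) : G) ∈
          (P : Subgroup G) := mul_mem (inv_mem (c : (P : Subgroup G)).2) (c' : (P : Subgroup G)).2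
      have h8 : (((c : (P : Subgroup G)) : G))⁻¹ * ((c' : (P : Subgroup G)) : G) = 1 := by
        obtain ⟨j, hj⟩ := (IsPGroup.iff_orderOf.mp P.isPGroup')
          ⟨(((c : (P : Subgroup G)) : G))⁻¹ * ((c' : (P : Subgroup G)) : G), h7⟩
        rw [Subgroup.orderOf_mk] at hj
        have hdvd := Subgroup.orderOf_dvd_natCard _ h6
        rw [hj] at hdvd
        rcases Nat.eq_zero_or_pos j with h0 | hpos
        · rw [h0, pow_zero] at hj
          exact orderOf_eq_one_iff.mp hj
        · exact absurd ((dvd_pow_self p hpos.ne').trans hdvd) hNp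
      apply Subtype.ext
      apply Subtype.ext
      exact (inv_mul_eq_one.mp h8)
    have hle : Nat.card (Subgroup.center (P : Subgroup G)) ≤ Nat.card Z :=
      Nat.card_le_card_of_injective _ hinj
    rw [hz, hz'] at hle
    have hzz : z' ≤ z := (Nat.pow_le_pow_iff_right hp.one_lt).mp hle
    omega

end Cfsg.Agent.Lib.Helper4
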