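import Mathlib
import Cfsg.Agent.Lib.Helper4.FongHt1
import Cfsg.Agent.Lib.Helper4.FongHt2
import Cfsg.Agent.Lib.Helper20.Clifford
import Cfsg.Agent.Lib.Helper83.Codeg

/-!
# Fong's degree bound over an invariant character of `O_{p'}(G)` (helper4)

* `res_eq_mul_of_invariant` : Clifford for an invariant constituent, `χ_N = e θ`.
* `fong_degree_bound` : `G` `p`-solvable, `θ ∈ Irr(O_{p'}(G))` invariant, `χ ∈ Irr(G | θ)`, `P` a
  Sylow `p`-subgroup: `ν_p(χ(1)) ≤ ν_p |P : Z(P)|`.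
-/

set_option autoImplicit false

namespace Cfsg.Agent.Lib.Helper4

open scoped ComplexConjugate
open Cfsg

/-- Clifford for an invariant constituent: `χ_N = e θ`. -/
theorem res_eq_mul_of_invariant {G : Type*} [Group G] [Finite G] (N : Subgroup G)
    [hN : N.Normal] [Fintype N] {θ : N → ℂ} (hθ : IsIrrCharacter N θ) {χ : G → ℂ} (hχ : IsIrrCharacter G χ)
    (hcon : classInner (fun n : N => χ n) θ ≠ 0)
    (hinv : ∀ (g : G) (n : N), θ ⟨g * n * g⁻¹, hN.conj_mem n n.2 g⟩ = θ n) :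
    ∃ e : ℕ, ∀ n : N, χ n = e * θ n := by
  classical
  let _ : Fintype G := Fintype.ofFinite G
  have hconj : ∀ g : G, Helper20.conjFun N θ g = θ := by
    intro g
    funext n
    rw [Helper20.conjFun_apply]
    exact hinv g n
  have hT : ∀ g : G, g ∈ (⊤ : Subgroup G) ↔ Helper20.conjFun N θ g = θ :=
    fun g => ⟨fun _ => hconj g, fun _ => Subgroup.mem_top g⟩
  obtain ⟨k, hk⟩ := Helper35.classInner_char_nat
    (Helper35.isCharacter_res N (Helper35.isChar_of_irr hχ)) (Helper35.isChar_of_irr hθ)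
  have hk' : classInner (fun n : N => χ n) θ = k := hk
  refine ⟨k, fun n => ?_⟩
  have h1 := Helper20.clifford_res N hθ hχ hcon ⊤ hT n
  rw [h1, hk']
  have h2 : ∑ x : G, Helper20.conjFun N θ x n = (Nat.card G : ℂ) * θ n := by
    rw [Finset.sum_congr rfl (fun x _ => congrFun (hconj x) n), Finset.sum_const,
      Finset.card_univ, nsmul_eq_mul, Nat.card_eq_fintype_card]
  have hG : (Nat.card G : ℂ) ≠ 0 := by exact_mod_cast Nat.card_pos.ne'
  rw [h2, Subgroup.card_top]
  field_simp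

/-- **Fong's degree bound**: in a `p`-solvable group, a character over an invariant character
of `O_{p'}(G)` has `ν_p(χ(1)) ≤ ν_p |P : Z(P)|` for a Sylow `p`-subgroup `P`. -/
theorem fong_degree_bound {G : Type*} [Group G] [Finite G] (p : ℕ) [Fact p.Prime]
    (hsolv : IsPSolvable p G) (N : Subgroup G) [hN : N.Normal] [Fintype N]
    (hNdef : N = pPrimeCore p G) (θ : IrrCharacter N)
    (hinv : ∀ (g : G) (n : N),
      (θ : N → ℂ) ⟨g * n * g⁻¹, hN.conj_mem n n.2 g⟩ = (θ : N → ℂ) n)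
    (χ : IrrCharacter G)
    (hcon : classInner (fun n : N => (χ : G → ℂ) n) (θ : N → ℂ) ≠ 0) (P : Sylow p G) :
    (charDegree (χ : G → ℂ)).factorization p ≤
      ((Subgroup.center (P : Subgroup G)).index).factorization p := by
  classical
  have hp : p.Prime := Fact.out
  obtain ⟨e, hres⟩ := res_eq_mul_of_invariant N θ.2 χ.2 hcon hinv
  obtain ⟨A, hAn, hNA, hab, ⟨k, hk⟩, hidx⟩ := exists_abelian_over_pPrimeCore p hsolv P
  have hNc : (Nat.card N).Coprime p := by
    rw [hNdef]; exact Cfsg.Agent.Lib.Helper81.pPrimeCore_coprime p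
  have hθdvd : charDegree (θ : N → ℂ) ∣ Nat.card N := Helper83.irr_degree_dvd_card θ
  have hθc : (charDegree (θ : N → ℂ)).Coprime p := Nat.Coprime.coprime_dvd_left hθdvd hNc
  have hcop : Nat.Coprime (p ^ k) (charDegree (θ : N → ℂ) * Nat.card N) :=
    Nat.Coprime.pow_left k (Nat.Coprime.mul_right hθc.symm hNc.symm)
  have hab' : ∀ a ∈ A, ∀ b ∈ A, a * b * a⁻¹ * b⁻¹ ∈ N := by rw [hNdef]; exact hab
  have hk' : ∀ a ∈ A, a ^ (p ^ k) ∈ N := by rw [hNdef]; exact hk
  have hdvd := mult_dvd_index_of_abelian N χ.2 θ.2 e hres A hab' (p ^ k) hk' hcop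
  obtain ⟨hχpos, hχ1⟩ := Helper83.irr_degree χ.2
  obtain ⟨hθpos, hθ1⟩ := Helper83.irr_degree θ.2
  have hdeg : charDegree (χ : G → ℂ) = e * charDegree (θ : N → ℂ) := by
    have h1 := hres 1
    rw [show (((1 : N) : G)) = 1 from rfl, hχ1, hθ1] at h1
    exact_mod_cast h1
  have he0 : e ≠ 0 := by
    rintro rfl
    rw [zero_mul] at hdeg
    omega
  have hA0 : A.index ≠ 0 := Subgroup.index_ne_zero_of_finite
  have hθp : ¬ p ∣ charDegree (θ : N → ℂ) := by
    intro h
    exact hp.one_lt.ne' (Nat.Coprime.eq_one_of_dvd hθc.symm h)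
  rw [hdeg, Nat.factorization_mul he0 hθpos.ne', Finsupp.add_apply,
    Nat.factorization_eq_zero_of_not_dvd hθp, add_zero]
  exact ((Nat.factorization_le_iff_dvd he0 hA0).mpr hdvd p).trans hidx

end Cfsg.Agent.Lib.Helper4
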