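import Mathlib
import Cfsg.Agent.Lib.Helper80.Major3
import Cfsg.Agent.Lib.Helper80.Cyclo3

/-!
# Contributions of major subsections: integrality, positivity and the AM-GM lower bound (helper4)

For a major subsection `(z, e)` of `B` (`z` central in `H ⊇ C_G(z)`, `e` a block of `H` inducing
`B` with the defect of `B`) and `χ ∈ B` of height `h`:
* `alpha_div_locRing`: `alpha χ ψ / p ^ h` is a local integer;
* `alpha_self_pos`: `alpha χ χ` is a positive real;
* `sum_roots_ge`: the sum of `alpha χ χ` over the Galois conjugate subsections `(z ^ t, e)` is at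
  least `φ(p ^ E) p ^ h`.
-/

set_option autoImplicit false
set_option linter.style.haveILetI false

namespace Cfsg.Agent.Lib.Helper4.HtBound

open Cfsg Cfsg.Agent.Lib.Helper80.GenDec Cfsg.Agent.Lib.Helper80.Contrib
open Cfsg.Agent.Lib.Helper80.Major
open Cfsg.Agent.Lib.Helper4 Cfsg.Agent.Lib.Helper21 Cfsg.Agent.Lib.Helper22
open scoped ComplexConjugate

section Cyc

/-- AM-GM for a nowhere vanishing cyclotomic integer with nonnegative real conjugates, all
divisible by `p ^ h`. -/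
theorem card_mul_pow_le_sum_re {p : ℕ} {M : Ideal AlgInt} (hM : IsPModular p M) (N : ℕ)
    [NeZero N] {J : Type*} (s : Finset J) (c : J → ℤ) (k : J → ℕ) (h : ℕ)
    (hne : ∀ η ∈ primitiveRoots N ℂ, (∑ j ∈ s, (c j : ℂ) * η ^ k j) ≠ 0)
    (hreal : ∀ η ∈ primitiveRoots N ℂ, (∑ j ∈ s, (c j : ℂ) * η ^ k j).im = 0 ∧
      0 ≤ (∑ j ∈ s, (c j : ℂ) * η ^ k j).re)
    (hdiv : ∀ η ∈ primitiveRoots N ℂ,
      MemLocalRing M ((∑ j ∈ s, (c j : ℂ) * η ^ k j) / (p : ℂ) ^ h)) :
    ((primitiveRoots N ℂ).card : ℝ) * (p : ℝ) ^ h ≤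
      ∑ η ∈ primitiveRoots N ℂ, (∑ j ∈ s, (c j : ℂ) * η ^ k j).re := by
  obtain ⟨z, hz⟩ := Cfsg.Agent.Lib.Helper80.Cyclo.prod_primitiveRoots_int N s c k
  have hz0 : z ≠ 0 := by
    rintro rfl
    rw [Int.cast_zero, Finset.prod_eq_zero_iff] at hz
    obtain ⟨η, hη, h0⟩ := hz
    exact hne η hη h0
  have hre : ∀ η ∈ primitiveRoots N ℂ, (∑ j ∈ s, (c j : ℂ) * η ^ k j) =
      (((∑ j ∈ s, (c j : ℂ) * η ^ k j).re : ℝ) : ℂ) := by
    intro η hη
    apply Complex.ext
    · rw [Complex.ofReal_re]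
    · rw [Complex.ofReal_im]
      exact (hreal η hη).1
  have hprod : (∏ η ∈ primitiveRoots N ℂ, (∑ j ∈ s, (c j : ℂ) * η ^ k j).re : ℝ) = (z : ℝ) := by
    apply Complex.ofReal_injective
    rw [Complex.ofReal_prod, Complex.ofReal_intCast, ← hz]
    exact Finset.prod_congr rfl fun η hη => (hre η hη).symm
  have hpos : (0 : ℝ) < ∏ η ∈ primitiveRoots N ℂ, (∑ j ∈ s, (c j : ℂ) * η ^ k j).re := by
    refine Finset.prod_pos fun η hη => ?_
    rcases lt_or_eq_of_le (hreal η hη).2 with h | h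
    · exact h
    · exfalso
      apply hne η hη
      rw [hre η hη, ← h, Complex.ofReal_zero]
  have hzpos : (0 : ℤ) < z := by
    rw [hprod] at hpos
    exact_mod_cast hpos
  have h1 : MemLocalRing M ((z : ℂ) / (p : ℂ) ^ (h * (primitiveRoots N ℂ).card)) := by
    have h2 := locRing_prod hM (primitiveRoots N ℂ)
      (fun η => (∑ j ∈ s, (c j : ℂ) * η ^ k j) / (p : ℂ) ^ h) hdiv
    rw [Finset.prod_div_distrib, hz, Finset.prod_const, ← pow_mul] at h2
    exact h2
  have h2 := Cfsg.Agent.Lib.Helper80.Cyclo.int_dvd_of_locRing hM z _ h1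
  have h3 : (p : ℤ) ^ (h * (primitiveRoots N ℂ).card) ≤ z := Int.le_of_dvd hzpos h2
  apply Cfsg.Agent.Lib.Helper80.Cyclo.card_mul_le_sum_of_pow_le_prod _ _
    (fun η hη => (hreal η hη).2) _ (by positivity)
  rw [hprod, ← pow_mul]
  exact_mod_cast h3

/-- The standard primitive `N`-th root of unity. -/
noncomputable def zetaN (N : ℕ) : ℂ := Complex.exp (2 * Real.pi * Complex.I / (N : ℂ))

open scoped Classical in
/-- An exponent `t` with `zetaN N ^ t = η`. -/
noncomputable def tauExp (N : ℕ) (η : ℂ) : ℕ :=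
  if h : ∃ t : ℕ, zetaN N ^ t = η then Classical.choose h else 0

theorem tauExp_spec (N : ℕ) (hN : 0 < N) (η : ℂ) (hη : η ∈ primitiveRoots N ℂ) :
    zetaN N ^ tauExp N η = η ∧ (tauExp N η).Coprime N := by
  have hζ : IsPrimitiveRoot (zetaN N) N := Complex.isPrimitiveRoot_exp N hN.ne'
  haveI : NeZero N := ⟨hN.ne'⟩
  rw [mem_primitiveRoots hN] at hη
  obtain ⟨t, -, ht⟩ := hζ.eq_pow_of_pow_eq_one hη.pow_eq_one
  have hex : ∃ t : ℕ, zetaN N ^ t = η := ⟨t, ht⟩
  have h1 : zetaN N ^ tauExp N η = η := by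
    unfold tauExp
    rw [dif_pos hex]
    exact Classical.choose_spec hex
  refine ⟨h1, ?_⟩
  have h3 : IsPrimitiveRoot (zetaN N ^ tauExp N η) N := by
    rw [h1]
    exact hη
  exact (hζ.pow_iff_coprime hN _).mp h3

end Cyc

section Main

variable {G : Type*} [Group G] [Fintype G] {p : ℕ} [Fact p.Prime] {M : Ideal AlgInt}
variable (H : Subgroup G) [Fintype H] [Fintype (IrrCharacter H)]

open scoped Classical in
/-- For a major subsection, `alpha χ ψ / p ^ height χ` is a local integer. -/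
theorem alpha_div_locRing (hM : IsPModular p M) (z : H) (hz : z ∈ Subgroup.center H) (k : ℕ)
    (hzk : z ^ (p ^ k) = 1) (e : Set (IrrCharacter H)) (B : Set (IrrCharacter G))
    (hind : IsInducedBlock M H e B) (hdef : blockDefect p e = blockDefect p B)
    (χ ψ : IrrCharacter G) (hχ : χ ∈ B) :
    MemLocalRing M (alpha H p e z χ ψ / (p : ℂ) ^ blockHeight p B χ.1) := by
  have hp : p.Prime := Fact.out
  have he : IsPBlock M e := hind.1
  obtain ⟨nχ, hnχ, h1χ⟩ := irr_one_nat χ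
  set K1 : ℕ := p ^ e0 H p e with hK1
  set K2 : ℕ := Nat.card H / p ^ (Nat.card H).factorization p with hK2
  have hK1pos : 0 < K1 := pow_pos hp.pos _
  have hK2pos : 0 < K2 := by
    have h1 := Nat.ordProj_mul_ordCompl_eq_self (Nat.card H) p
    rcases Nat.eq_zero_or_pos K2 with h0 | h0
    · rw [← hK2, h0, mul_zero] at h1
      exact absurd h1.symm Nat.card_pos.ne'
    · exact h0
  have hK2fac : K2.factorization p = 0 :=
    Nat.factorization_eq_zero_of_not_dvd (Nat.not_dvd_ordCompl hp Nat.card_pos.ne')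
  have hGpos : 0 < Nat.card G := Nat.card_pos
  have hHpos : 0 < Nat.card H := Nat.card_pos
  have hmB : ∀ χ' : IrrCharacter G, χ' ∈ B →
      sInf ((fun ψ : IrrCharacter G => (charDegree ψ.1).factorization p) '' B) ≤
        (charDegree χ'.1).factorization p := fun χ' hχ' => Nat.sInf_le ⟨χ', hχ', rfl⟩
  have vχ : nχ.factorization p + blockDefect p B =
      blockHeight p B χ.1 + (Nat.card G).factorization p := by
    have h1 := hmB χ hχ
    have h2 := nu_le_card p χ
    rw [charDegree_eq_of_one_eq _ nχ h1χ] at h1 h2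
    unfold blockHeight blockDefect
    rw [charDegree_eq_of_one_eq _ nχ h1χ]
    omega
  have he0 := e0_add (p := p) H e
  have hfacK1 : K1.factorization p = e0 H p e := by
    rw [hK1, hp.factorization_pow, Finsupp.single_eq_same]
  have facmul : ∀ a b : ℕ, a ≠ 0 → b ≠ 0 →
      (a * b).factorization p = a.factorization p + b.factorization p := by
    intro a b ha hb
    rw [Nat.factorization_mul ha hb]
    rfl
  have facpow : ∀ m : ℕ, (p ^ m).factorization p = m := by
    intro m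
    rw [hp.factorization_pow, Finsupp.single_eq_same]
  have hK12 : K1 * K2 ≠ 0 := mul_ne_zero hK1pos.ne' hK2pos.ne'
  have hfacK12 : (K1 * K2).factorization p = e0 H p e := by
    rw [facmul K1 K2 hK1pos.ne' hK2pos.ne', hfacK1, hK2fac, add_zero]
  have hρ₁ := rat_unit hM (Nat.card H * nχ) (Nat.card G * (K1 * K2) * p ^ blockHeight p B χ.1)
    (mul_ne_zero hHpos.ne' hnχ.ne')
    (mul_ne_zero (mul_ne_zero hGpos.ne' hK12) (pow_ne_zero _ hp.ne_zero))
    (by
      rw [facmul _ _ hHpos.ne' hnχ.ne',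
        facmul _ _ (mul_ne_zero hGpos.ne' hK12) (pow_ne_zero _ hp.ne_zero),
        facmul _ _ hGpos.ne' hK12, hfacK12, facpow]
      omega)
  have hTα : T H p e (z : G) χ ψ = (K1 : ℂ) * (K2 : ℂ) * alpha H p e z χ ψ :=
    T_eq_alpha H hM e he χ ψ z hz
  set a := indFun H (secFun H p e z ψ) with ha
  have haC : IsClassFunction G a := isClassFunction_indFun H _
  have haL : ∀ g, MemLocalRing M (a g) := fun g =>
    indFun_locRing hM H _ (secFun_classFunction H e z hz ψ)
      (fun h => secFun_locRing H hM e z hz k hzk ψ h) g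
  have hG : (Nat.card G : ℂ) ≠ 0 := Nat.cast_ne_zero.mpr hGpos.ne'
  have hH : (Nat.card H : ℂ) ≠ 0 := Nat.cast_ne_zero.mpr hHpos.ne'
  have hK1c : (K1 : ℂ) ≠ 0 := Nat.cast_ne_zero.mpr hK1pos.ne'
  have hK2c : (K2 : ℂ) ≠ 0 := Nat.cast_ne_zero.mpr hK2pos.ne'
  have hnχc : (nχ : ℂ) ≠ 0 := Nat.cast_ne_zero.mpr hnχ.ne'
  have hpc : (p : ℂ) ≠ 0 := Nat.cast_ne_zero.mpr hp.ne_zero
  have hωχ : alpha H p e z χ ψ / (p : ℂ) ^ blockHeight p B χ.1 = omega χ.1 a *
      (((Nat.card H * nχ : ℕ) : ℂ) /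
        ((Nat.card G * (K1 * K2) * p ^ blockHeight p B χ.1 : ℕ) : ℂ)) := by
    rw [ha, omega_secFun H hM e he z hz χ ψ, hTα, h1χ]
    push_cast
    field_simp
  rw [hωχ]
  exact locRing_mul hM (Cfsg.Agent.Lib.Helper21.omega_locRing hM a haC haL χ) hρ₁.1

open scoped Classical in
/-- For a major subsection, `alpha χ χ` is a positive real. -/
theorem alpha_self_pos (hM : IsPModular p M) (z : H) (hz : z ∈ Subgroup.center H) (k : ℕ)
    (hzk : z ^ (p ^ k) = 1) (hu : ∃ k : ℕ, orderOf (z : G) = p ^ k)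
    (hCH : Subgroup.centralizer ({(z : G)} : Set G) ≤ H) (e : Set (IrrCharacter H))
    (B : Set (IrrCharacter G)) (hind : IsInducedBlock M H e B)
    (hdef : blockDefect p e = blockDefect p B) (χ : IrrCharacter G) (hχ : χ ∈ B) :
    (alpha H p e z χ χ).im = 0 ∧ 0 < (alpha H p e z χ χ).re := by
  letI : Fintype (IrrCharacter G) := Fintype.ofFinite _
  have hp : p.Prime := Fact.out
  have hrow := alpha_row H hM z hz hu hCH e B hind χ
  obtain ⟨ψ₀, hψ₀, h0⟩ := exists_height_zero (p := p) hM B hind.2.1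
  have hmaj := alpha_major H hM z hz k hzk e B hind hdef χ ψ₀ hχ hψ₀ h0
  have hne : alpha H p e z χ ψ₀ ≠ 0 := by
    intro h
    apply hmaj.2
    rw [h, zero_div]
    exact locIdeal_zero hM
  have hL : ∑ ψ : IrrCharacter G,
      (if ψ ∈ B then alpha H p e z χ ψ * conj (alpha H p e z χ ψ) else 0) =
      ((∑ ψ : IrrCharacter G,
        (if ψ ∈ B then Complex.normSq (alpha H p e z χ ψ) else 0) : ℝ) : ℂ) := by
    rw [Complex.ofReal_sum]
    refine Finset.sum_congr rfl fun ψ _ => ?_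
    by_cases hψ : ψ ∈ B
    · rw [if_pos hψ, if_pos hψ, Complex.mul_conj]
    · rw [if_neg hψ, if_neg hψ, Complex.ofReal_zero]
  have hS : 0 < ∑ ψ : IrrCharacter G,
      (if ψ ∈ B then Complex.normSq (alpha H p e z χ ψ) else 0) := by
    refine Finset.sum_pos' (fun ψ _ => ?_) ⟨ψ₀, Finset.mem_univ _, ?_⟩
    · by_cases hψ : ψ ∈ B
      · rw [if_pos hψ]
        exact Complex.normSq_nonneg _
      · rw [if_neg hψ]
    · rw [if_pos hψ₀]
      exact Complex.normSq_pos.mpr hne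
  have hpd : (0 : ℝ) < ((p ^ blockDefect p e : ℕ) : ℝ) := by
    exact_mod_cast pow_pos hp.pos _
  have hα : alpha H p e z χ χ = (((∑ ψ : IrrCharacter G,
      (if ψ ∈ B then Complex.normSq (alpha H p e z χ ψ) else 0)) /
        ((p ^ blockDefect p e : ℕ) : ℝ) : ℝ) : ℂ) := by
    rw [hL] at hrow
    rw [Complex.ofReal_div, hrow]
    have h2 : ((p ^ blockDefect p e : ℕ) : ℂ) ≠ 0 := by
      exact_mod_cast hpd.ne'
    rw [Complex.ofReal_natCast]
    field_simp
  rw [hα]
  exact ⟨Complex.ofReal_im _, by rw [Complex.ofReal_re]; exact div_pos hS hpd⟩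

open scoped Classical in
/-- **AM-GM lower bound** for the diagonal contributions of the Galois conjugates of a major
subsection. -/
theorem sum_roots_ge (hM : IsPModular p M) (z : H) (hz : z ∈ Subgroup.center H) (n : ℕ)
    (hn : orderOf (z : G) = p ^ n) (E : ℕ) (hnE : n ≤ E)
    (hCH : Subgroup.centralizer ({(z : G)} : Set G) ≤ H) (e : Set (IrrCharacter H))
    (B : Set (IrrCharacter G)) (hind : IsInducedBlock M H e B)
    (hdef : blockDefect p e = blockDefect p B) (χ : IrrCharacter G) (hχ : χ ∈ B) :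
    ((primitiveRoots (p ^ E) ℂ).card : ℝ) * (p : ℝ) ^ blockHeight p B χ.1 ≤
      ∑ η ∈ primitiveRoots (p ^ E) ℂ, (alpha H p e (z ^ tauExp (p ^ E) η) χ χ).re := by
  have hp : p.Prime := Fact.out
  have hN : 0 < p ^ E := pow_pos hp.pos E
  haveI : NeZero (p ^ E) := ⟨hN.ne'⟩
  have hzn : z ^ (p ^ n) = 1 := by
    apply Subtype.ext
    rw [Subgroup.coe_pow, ← hn]
    exact pow_orderOf_eq_one _
  have hzE : z ^ (p ^ E) = 1 := by
    obtain ⟨d, rfl⟩ := Nat.exists_eq_add_of_le hnE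
    rw [pow_add, pow_mul, hzn, one_pow]
  have hζ : IsPrimitiveRoot (zetaN (p ^ E)) (p ^ E) := Complex.isPrimitiveRoot_exp _ hN.ne'
  have h1 : ∀ ξ : IrrCharacter H, ∃ i : ℕ, zetaN (p ^ E) ^ i = eps H z ξ := by
    intro ξ
    obtain ⟨i, -, hi⟩ := hζ.eq_pow_of_pow_eq_one (eps_pow_eq_one H z hz ξ _ hzE)
    exact ⟨i, hi⟩
  have h2 : ∀ ξ : IrrCharacter H, ∃ i : ℕ, zetaN (p ^ E) ^ i = conj (eps H z ξ) := by
    intro ξ
    have h3 : conj (eps H z ξ) ^ (p ^ E) = 1 := by
      rw [← map_pow, eps_pow_eq_one H z hz ξ _ hzE, map_one]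
    obtain ⟨i, -, hi⟩ := hζ.eq_pow_of_pow_eq_one h3
    exact ⟨i, hi⟩
  choose i hi using h1
  choose j hj using h2
  have hF : ∀ η ∈ primitiveRoots (p ^ E) ℂ,
      ∑ jj : IrrCharacter H × IrrCharacter H,
          (coef H p e χ χ jj : ℂ) * η ^ (i jj.1 + j jj.2) =
        alpha H p e (z ^ tauExp (p ^ E) η) χ χ := by
    intro η hη
    obtain ⟨ht, -⟩ := tauExp_spec (p ^ E) hN η hη
    generalize tauExp (p ^ E) η = t at ht ⊢
    rw [alpha_pow H e z hz t χ χ]
    refine Finset.sum_congr rfl fun jj _ => ?_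
    have h4 : η ^ (i jj.1 + j jj.2) = (eps H z jj.1 * conj (eps H z jj.2)) ^ t := by
      rw [← hi jj.1, ← hj jj.2, ← ht, ← pow_add, ← pow_mul, ← pow_mul, mul_comm]
    rw [h4]
  have hfacts : ∀ η ∈ primitiveRoots (p ^ E) ℂ,
      ((alpha H p e (z ^ tauExp (p ^ E) η) χ χ).im = 0 ∧
        0 < (alpha H p e (z ^ tauExp (p ^ E) η) χ χ).re) ∧
      MemLocalRing M (alpha H p e (z ^ tauExp (p ^ E) η) χ χ /
        (p : ℂ) ^ blockHeight p B χ.1) := by
    intro η hη
    obtain ⟨-, hc⟩ := tauExp_spec (p ^ E) hN η hη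
    have hc' : (tauExp (p ^ E) η).Coprime (p ^ n) :=
      Nat.Coprime.coprime_dvd_right (pow_dvd_pow p hnE) hc
    obtain ⟨hz', hzn', hu', hCH'⟩ := pow_hyps H z hz n hn hCH _ hc'
    exact ⟨alpha_self_pos H hM _ hz' n hzn' hu' hCH' e B hind hdef χ hχ,
      alpha_div_locRing H hM _ hz' n hzn' e B hind hdef χ χ hχ⟩
  have key := card_mul_pow_le_sum_re hM (p ^ E) Finset.univ (coef H p e χ χ)
    (fun jj => i jj.1 + j jj.2) (blockHeight p B χ.1)
    (fun η hη => by
      rw [hF η hη]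
      intro h0
      have h5 := (hfacts η hη).1.2
      rw [h0] at h5
      simp at h5)
    (fun η hη => by
      rw [hF η hη]
      exact ⟨(hfacts η hη).1.1, (hfacts η hη).1.2.le⟩)
    (fun η hη => by
      rw [hF η hη]
      exact (hfacts η hη).2)
  refine le_trans key (le_of_eq ?_)
  exact Finset.sum_congr rfl fun η hη => by rw [hF η hη]

end Main

end Cfsg.Agent.Lib.Helper4.HtBound
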