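import Mathlib
import Cfsg.Agent.Lib.Helper80.Major3
import Cfsg.Agent.Lib.Helper84.ExtFMT

/-!
# A Bessel inequality for the contributions of pairwise non-fused subsections (helper4)

For subsections `(z_i, e_i)` (`z_i` a central `p`-element of `H_i = C_G(z_i)`, `e_i` a block of
`H_i`), no two of which are fused in `G`, and an irreducible character `χ` of `G`:
`∑_i T_i(χ, χ) / |H_i| ≤ 1`.
-/

set_option autoImplicit false
set_option linter.style.haveILetI false

namespace Cfsg.Agent.Lib.Helper4.HtBound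

open Cfsg Cfsg.Agent.Lib.Helper80.GenDec Cfsg.Agent.Lib.Helper80.Contrib
open Cfsg.Agent.Lib.Helper80.Major
open Cfsg.Agent.Lib.Helper4 Cfsg.Agent.Lib.Helper21 Cfsg.Agent.Lib.Helper22
open scoped ComplexConjugate

section Pairing

variable {K : Type*} [Group K] [Fintype K] {p : ℕ}

theorem Q_sum_left {ι : Type*} (s : Finset ι) (c : ι → ℂ) (g : ι → K → ℂ) (f : K → ℂ) :
    Q p (fun x => ∑ i ∈ s, c i * g i x) f = ∑ i ∈ s, c i * Q p (g i) f := by
  calc Q p (fun x => ∑ i ∈ s, c i * g i x) f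
      = ∑ x : K, ∑ i ∈ s, c i * (if p ∣ orderOf x then 0 else g i x * conj (f x)) := by
        rw [Q_def]
        refine Finset.sum_congr rfl fun x _ => ?_
        by_cases hx : p ∣ orderOf x
        · simp [hx]
        · simp only [if_neg hx]
          rw [Finset.sum_mul]
          exact Finset.sum_congr rfl fun i _ => by ring
    _ = ∑ i ∈ s, ∑ x : K, c i * (if p ∣ orderOf x then 0 else g i x * conj (f x)) :=
        Finset.sum_comm
    _ = ∑ i ∈ s, c i * Q p (g i) f := by
        refine Finset.sum_congr rfl fun i _ => ?_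
        rw [Q_def, Finset.mul_sum]

theorem Q_sum_right {ι : Type*} (s : Finset ι) (c : ι → ℂ) (g : ι → K → ℂ) (f : K → ℂ) :
    Q p f (fun x => ∑ i ∈ s, c i * g i x) = ∑ i ∈ s, conj (c i) * Q p f (g i) := by
  rw [← Q_conj, Q_sum_left, map_sum]
  refine Finset.sum_congr rfl fun i _ => ?_
  rw [map_mul, Q_conj]

end Pairing

section Conj

variable {G : Type*} [Group G]

theorem orderOf_conj' (x y : G) : orderOf (x⁻¹ * y * x) = orderOf y := by
  have h := Cfsg.Agent.Lib.Helper22.orderOf_conj_eq x⁻¹ y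
  rwa [inv_inv] at h

/-- Conjugation by `x⁻¹` as an isomorphism between two subgroups. -/
def conjEquiv2 (H H' : Subgroup G) (x : G) (h1 : ∀ s ∈ H, x⁻¹ * s * x ∈ H')
    (h2 : ∀ s ∈ H', x * s * x⁻¹ ∈ H) : H ≃* H' where
  toFun s := ⟨x⁻¹ * (s : G) * x, h1 s s.2⟩
  invFun s := ⟨x * (s : G) * x⁻¹, h2 s s.2⟩
  left_inv s := Subtype.ext (by
    show x * (x⁻¹ * (s : G) * x) * x⁻¹ = s
    group)
  right_inv s := Subtype.ext (by
    show x⁻¹ * (x * (s : G) * x⁻¹) * x = s
    group)
  map_mul' a b := Subtype.ext (by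
    show x⁻¹ * ((a : G) * (b : G)) * x = (x⁻¹ * (a : G) * x) * (x⁻¹ * (b : G) * x)
    group)

theorem conjEquiv2_coe (H H' : Subgroup G) (x : G) (h1 : ∀ s ∈ H, x⁻¹ * s * x ∈ H')
    (h2 : ∀ s ∈ H', x * s * x⁻¹ ∈ H) (s : H) :
    ((conjEquiv2 H H' x h1 h2 s : H') : G) = x⁻¹ * (s : G) * x := rfl

end Conj

section Bessel

variable {G : Type*} [Group G] [Fintype G] {p : ℕ} [Fact p.Prime] {M : Ideal AlgInt}

open scoped Classical in
/-- The values of a section function on a conjugate of `y s`. -/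
theorem ext_sec_conj (H' : Subgroup G) (z' : H') (hz' : z' ∈ Subgroup.center H')
    (hu' : ∃ k : ℕ, orderOf (z' : G) = p ^ k) (F' : H' → ℂ)
    (y s x : G) (hy : ∃ k : ℕ, orderOf y = p ^ k) (hys : Commute y s) (hs : ¬ p ∣ orderOf s) :
    extendByZero H' (fun h : H' => if p ∣ orderOf (z'⁻¹ * h) then 0 else F' (z'⁻¹ * h))
        (x⁻¹ * (y * s) * x) =
      if hx : x⁻¹ * y * x = (z' : G) ∧ x⁻¹ * s * x ∈ H' then F' ⟨x⁻¹ * s * x, hx.2⟩ else 0 := by
  have hp : p.Prime := Fact.out
  by_cases hx : x⁻¹ * y * x = (z' : G) ∧ x⁻¹ * s * x ∈ H'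
  · rw [dif_pos hx]
    have e1 : x⁻¹ * (y * s) * x = ((z' * ⟨x⁻¹ * s * x, hx.2⟩ : H') : G) := by
      show x⁻¹ * (y * s) * x = (z' : G) * (x⁻¹ * s * x)
      rw [← hx.1]
      group
    rw [e1, extendByZero_apply_mem]
    have ho : orderOf (⟨x⁻¹ * s * x, hx.2⟩ : H') = orderOf s := by
      rw [← Subgroup.orderOf_coe]
      exact orderOf_conj' x s
    show (if p ∣ orderOf (z'⁻¹ * (z' * ⟨x⁻¹ * s * x, hx.2⟩)) then 0
      else F' (z'⁻¹ * (z' * ⟨x⁻¹ * s * x, hx.2⟩))) = _
    rw [inv_mul_cancel_left, if_neg (by rw [ho]; exact hs)]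
  · rw [dif_neg hx]
    by_cases hw : x⁻¹ * (y * s) * x ∈ H'
    · rw [extendByZero_apply_mem' H' _ hw]
      by_cases hr : p ∣ orderOf (z'⁻¹ * (⟨x⁻¹ * (y * s) * x, hw⟩ : H'))
      · show (if p ∣ orderOf (z'⁻¹ * (⟨x⁻¹ * (y * s) * x, hw⟩ : H')) then (0 : ℂ)
          else F' (z'⁻¹ * ⟨x⁻¹ * (y * s) * x, hw⟩)) = 0
        rw [if_pos hr]
      · exfalso
        apply hx
        obtain ⟨s'', hs''⟩ : ∃ s'' : H', s'' = z'⁻¹ * ⟨x⁻¹ * (y * s) * x, hw⟩ := ⟨_, rfl⟩
        rw [← hs''] at hr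
        have hw' : x⁻¹ * (y * s) * x = (z' : G) * (s'' : G) := by
          rw [hs'']
          show x⁻¹ * (y * s) * x = (z' : G) * ((z' : G)⁻¹ * (x⁻¹ * (y * s) * x))
          group
        have hcz : Commute (z' : G) (s'' : G) := by
          have h1 := Subgroup.mem_center_iff.mp hz' s''
          have h2 := congrArg (Subtype.val : H' → G) h1
          exact h2.symm
        have h1 : IsPPart p (x⁻¹ * (y * s) * x) (z' : G) :=
          ⟨(s'' : G), hw'.symm, hcz, hu', by rw [Subgroup.orderOf_coe]; exact hr⟩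
        have hcomm : Commute (x⁻¹ * y * x) (x⁻¹ * s * x) := by
          show x⁻¹ * y * x * (x⁻¹ * s * x) = x⁻¹ * s * x * (x⁻¹ * y * x)
          have h3 : y * s = s * y := hys
          calc x⁻¹ * y * x * (x⁻¹ * s * x) = x⁻¹ * (y * s) * x := by group
            _ = x⁻¹ * (s * y) * x := by rw [h3]
            _ = x⁻¹ * s * x * (x⁻¹ * y * x) := by group
        have h2 : IsPPart p (x⁻¹ * (y * s) * x) (x⁻¹ * y * x) :=
          ⟨x⁻¹ * s * x, by group, hcomm, by rw [orderOf_conj']; exact hy,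
            by rw [orderOf_conj']; exact hs⟩
        have h3 : (z' : G) = x⁻¹ * y * x := Cfsg.Agent.Lib.Helper22.isPPart_unique hp h1 h2
        refine ⟨h3.symm, ?_⟩
        have h4 : x⁻¹ * s * x = (s'' : G) := by
          have h5 : (z' : G) * (x⁻¹ * s * x) = (z' : G) * (s'' : G) := by
            rw [← hw', h3]
            group
          exact mul_left_cancel h5
        rw [h4]
        exact s''.2
    · rw [extendByZero_apply_not_mem H' _ hw]

variable (H : Subgroup G) [Fintype H] [Fintype (IrrCharacter H)]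

open scoped Classical in
/-- `X` is a class function of `H`. -/
theorem X_conj (e : Set (IrrCharacter H)) (z : H) (hz : z ∈ Subgroup.center H)
    (χ : IrrCharacter G) (s h : H) :
    X H e (z : G) χ (h⁻¹ * s * h) = X H e (z : G) χ s := by
  rw [X_expand H e χ z hz]
  refine Finset.sum_congr rfl fun ξ _ => ?_
  have h1 := isClassFunction_irr ξ s h⁻¹
  rw [inv_inv] at h1
  rw [h1]

open scoped Classical in
/-- Pairing of the induced section function with `χ`. -/
theorem sum_ind_sec_mul (hM : IsPModular p M) (e : Set (IrrCharacter H)) (he : IsPBlock M e)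
    (z : H) (hz : z ∈ Subgroup.center H) (χ ψ : IrrCharacter G) :
    ∑ g : G, indFun H (secFun H p e z ψ) g * χ.1 g =
      (Nat.card G : ℂ) / (Nat.card H : ℂ) * T H p e (z : G) χ ψ := by
  have h := omega_secFun H hM e he z hz χ ψ
  rw [omega_def] at h
  have hne := irr_one_ne_zero χ
  have h2 := congrArg (fun w => w * χ.1 1) h
  simp only [div_mul_cancel₀ _ hne] at h2
  exact h2

omit [Fact p.Prime] [Fintype (IrrCharacter H)] in
open scoped Classical in
/-- Pairing of the induced section function with a class function. -/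
theorem sum_ind_sec_conj (e : Set (IrrCharacter H)) (z : H) (χ : IrrCharacter G) (F : G → ℂ)
    (hF : IsClassFunction G F) :
    ∑ g : G, indFun H (secFun H p e z χ) g * conj (F g) =
      (Nat.card G : ℂ) / (Nat.card H : ℂ) *
        ∑ s : H, (if p ∣ orderOf s then 0
          else conj (X H e (z : G) χ s) * conj (F ((z : G) * (s : G)))) := by
  have hG : (Nat.card G : ℂ) ≠ 0 := Nat.cast_ne_zero.mpr Nat.card_pos.ne'
  have hH : (Nat.card H : ℂ) ≠ 0 := Nat.cast_ne_zero.mpr Nat.card_pos.ne'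
  have h1 := frobenius_reciprocity H (secFun H p e z χ) F hF
  unfold classInner at h1
  have h2 : ∑ h : H, secFun H p e z χ h * conj (F (h : G)) =
      ∑ s : H, (if p ∣ orderOf s then 0
          else conj (X H e (z : G) χ s) * conj (F ((z : G) * (s : G)))) := by
    rw [← Equiv.sum_comp (Equiv.mulLeft z)]
    refine Finset.sum_congr rfl fun s _ => ?_
    show secFun H p e z χ (z * s) * conj (F ((z * s : H) : G)) = _
    unfold secFun
    rw [inv_mul_cancel_left]
    by_cases hs : p ∣ orderOf s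
    · rw [if_pos hs, if_pos hs, zero_mul]
    · rw [if_neg hs, if_neg hs, Subgroup.coe_mul]
  rw [← h2]
  have h3 : ∑ g : G, indFun H (secFun H p e z χ) g * conj (F g) =
      (Nat.card G : ℂ) * ((Nat.card G : ℂ)⁻¹ *
        ∑ g : G, indFun H (secFun H p e z χ) g * conj (F g)) := by
    rw [← mul_assoc, mul_inv_cancel₀ hG, one_mul]
  rw [h3, h1]
  field_simp

open scoped Classical in
/-- The induced section function on its own section. -/
theorem ind_sec_self (e : Set (IrrCharacter H)) (z : H) (hz : z ∈ Subgroup.center H)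
    (hu : ∃ k : ℕ, orderOf (z : G) = p ^ k)
    (hCH : Subgroup.centralizer ({(z : G)} : Set G) ≤ H) (χ : IrrCharacter G) (s : H)
    (hs : ¬ p ∣ orderOf s) :
    indFun H (secFun H p e z χ) ((z : G) * (s : G)) = conj (X H e (z : G) χ s) := by
  have hH : (Nat.card H : ℂ) ≠ 0 := Nat.cast_ne_zero.mpr Nat.card_pos.ne'
  have hcz : ∀ h : H, (h : G) * (z : G) = (z : G) * (h : G) := fun h =>
    congrArg (Subtype.val : H → G) (Subgroup.mem_center_iff.mp hz h)
  have hterm : ∀ x : G, extendByZero H (secFun H p e z χ) (x⁻¹ * ((z : G) * (s : G)) * x) =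
      if x ∈ H then conj (X H e (z : G) χ s) else 0 := by
    intro x
    have h1 := ext_sec_conj H z hz hu (fun h => conj (X H e (z : G) χ h)) (z : G) (s : G) x hu
      (hcz s).symm (by rw [Subgroup.orderOf_coe]; exact hs)
    have h0 : secFun H p e z χ =
        (fun h : H => if p ∣ orderOf (z⁻¹ * h) then 0 else conj (X H e (z : G) χ (z⁻¹ * h))) :=
      rfl
    rw [h0, h1]
    by_cases hx : x ∈ H
    · have hx' : x⁻¹ * (z : G) * x = (z : G) ∧ x⁻¹ * (s : G) * x ∈ H := by
        refine ⟨?_, H.mul_mem (H.mul_mem (H.inv_mem hx) s.2) hx⟩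
        have h2 := hcz ⟨x, hx⟩
        have h3 : x * (z : G) = (z : G) * x := h2
        rw [mul_assoc, ← h3]
        group
      rw [dif_pos hx', if_pos hx]
      have h4 := X_conj H e z hz χ s ⟨x, hx⟩
      have h5 : (⟨x⁻¹ * (s : G) * x, hx'.2⟩ : H) = (⟨x, hx⟩ : H)⁻¹ * s * ⟨x, hx⟩ :=
        Subtype.ext rfl
      rw [h5, h4]
    · have hx' : ¬ (x⁻¹ * (z : G) * x = (z : G) ∧ x⁻¹ * (s : G) * x ∈ H) := by
        rintro ⟨h2, -⟩
        apply hx
        apply hCH
        rw [Subgroup.mem_centralizer_iff]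
        intro w hw
        rw [Set.mem_singleton_iff] at hw
        rw [hw]
        calc (z : G) * x = x * (x⁻¹ * (z : G) * x) := by group
          _ = x * (z : G) := by rw [h2]
      rw [dif_neg hx', if_neg hx]
  rw [indFun_apply, Finset.sum_congr rfl (fun x _ => hterm x), ← Finset.sum_filter,
    Finset.sum_const, nsmul_eq_mul]
  have hcard : ((Finset.univ.filter (fun x : G => x ∈ H)).card : ℂ) = (Nat.card H : ℂ) := by
    rw [Nat.card_eq_fintype_card, Fintype.card_subtype]
  rw [hcard, ← mul_assoc, inv_mul_cancel₀ hH, one_mul]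

open scoped Classical in
/-- The norm of the induced section function. -/
theorem sum_ind_sec_self (e : Set (IrrCharacter H)) (z : H) (hz : z ∈ Subgroup.center H)
    (hu : ∃ k : ℕ, orderOf (z : G) = p ^ k)
    (hCH : Subgroup.centralizer ({(z : G)} : Set G) ≤ H) (χ : IrrCharacter G) :
    ∑ g : G, indFun H (secFun H p e z χ) g * conj (indFun H (secFun H p e z χ) g) =
      (Nat.card G : ℂ) / (Nat.card H : ℂ) * T H p e (z : G) χ χ := by
  rw [sum_ind_sec_conj H e z χ _ (isClassFunction_indFun H _), T_def]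
  congr 1
  refine Finset.sum_congr rfl fun s _ => ?_
  by_cases hs : p ∣ orderOf s
  · rw [if_pos hs, if_pos hs]
  · rw [if_neg hs, if_neg hs, ind_sec_self H e z hz hu hCH χ s hs, Complex.conj_conj, mul_comm]

open scoped Classical in
/-- Induced section functions of two subsections that are not fused are orthogonal. -/
theorem sum_ind_sec_cross (hM : IsPModular p M)
    (H' : Subgroup G) [Fintype H'] [Fintype (IrrCharacter H')]
    (e : Set (IrrCharacter H)) (he : IsPBlock M e) (z : H) (hz : z ∈ Subgroup.center H)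
    (hu : ∃ k : ℕ, orderOf (z : G) = p ^ k)
    (hCH : Subgroup.centralizer ({(z : G)} : Set G) ≤ H)
    (e' : Set (IrrCharacter H')) (z' : H') (hz' : z' ∈ Subgroup.center H')
    (hu' : ∃ k : ℕ, orderOf (z' : G) = p ^ k)
    (hCH' : Subgroup.centralizer ({(z' : G)} : Set G) ≤ H')
    (χ : IrrCharacter G)
    (hnf : ∀ g : G, g * (z : G) * g⁻¹ = (z' : G) → ∀ ξ ∈ e, ∀ ξ' ∈ e',
      ¬ (∀ (c : H) (c' : H'), (c' : G) = g * (c : G) * g⁻¹ → ξ'.1 c' = ξ.1 c)) :
    ∑ g : G, indFun H (secFun H p e z χ) g * conj (indFun H' (secFun H' p e' z' χ) g) = 0 := by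
  rw [sum_ind_sec_conj H e z χ _ (isClassFunction_indFun H' _)]
  have hcz : ∀ h : H, (h : G) * (z : G) = (z : G) * (h : G) := fun h =>
    congrArg (Subtype.val : H → G) (Subgroup.mem_center_iff.mp hz h)
  have hcz' : ∀ h : H', (h : G) * (z' : G) = (z' : G) * (h : G) := fun h =>
    congrArg (Subtype.val : H' → G) (Subgroup.mem_center_iff.mp hz' h)
  set d : G → H → ℂ := fun x s =>
    if hx : x⁻¹ * (z : G) * x = (z' : G) ∧ x⁻¹ * (s : G) * x ∈ H' then
      conj (X H' e' (z' : G) χ ⟨x⁻¹ * (s : G) * x, hx.2⟩) else 0 with hd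
  have hval : ∀ s : H, ¬ p ∣ orderOf s →
      indFun H' (secFun H' p e' z' χ) ((z : G) * (s : G)) =
        (Nat.card H' : ℂ)⁻¹ * ∑ x : G, d x s := by
    intro s hs
    rw [indFun_apply]
    congr 1
    refine Finset.sum_congr rfl fun x _ => ?_
    exact ext_sec_conj H' z' hz' hu' (fun h => conj (X H' e' (z' : G) χ h)) (z : G) (s : G) x hu
      (hcz s).symm (by rw [Subgroup.orderOf_coe]; exact hs)
  have hstep : ∀ s : H, (if p ∣ orderOf s then (0 : ℂ) else conj (X H e (z : G) χ s) *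
        conj (indFun H' (secFun H' p e' z' χ) ((z : G) * (s : G)))) =
      conj ((Nat.card H' : ℂ)⁻¹) * ∑ x : G,
        (if p ∣ orderOf s then 0 else conj (X H e (z : G) χ s) * conj (d x s)) := by
    intro s
    by_cases hs : p ∣ orderOf s
    · simp [hs]
    · simp only [if_neg hs]
      rw [hval s hs, map_mul, map_sum, Finset.mul_sum, Finset.mul_sum, Finset.mul_sum]
      exact Finset.sum_congr rfl fun x _ => by ring
  have hA : ∀ x : G, ∑ s : H,
      (if p ∣ orderOf s then 0 else conj (X H e (z : G) χ s) * conj (d x s)) = 0 := by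
    intro x
    by_cases hxz : x⁻¹ * (z : G) * x = (z' : G)
    · have hzx : x * (z' : G) * x⁻¹ = (z : G) := by
        rw [← hxz]
        group
      have h1 : ∀ s ∈ H, x⁻¹ * s * x ∈ H' := by
        intro s hs
        apply hCH'
        rw [Subgroup.mem_centralizer_iff]
        intro w hw
        rw [Set.mem_singleton_iff] at hw
        rw [hw, ← hxz]
        have h3 := hcz ⟨s, hs⟩
        have h4 : s * (z : G) = (z : G) * s := h3
        calc x⁻¹ * (z : G) * x * (x⁻¹ * s * x) = x⁻¹ * ((z : G) * s) * x := by group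
          _ = x⁻¹ * (s * (z : G)) * x := by rw [h4]
          _ = x⁻¹ * s * x * (x⁻¹ * (z : G) * x) := by group
      have h2 : ∀ s ∈ H', x * s * x⁻¹ ∈ H := by
        intro s hs
        apply hCH
        rw [Subgroup.mem_centralizer_iff]
        intro w hw
        rw [Set.mem_singleton_iff] at hw
        rw [hw, ← hzx]
        have h3 := hcz' ⟨s, hs⟩
        have h4 : s * (z' : G) = (z' : G) * s := h3
        calc x * (z' : G) * x⁻¹ * (x * s * x⁻¹) = x * ((z' : G) * s) * x⁻¹ := by group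
          _ = x * (s * (z' : G)) * x⁻¹ := by rw [h4]
          _ = x * s * x⁻¹ * (x * (z' : G) * x⁻¹) := by group
      set φ : H ≃* H' := conjEquiv2 H H' x h1 h2 with hφ
      have hdx : ∀ s : H, d x s = conj (X H' e' (z' : G) χ (φ s)) := by
        intro s
        simp only [hd]
        rw [dif_pos ⟨hxz, h1 s s.2⟩]
        rfl
      have hsum : ∑ s : H,
          (if p ∣ orderOf s then 0 else conj (X H e (z : G) χ s) * conj (d x s)) =
          conj (Q p (X H e (z : G) χ) (fun s => X H' e' (z' : G) χ (φ s))) := by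
        rw [Q_def, map_sum]
        refine Finset.sum_congr rfl fun s _ => ?_
        by_cases hs : p ∣ orderOf s
        · rw [if_pos hs, if_pos hs, map_zero]
        · rw [if_neg hs, if_neg hs, hdx s, map_mul]
      rw [hsum]
      have hQ0 : Q p (X H e (z : G) χ) (fun s => X H' e' (z' : G) χ (φ s)) = 0 := by
        rw [X_expand H e χ z hz]
        have hX' : (fun s : H => X H' e' (z' : G) χ (φ s)) = fun s =>
            ∑ ξ' : IrrCharacter H', (if ξ' ∈ e' then (resMult H' χ ξ' : ℂ) * eps H' z' ξ' else 0) *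
              (Cfsg.Agent.Lib.Helper84.trIrr φ ξ').1 s := by
          funext s
          rw [X_expand H' e' χ z' hz']
          rfl
        rw [hX', Q_sum_left]
        refine Finset.sum_eq_zero fun ξ _ => ?_
        by_cases hξ : ξ ∈ e
        · rw [Q_sum_right, Finset.sum_eq_zero, mul_zero]
          intro ξ' _
          by_cases hξ' : ξ' ∈ e'
          · have hη : Cfsg.Agent.Lib.Helper84.trIrr φ ξ' ∉ e := by
              intro hmem
              refine hnf x⁻¹ (by rw [inv_inv]; exact hxz) _ hmem ξ' hξ' ?_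
              intro c c' hc
              rw [Cfsg.Agent.Lib.Helper84.trIrr_apply]
              have hcc : c' = φ c := Subtype.ext (by
                rw [hc, inv_inv]
                rfl)
              rw [hcc]
            have h0 := Q_eq_zero_of_not_mem hM e he (Cfsg.Agent.Lib.Helper84.trIrr φ ξ') ξ hη hξ
            rw [← Q_conj, h0, map_zero, mul_zero]
          · rw [if_neg hξ', map_zero, zero_mul]
        · rw [if_neg hξ, zero_mul]
      rw [hQ0, map_zero]
    · refine Finset.sum_eq_zero fun s _ => ?_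
      have h0 : d x s = 0 := by
        simp only [hd]
        rw [dif_neg (fun h => hxz h.1)]
      rw [h0, map_zero, mul_zero, ite_self]
  rw [Finset.sum_congr rfl (fun s _ => hstep s), ← Finset.mul_sum, Finset.sum_comm,
    Finset.sum_eq_zero (fun x _ => hA x), mul_zero, mul_zero]

end Bessel

section Family

variable {G : Type*} [Group G] [Fintype G] {p : ℕ} [Fact p.Prime] {M : Ideal AlgInt}

open scoped Classical in
/-- **Bessel inequality** for pairwise non-fused subsections. -/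
theorem bessel_sections (hM : IsPModular p M) {ι : Type*} (R : Finset ι)
    (Hs : ι → Subgroup G) [∀ i, Fintype (Hs i)] [∀ i, Fintype (IrrCharacter (Hs i))]
    (zs : ∀ i, Hs i) (es : ∀ i, Set (IrrCharacter (Hs i)))
    (hz : ∀ i ∈ R, zs i ∈ Subgroup.center (Hs i))
    (hu : ∀ i ∈ R, ∃ k : ℕ, orderOf ((zs i : Hs i) : G) = p ^ k)
    (hCH : ∀ i ∈ R, Subgroup.centralizer ({((zs i : Hs i) : G)} : Set G) ≤ Hs i)
    (he : ∀ i ∈ R, IsPBlock M (es i))
    (hnf : ∀ i ∈ R, ∀ j ∈ R, i ≠ j → ∀ g : G,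
      g * ((zs i : Hs i) : G) * g⁻¹ = ((zs j : Hs j) : G) → ∀ ξ ∈ es i, ∀ ξ' ∈ es j,
        ¬ (∀ (c : Hs i) (c' : Hs j), (c' : G) = g * (c : G) * g⁻¹ → ξ'.1 c' = ξ.1 c))
    (χ : IrrCharacter G) :
    ∑ i ∈ R, (T (Hs i) p (es i) ((zs i : Hs i) : G) χ χ).re / (Nat.card (Hs i) : ℝ) ≤ 1 := by
  set Ψ : ι → G → ℂ := fun i => indFun (Hs i) (secFun (Hs i) p (es i) (zs i) χ) with hΨ
  set τ : ι → ℂ := fun i => (Nat.card G : ℂ) / (Nat.card (Hs i) : ℂ) *
    T (Hs i) p (es i) ((zs i : Hs i) : G) χ χ with hτ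
  have P1 : ∀ i ∈ R, ∑ g : G, Ψ i g * χ.1 g = τ i := fun i hi =>
    sum_ind_sec_mul (Hs i) hM (es i) (he i hi) (zs i) (hz i hi) χ χ
  have P2 : ∀ i ∈ R, ∑ g : G, Ψ i g * conj (Ψ i g) = τ i := fun i hi =>
    sum_ind_sec_self (Hs i) (es i) (zs i) (hz i hi) (hu i hi) (hCH i hi) χ
  have P3 : ∀ i ∈ R, ∀ j ∈ R, i ≠ j → ∑ g : G, Ψ i g * conj (Ψ j g) = 0 :=
    fun i hi j hj hij => sum_ind_sec_cross (Hs i) hM (Hs j) (es i) (he i hi) (zs i) (hz i hi)
      (hu i hi) (hCH i hi) (es j) (zs j) (hz j hj) (hu j hj) (hCH j hj) χ (hnf i hi j hj hij)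
  have hGpos : (0 : ℝ) < (Nat.card G : ℝ) := by exact_mod_cast Nat.card_pos
  have hG : (Nat.card G : ℂ) ≠ 0 := Nat.cast_ne_zero.mpr Nat.card_pos.ne'
  have hA : ∑ g : G, conj (χ.1 g) * χ.1 g = (Nat.card G : ℂ) := by
    have h := classInner_irr χ χ
    rw [if_pos rfl] at h
    unfold classInner at h
    have h2 : ∑ g : G, χ.1 g * conj (χ.1 g) = (Nat.card G : ℂ) := by
      have h3 := congrArg (fun w => (Nat.card G : ℂ) * w) h
      simp only [← mul_assoc, mul_inv_cancel₀ hG, one_mul, mul_one] at h3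
      exact h3
    rw [← h2]
    exact Finset.sum_congr rfl fun g _ => mul_comm _ _
  have hC : ∑ g : G, (∑ i ∈ R, Ψ i g) * χ.1 g = ∑ i ∈ R, τ i := by
    calc ∑ g : G, (∑ i ∈ R, Ψ i g) * χ.1 g = ∑ g : G, ∑ i ∈ R, Ψ i g * χ.1 g :=
          Finset.sum_congr rfl fun g _ => Finset.sum_mul _ _ _
      _ = ∑ i ∈ R, ∑ g : G, Ψ i g * χ.1 g := Finset.sum_comm
      _ = ∑ i ∈ R, τ i := Finset.sum_congr rfl fun i hi => P1 i hi
  have hD : ∑ g : G, (∑ i ∈ R, Ψ i g) * conj (∑ i ∈ R, Ψ i g) = ∑ i ∈ R, τ i := by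
    calc ∑ g : G, (∑ i ∈ R, Ψ i g) * conj (∑ i ∈ R, Ψ i g)
        = ∑ g : G, ∑ i ∈ R, ∑ j ∈ R, Ψ i g * conj (Ψ j g) := by
          refine Finset.sum_congr rfl fun g _ => ?_
          rw [map_sum, Finset.sum_mul]
          exact Finset.sum_congr rfl fun i _ => Finset.mul_sum _ _ _
      _ = ∑ i ∈ R, ∑ j ∈ R, ∑ g : G, Ψ i g * conj (Ψ j g) := by
          rw [Finset.sum_comm]
          exact Finset.sum_congr rfl fun i _ => Finset.sum_comm
      _ = ∑ i ∈ R, ∑ j ∈ R, (if i = j then τ i else 0) := by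
          refine Finset.sum_congr rfl fun i hi => Finset.sum_congr rfl fun j hj => ?_
          by_cases hij : i = j
          · subst hij
            rw [if_pos rfl]
            exact P2 i hi
          · rw [if_neg hij]
            exact P3 i hi j hj hij
      _ = ∑ i ∈ R, τ i := by
          refine Finset.sum_congr rfl fun i hi => ?_
          rw [Finset.sum_ite_eq R i (fun _ => τ i), if_pos hi]
  have hW : ∑ g : G, (conj (χ.1 g) - ∑ i ∈ R, Ψ i g) * conj (conj (χ.1 g) - ∑ i ∈ R, Ψ i g) =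
      (Nat.card G : ℂ) - conj (∑ i ∈ R, τ i) := by
    have hexp : ∀ g : G, (conj (χ.1 g) - ∑ i ∈ R, Ψ i g) *
        conj (conj (χ.1 g) - ∑ i ∈ R, Ψ i g) =
        conj (χ.1 g) * χ.1 g - conj ((∑ i ∈ R, Ψ i g) * χ.1 g) - (∑ i ∈ R, Ψ i g) * χ.1 g +
          (∑ i ∈ R, Ψ i g) * conj (∑ i ∈ R, Ψ i g) := by
      intro g
      rw [map_sub, Complex.conj_conj, map_mul]
      ring
    rw [Finset.sum_congr rfl (fun g _ => hexp g), Finset.sum_add_distrib,
      Finset.sum_sub_distrib, Finset.sum_sub_distrib, hA, ← map_sum, hC, hD]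
    ring
  have hnn : 0 ≤ (∑ g : G, (conj (χ.1 g) - ∑ i ∈ R, Ψ i g) *
      conj (conj (χ.1 g) - ∑ i ∈ R, Ψ i g)).re := by
    rw [Complex.re_sum]
    refine Finset.sum_nonneg fun g _ => ?_
    rw [Complex.mul_conj, Complex.ofReal_re]
    exact Complex.normSq_nonneg _
  rw [hW] at hnn
  have hre : (conj (∑ i ∈ R, τ i)).re = (Nat.card G : ℝ) *
      ∑ i ∈ R, (T (Hs i) p (es i) ((zs i : Hs i) : G) χ χ).re / (Nat.card (Hs i) : ℝ) := by
    rw [Complex.conj_re, Complex.re_sum, Finset.mul_sum]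
    refine Finset.sum_congr rfl fun i _ => ?_
    have h1 : τ i = (((Nat.card G : ℝ) / (Nat.card (Hs i) : ℝ) : ℝ) : ℂ) *
        T (Hs i) p (es i) ((zs i : Hs i) : G) χ χ := by
      rw [hτ]
      push_cast
      ring
    rw [h1, Complex.re_ofReal_mul]
    ring
  rw [Complex.sub_re, Complex.natCast_re, hre] at hnn
  have h5 : (Nat.card G : ℝ) *
      ∑ i ∈ R, (T (Hs i) p (es i) ((zs i : Hs i) : G) χ χ).re / (Nat.card (Hs i) : ℝ) ≤
      (Nat.card G : ℝ) * 1 := by linarith
  exact le_of_mul_le_mul_left h5 hGpos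

end Family

end Cfsg.Agent.Lib.Helper4.HtBound
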