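import Mathlib
import Cfsg.Agent.Lib.Helper4.HB1
import Cfsg.Agent.Lib.Helper4.HB2

/-!
# Brauer's bound `ht χ + c ≤ n + d`: the counting argument (helper4)

Given subsections on the cyclic subgroups of `Z(D)` that induce `B`, have full defect, and whose
fusion is controlled by a subgroup `T` with `[T : T ∩ H] < p ^ (n + 1)` (`H` centralizing
`Z(D)`), every `χ ∈ B` satisfies `ht χ + c ≤ n + d`.
-/

set_option autoImplicit false
set_option linter.style.haveILetI false

namespace Cfsg.Agent.Lib.Helper4.HtBound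

open Cfsg Cfsg.Agent.Lib.Helper80.GenDec Cfsg.Agent.Lib.Helper80.Contrib
open Cfsg.Agent.Lib.Helper80.Major
open Cfsg.Agent.Lib.Helper4 Cfsg.Agent.Lib.Helper21 Cfsg.Agent.Lib.Helper22
open scoped ComplexConjugate

section Grp

variable {G : Type*} [Group G]

theorem zpowers_conj' (g x : G) :
    (Subgroup.zpowers x).map (MulAut.conj g).toMonoidHom = Subgroup.zpowers (g * x * g⁻¹) := by
  rw [MonoidHom.map_zpowers]
  rfl

theorem cent_singleton_eq (x : G) :
    Subgroup.centralizer ({x} : Set G) =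
      Subgroup.centralizer ((Subgroup.zpowers x : Subgroup G) : Set G) := by
  apply le_antisymm
  · intro g hg
    rw [Subgroup.mem_centralizer_iff]
    rintro z ⟨k, rfl⟩
    have h1 : x * g = g * x := Subgroup.mem_centralizer_iff.mp hg x rfl
    have h2 : Commute x g := h1
    exact (h2.zpow_left k).eq
  · exact Subgroup.centralizer_le (by
      intro y hy
      rw [Set.mem_singleton_iff] at hy
      rw [hy]
      exact Subgroup.mem_zpowers x)

theorem self_mem_cent_zpowers (y : G) :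
    y ∈ Subgroup.centralizer ((Subgroup.zpowers y : Subgroup G) : Set G) := by
  rw [← cent_singleton_eq, Subgroup.mem_centralizer_iff]
  intro w hw
  rw [Set.mem_singleton_iff] at hw
  rw [hw]

theorem zpowers_pow_eq (y : G) (t : ℕ) (ht : t.Coprime (orderOf y)) :
    Subgroup.zpowers (y ^ t) = Subgroup.zpowers y := by
  apply le_antisymm
  · exact Subgroup.zpowers_le.mpr (Subgroup.pow_mem _ (Subgroup.mem_zpowers y) t)
  · obtain ⟨m, hm⟩ := exists_pow_eq_self_of_coprime ht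
    apply Subgroup.zpowers_le.mpr
    have h1 := Subgroup.pow_mem (Subgroup.zpowers (y ^ t)) (Subgroup.mem_zpowers (y ^ t)) m
    rwa [hm] at h1

theorem exists_inv_exp (N t : ℕ) (ht : t.Coprime N) (hN : 0 < N) :
    ∃ m : ℕ, ∀ y : G, y ^ N = 1 → (y ^ t) ^ m = y ∧ (y ^ m) ^ t = y := by
  rcases Nat.lt_or_ge 1 N with h1 | h1
  · obtain ⟨m, -, hm⟩ := Nat.exists_mul_mod_eq_one_of_coprime ht h1
    refine ⟨m, fun y hy => ?_⟩
    have h2 : y ^ (t * m) = y := by
      rw [pow_eq_pow_mod (t * m) hy, hm, pow_one]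
    exact ⟨by rw [← pow_mul, h2], by rw [← pow_mul, mul_comm, h2]⟩
  · have hN1 : N = 1 := by omega
    refine ⟨1, fun y hy => ?_⟩
    rw [hN1, pow_one] at hy
    rw [hy]
    simp

/-- A set of elements all conjugate under `T` to an element centralized by `H` has at most
`[T : T ∩ H]` elements. -/
theorem orbit_card_le [Finite G] (H T : Subgroup G) (w : G) (hw : ∀ h ∈ H, h * w * h⁻¹ = w)
    (S : Finset G) (hS : ∀ y ∈ S, ∃ t ∈ T, t * y * t⁻¹ = w) : S.card ≤ H.relIndex T := by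
  classical
  letI : Fintype (T ⧸ H.subgroupOf T) := Fintype.ofFinite _
  have hsub : S ⊆ Finset.univ.image (fun q : T ⧸ H.subgroupOf T =>
      ((Quotient.out q : T) : G) * w * ((Quotient.out q : T) : G)⁻¹) := by
    intro y hy
    obtain ⟨t, ht, hty⟩ := hS y hy
    rw [Finset.mem_image]
    refine ⟨QuotientGroup.mk (⟨t, ht⟩⁻¹ : T), Finset.mem_univ _, ?_⟩
    obtain ⟨k, hk⟩ := QuotientGroup.mk_out_eq_mul (H.subgroupOf T) (⟨t, ht⟩⁻¹ : T)
    rw [hk]
    have hkH : ((k : T) : G) ∈ H := Subgroup.mem_subgroupOf.mp k.2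
    have h1 := hw _ hkH
    show (t⁻¹ * ((k : T) : G)) * w * (t⁻¹ * ((k : T) : G))⁻¹ = y
    calc (t⁻¹ * ((k : T) : G)) * w * (t⁻¹ * ((k : T) : G))⁻¹
        = t⁻¹ * (((k : T) : G) * w * ((k : T) : G)⁻¹) * t := by group
      _ = t⁻¹ * w * t := by rw [h1]
      _ = y := by
        rw [← hty]
        group
  calc S.card ≤ (Finset.univ.image (fun q : T ⧸ H.subgroupOf T =>
        ((Quotient.out q : T) : G) * w * ((Quotient.out q : T) : G)⁻¹)).card :=
        Finset.card_le_card hsub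
    _ ≤ (Finset.univ : Finset (T ⧸ H.subgroupOf T)).card := Finset.card_image_le
    _ = H.relIndex T := by
        rw [Finset.card_univ, ← Nat.card_eq_fintype_card, ← Subgroup.index_eq_card]
        rfl

end Grp

section Core

variable {G : Type*} [Group G] [Fintype G]

/-- The centralizers of subgroups, as finite types (a fixed instance for this file). -/
noncomputable local instance centFintype (Q : Subgroup G) :
    Fintype (Subgroup.centralizer (Q : Set G)) := Fintype.ofFinite _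

/-- The irreducible characters of centralizers of subgroups, as finite types. -/
noncomputable local instance centIrrFintype (Q : Subgroup G) :
    Fintype (IrrCharacter (Subgroup.centralizer (Q : Set G))) := Fintype.ofFinite _

open scoped Classical in
/-- The diagonal contribution `alpha χ χ` of the subsection `(w, f Q)`, `w ∈ C_G(Q)`. -/
noncomputable def cAlpha (p : ℕ) [Fact p.Prime]
    (f : ∀ Q : Subgroup G, Set (IrrCharacter (Subgroup.centralizer (Q : Set G))))
    (χ : IrrCharacter G) (Q : Subgroup G) (w : G) : ℂ :=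
  if hw : w ∈ Subgroup.centralizer (Q : Set G) then
    alpha (Subgroup.centralizer (Q : Set G)) p (f Q) ⟨w, hw⟩ χ χ
  else 0

theorem cAlpha_eq (p : ℕ) [Fact p.Prime]
    (f : ∀ Q : Subgroup G, Set (IrrCharacter (Subgroup.centralizer (Q : Set G))))
    (χ : IrrCharacter G) (Q : Subgroup G) (w : Subgroup.centralizer (Q : Set G)) :
    cAlpha p f χ Q (w : G) = alpha (Subgroup.centralizer (Q : Set G)) p (f Q) w χ χ := by
  unfold cAlpha
  rw [dif_pos w.2]

/-- **Brauer's height bound**, from subsections on the cyclic subgroups of `Z(D)`. -/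
theorem height_bound_core (p : ℕ) [Fact p.Prime] (M : Ideal AlgInt) (hM : IsPModular p M)
    (B : Set (IrrCharacter G)) (D : Subgroup G) (d : ℕ) (hDd : Nat.card D = p ^ d)
    (hdB : blockDefect p B = d) (H W : Subgroup G)
    (hHZ : ∀ h ∈ H, ∀ y ∈ D, (∀ x ∈ D, x * y = y * x) → h * y * h⁻¹ = y)
    (c : ℕ) (hc : Nat.card (Subgroup.center D) = p ^ c)
    (f : ∀ Q : Subgroup G, Set (IrrCharacter (Subgroup.centralizer (Q : Set G))))
    (hf1 : ∀ Q : Subgroup G, Q ≤ D → D ≤ Subgroup.centralizer (Q : Set G) →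
      IsInducedBlock M (Subgroup.centralizer (Q : Set G)) (f Q) B ∧
        blockDefect p (f Q) = blockDefect p B)
    (hf2 : ∀ Q Q' : Subgroup G, Q ≤ D → D ≤ Subgroup.centralizer (Q : Set G) → Q' ≤ D →
      D ≤ Subgroup.centralizer (Q' : Set G) → ∀ g : G,
      Q.map (MulAut.conj g).toMonoidHom = Q' →
      (∃ ξ ∈ f Q, ∃ ξ' ∈ f Q', ∀ (c : Subgroup.centralizer (Q : Set G))
        (c' : Subgroup.centralizer (Q' : Set G)), (c' : G) = g * (c : G) * g⁻¹ →
          ξ'.1 c' = ξ.1 c) →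
      ∃ t ∈ W, ∀ q ∈ Q, t * q * t⁻¹ = g * q * g⁻¹)
    (n : ℕ) (hn : H.relIndex W < p ^ (n + 1)) (χ : IrrCharacter G) (hχ : χ ∈ B) :
    blockHeight p B χ.1 + c ≤ n + d := by
  classical
  have hp : p.Prime := Fact.out
  set h := blockHeight p B χ.1 with hh
  -- the centre of `D` as a finset
  set Z : Finset G := Finset.univ.filter (fun y : G => y ∈ D ∧ ∀ x ∈ D, x * y = y * x) with hZ
  have hZmem : ∀ y, y ∈ Z ↔ (y ∈ D ∧ ∀ x ∈ D, x * y = y * x) := by
    intro y
    simp [hZ]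
  have hZcard : Z.card = p ^ c := by
    rw [← hc]
    have e : Subgroup.center D ≃ {y : G // y ∈ Z} :=
      { toFun := fun z => ⟨((z : D) : G), (hZmem _).mpr ⟨(z : D).2, fun x hx => by
            have h1 := Subgroup.mem_center_iff.mp z.2 ⟨x, hx⟩
            exact congrArg Subtype.val h1⟩⟩
        invFun := fun y => ⟨⟨y.1, ((hZmem _).mp y.2).1⟩, Subgroup.mem_center_iff.mpr
          (fun g => Subtype.ext (((hZmem _).mp y.2).2 g g.2))⟩
        left_inv := fun z => rfl
        right_inv := fun y => rfl }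
    rw [Nat.card_congr e, Nat.card_eq_fintype_card, Fintype.card_coe]
  have hZD : ∀ y ∈ Z, y ∈ D := fun y hy => ((hZmem y).mp hy).1
  have hZc : ∀ y ∈ Z, ∀ x ∈ D, x * y = y * x := fun y hy => ((hZmem y).mp hy).2
  have hZpow : ∀ y ∈ Z, ∀ t : ℕ, y ^ t ∈ Z := by
    intro y hy t
    rw [hZmem]
    refine ⟨D.pow_mem (hZD y hy) t, fun x hx => ?_⟩
    have h1 : Commute x y := hZc y hy x hx
    exact (h1.pow_right t).eq
  have hpowd : ∀ y ∈ Z, y ^ (p ^ d) = 1 := by
    intro y hy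
    have h1 : (⟨y, hZD y hy⟩ : D) ^ Nat.card D = 1 := pow_card_eq_one'
    rw [hDd] at h1
    exact congrArg Subtype.val h1
  have hord : ∀ y ∈ Z, ∃ m : ℕ, m ≤ d ∧ orderOf y = p ^ m := by
    intro y hy
    have h1 : orderOf y ∣ p ^ d := orderOf_dvd_of_pow_eq_one (hpowd y hy)
    obtain ⟨m, hm, hmo⟩ := (Nat.dvd_prime_pow hp).mp h1
    exact ⟨m, hm, hmo⟩
  have hQD : ∀ y ∈ Z, Subgroup.zpowers y ≤ D :=
    fun y hy => Subgroup.zpowers_le.mpr (hZD y hy)
  have hDQ : ∀ y ∈ Z, D ≤ Subgroup.centralizer ((Subgroup.zpowers y : Subgroup G) : Set G) := by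
    intro y hy x hx
    rw [← cent_singleton_eq, Subgroup.mem_centralizer_iff]
    intro w hw
    rw [Set.mem_singleton_iff] at hw
    rw [hw]
    exact (hZc y hy x hx).symm
  have hzc : ∀ y : G, (⟨y, self_mem_cent_zpowers y⟩ :
      Subgroup.centralizer ((Subgroup.zpowers y : Subgroup G) : Set G)) ∈
        Subgroup.center (Subgroup.centralizer ((Subgroup.zpowers y : Subgroup G) : Set G)) := by
    intro y
    rw [Subgroup.mem_center_iff]
    intro g
    apply Subtype.ext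
    exact (Subgroup.mem_centralizer_iff.mp g.2 y (Subgroup.mem_zpowers y)).symm
  have hCHy : ∀ y : G, Subgroup.centralizer ({((⟨y, self_mem_cent_zpowers y⟩ :
      Subgroup.centralizer ((Subgroup.zpowers y : Subgroup G) : Set G)) : G)} : Set G) ≤
        Subgroup.centralizer ((Subgroup.zpowers y : Subgroup G) : Set G) :=
    fun y => le_of_eq (cent_singleton_eq y)
  have hfy : ∀ y ∈ Z, IsInducedBlock M
      (Subgroup.centralizer ((Subgroup.zpowers y : Subgroup G) : Set G))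
        (f (Subgroup.zpowers y)) B ∧
      blockDefect p (f (Subgroup.zpowers y)) = blockDefect p B :=
    fun y hy => hf1 _ (hQD y hy) (hDQ y hy)
  -- the diagonal contributions
  set A : G → ℝ := fun y => (cAlpha p f χ (Subgroup.zpowers y) y).re with hA
  have hAeq : ∀ y : G, A y =
      (alpha (Subgroup.centralizer ((Subgroup.zpowers y : Subgroup G) : Set G)) p
        (f (Subgroup.zpowers y)) ⟨y, self_mem_cent_zpowers y⟩ χ χ).re := by
    intro y
    simp only [hA]
    rw [← cAlpha_eq p f χ (Subgroup.zpowers y) ⟨y, self_mem_cent_zpowers y⟩]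
  have hApos : ∀ y ∈ Z, 0 < A y := by
    intro y hy
    obtain ⟨m, hm, hmo⟩ := hord y hy
    rw [hAeq]
    have hzm : (⟨y, self_mem_cent_zpowers y⟩ :
        Subgroup.centralizer ((Subgroup.zpowers y : Subgroup G) : Set G)) ^ (p ^ m) = 1 := by
      apply Subtype.ext
      show y ^ (p ^ m) = 1
      rw [← hmo]
      exact pow_orderOf_eq_one y
    exact (alpha_self_pos _ hM _ (hzc y) m hzm ⟨m, hmo⟩ (hCHy y) _ B (hfy y hy).1
      (hfy y hy).2 χ hχ).2
  -- the lower bound
  set PR := primitiveRoots (p ^ d) ℂ with hPR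
  have hPRpos : 0 < PR.card := by
    rw [hPR, Complex.card_primitiveRoots]
    exact Nat.totient_pos.mpr (pow_pos hp.pos d)
  have hlow1 : ∀ y ∈ Z, (PR.card : ℝ) * (p : ℝ) ^ h ≤
      ∑ η ∈ PR, A (y ^ tauExp (p ^ d) η) := by
    intro y hy
    obtain ⟨m, hm, hmo⟩ := hord y hy
    have key := sum_roots_ge (Subgroup.centralizer ((Subgroup.zpowers y : Subgroup G) : Set G))
      hM ⟨y, self_mem_cent_zpowers y⟩ (hzc y) m hmo d hm (hCHy y) (f (Subgroup.zpowers y)) B
      (hfy y hy).1 (hfy y hy).2 χ hχ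
    refine le_trans key (le_of_eq (Finset.sum_congr rfl fun η hη => ?_))
    obtain ⟨-, hcop⟩ := tauExp_spec (p ^ d) (pow_pos hp.pos d) η hη
    generalize tauExp (p ^ d) η = t at hcop ⊢
    have hcop' : t.Coprime (orderOf y) := by
      rw [hmo]
      exact Nat.Coprime.coprime_dvd_right (pow_dvd_pow p hm) hcop
    have hzp : Subgroup.zpowers (y ^ t) = Subgroup.zpowers y := zpowers_pow_eq y t hcop'
    simp only [hA]
    rw [hzp, ← cAlpha_eq p f χ (Subgroup.zpowers y) (⟨y, self_mem_cent_zpowers y⟩ ^ t)]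
    rfl
  have hlow2 : (Z.card : ℝ) * ((PR.card : ℝ) * (p : ℝ) ^ h) ≤ (PR.card : ℝ) * ∑ y ∈ Z, A y := by
    have h1 : ∑ y ∈ Z, (PR.card : ℝ) * (p : ℝ) ^ h ≤
        ∑ y ∈ Z, ∑ η ∈ PR, A (y ^ tauExp (p ^ d) η) := Finset.sum_le_sum hlow1
    rw [Finset.sum_const, nsmul_eq_mul, Finset.sum_comm] at h1
    have h2 : ∀ η ∈ PR, ∑ y ∈ Z, A (y ^ tauExp (p ^ d) η) = ∑ y ∈ Z, A y := by
      intro η hη
      obtain ⟨-, hcop⟩ := tauExp_spec (p ^ d) (pow_pos hp.pos d) η hη
      obtain ⟨m, hminv⟩ := exists_inv_exp (G := G) (p ^ d) (tauExp (p ^ d) η) hcop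
        (pow_pos hp.pos d)
      exact Finset.sum_nbij' (fun y => y ^ tauExp (p ^ d) η) (fun y => y ^ m)
        (fun y hy => hZpow y hy _) (fun y hy => hZpow y hy _)
        (fun y hy => (hminv y (hpowd y hy)).1) (fun y hy => (hminv y (hpowd y hy)).2)
        (fun y hy => rfl)
    rw [Finset.sum_congr rfl h2, Finset.sum_const, nsmul_eq_mul] at h1
    exact h1
  -- conjugacy under `T`
  have rel_refl : ∀ y : G, ∃ t ∈ W, t * y * t⁻¹ = y := fun y => ⟨1, W.one_mem, by simp⟩
  have rel_symm : ∀ y y' : G, (∃ t ∈ W, t * y * t⁻¹ = y') → ∃ t ∈ W, t * y' * t⁻¹ = y := by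
    rintro y y' ⟨t, ht, rfl⟩
    exact ⟨t⁻¹, W.inv_mem ht, by group⟩
  have rel_trans : ∀ y y' y'' : G, (∃ t ∈ W, t * y * t⁻¹ = y') →
      (∃ t ∈ W, t * y' * t⁻¹ = y'') → ∃ t ∈ W, t * y * t⁻¹ = y'' := by
    rintro y y' y'' ⟨t, ht, rfl⟩ ⟨s, hs, rfl⟩
    exact ⟨s * t, W.mul_mem hs ht, by group⟩
  set O : G → Finset G := fun y => Z.filter (fun y' => ∃ t ∈ W, t * y * t⁻¹ = y') with hO
  have hOmem : ∀ y y' : G, y' ∈ O y ↔ (y' ∈ Z ∧ ∃ t ∈ W, t * y * t⁻¹ = y') := by
    intro y y'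
    simp [hO]
  have hpick : ∀ S : Finset G, ∃ w : G, S.Nonempty → (w ∈ S ∧ ∀ y ∈ S, A y ≤ A w) := by
    intro S
    by_cases hS : S.Nonempty
    · obtain ⟨w, hw, hmax⟩ := S.exists_max_image A hS
      exact ⟨w, fun _ => ⟨hw, hmax⟩⟩
    · exact ⟨1, fun h => absurd h hS⟩
  choose pick hpickspec using hpick
  set r : G → G := fun y => pick (O y) with hr
  have hr1 : ∀ y ∈ Z, r y ∈ Z ∧ (∃ t ∈ W, t * y * t⁻¹ = r y) ∧ A y ≤ A (r y) := by
    intro y hy
    have hyO : y ∈ O y := (hOmem y y).mpr ⟨hy, rel_refl y⟩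
    obtain ⟨h1, h2⟩ := hpickspec (O y) ⟨y, hyO⟩
    have h3 := (hOmem y _).mp h1
    exact ⟨h3.1, h3.2, h2 y hyO⟩
  have hr2 : ∀ y y' : G, (∃ t ∈ W, t * y * t⁻¹ = y') → r y = r y' := by
    intro y y' hyy'
    have hOeq : O y = O y' := by
      ext w
      rw [hOmem, hOmem]
      constructor
      · rintro ⟨hw, h1⟩
        exact ⟨hw, rel_trans _ _ _ (rel_symm _ _ hyy') h1⟩
      · rintro ⟨hw, h1⟩
        exact ⟨hw, rel_trans _ _ _ hyy' h1⟩
    simp only [hr]
    rw [hOeq]
  set R : Finset G := Z.image r with hR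
  have hRZ : ∀ w ∈ R, w ∈ Z := by
    intro w hw
    obtain ⟨y, hy, rfl⟩ := Finset.mem_image.mp hw
    exact (hr1 y hy).1
  have hRsep : ∀ w ∈ R, ∀ w' ∈ R, (∃ t ∈ W, t * w * t⁻¹ = w') → w = w' := by
    intro w hw w' hw' hrel
    obtain ⟨y, hy, rfl⟩ := Finset.mem_image.mp hw
    obtain ⟨y', hy', rfl⟩ := Finset.mem_image.mp hw'
    apply hr2
    exact rel_trans _ _ _ (hr1 y hy).2.1 (rel_trans _ _ _ hrel (rel_symm _ _ (hr1 y' hy').2.1))
  -- the Bessel inequality
  have hbes := bessel_sections hM R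
    (fun y => Subgroup.centralizer ((Subgroup.zpowers y : Subgroup G) : Set G))
    (fun y => ⟨y, self_mem_cent_zpowers y⟩) (fun y => f (Subgroup.zpowers y))
    (fun y _ => hzc y)
    (fun y hy => by
      obtain ⟨m, -, hmo⟩ := hord y (hRZ y hy)
      exact ⟨m, hmo⟩)
    (fun y _ => hCHy y)
    (fun y hy => (hfy y (hRZ y hy)).1.1)
    (by
      intro y hy y' hy' hne g hg ξ hξ ξ' hξ' hconj
      apply hne
      apply hRsep y hy y' hy'
      obtain ⟨t, ht, htq⟩ := hf2 (Subgroup.zpowers y) (Subgroup.zpowers y') (hQD y (hRZ y hy))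
        (hDQ y (hRZ y hy)) (hQD y' (hRZ y' hy')) (hDQ y' (hRZ y' hy')) g
        (by rw [zpowers_conj', hg]) ⟨ξ, hξ, ξ', hξ', hconj⟩
      exact ⟨t, ht, by rw [htq y (Subgroup.mem_zpowers y)]; exact hg⟩)
    χ
  have hterm : ∀ y ∈ Z,
      (T (Subgroup.centralizer ((Subgroup.zpowers y : Subgroup G) : Set G)) p
        (f (Subgroup.zpowers y)) y χ χ).re /
        (Nat.card (Subgroup.centralizer ((Subgroup.zpowers y : Subgroup G) : Set G)) : ℝ) =
      A y / (p : ℝ) ^ d := by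
    intro y hy
    have he := (hfy y hy).1.1
    have h1 := T_eq_alpha (Subgroup.centralizer ((Subgroup.zpowers y : Subgroup G) : Set G)) hM
      (f (Subgroup.zpowers y)) he χ χ ⟨y, self_mem_cent_zpowers y⟩ (hzc y)
    have h2 := card_eq_split (p := p)
      (Subgroup.centralizer ((Subgroup.zpowers y : Subgroup G) : Set G)) (f (Subgroup.zpowers y))
    have h3 := kappa_ne_zero (p := p)
      (Subgroup.centralizer ((Subgroup.zpowers y : Subgroup G) : Set G)) (f (Subgroup.zpowers y))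
    rw [(hfy y hy).2, hdB] at h2
    obtain ⟨k1, hk1⟩ : ∃ k1 : ℕ, k1 = p ^ e0
        (Subgroup.centralizer ((Subgroup.zpowers y : Subgroup G) : Set G)) p
          (f (Subgroup.zpowers y)) *
        (Nat.card (Subgroup.centralizer ((Subgroup.zpowers y : Subgroup G) : Set G)) /
          p ^ (Nat.card (Subgroup.centralizer
            ((Subgroup.zpowers y : Subgroup G) : Set G))).factorization p) := ⟨_, rfl⟩
    have h1' : T (Subgroup.centralizer ((Subgroup.zpowers y : Subgroup G) : Set G)) p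
        (f (Subgroup.zpowers y)) y χ χ = (k1 : ℂ) *
          alpha (Subgroup.centralizer ((Subgroup.zpowers y : Subgroup G) : Set G)) p
            (f (Subgroup.zpowers y)) ⟨y, self_mem_cent_zpowers y⟩ χ χ := by
      rw [hk1, Nat.cast_mul]
      exact h1
    have h2' : Nat.card (Subgroup.centralizer ((Subgroup.zpowers y : Subgroup G) : Set G)) =
        k1 * p ^ d := by
      rw [hk1]
      exact_mod_cast h2
    have h3' : (k1 : ℝ) ≠ 0 := by
      have h4 : (k1 : ℂ) ≠ 0 := by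
        rw [hk1, Nat.cast_mul]
        exact h3
      exact_mod_cast h4
    have hpd : ((p : ℝ) ^ d) ≠ 0 := pow_ne_zero _ (Nat.cast_ne_zero.mpr hp.ne_zero)
    rw [h1', h2', hAeq, Complex.mul_re, Complex.natCast_re, Complex.natCast_im, zero_mul,
      sub_zero]
    push_cast
    field_simp
  have hup1 : ∑ w ∈ R, A w ≤ (p : ℝ) ^ d := by
    have h1 : ∑ w ∈ R, A w / (p : ℝ) ^ d ≤ 1 := by
      refine le_trans (le_of_eq ?_) hbes
      exact Finset.sum_congr rfl fun w hw => (hterm w (hRZ w hw)).symm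
    have hpd : (0 : ℝ) < (p : ℝ) ^ d := pow_pos (Nat.cast_pos.mpr hp.pos) d
    rw [← Finset.sum_div, div_le_one hpd] at h1
    exact h1
  have hup2 : ∑ y ∈ Z, A y ≤ (H.relIndex W : ℝ) * ∑ w ∈ R, A w := by
    calc ∑ y ∈ Z, A y ≤ ∑ y ∈ Z, A (r y) := Finset.sum_le_sum fun y hy => (hr1 y hy).2.2
      _ = ∑ w ∈ R, ((Z.filter (fun y => r y = w)).card : ℝ) * A w := by
          rw [hR, Finset.sum_comp A r]
          exact Finset.sum_congr rfl fun w _ => by rw [nsmul_eq_mul]
      _ ≤ ∑ w ∈ R, (H.relIndex W : ℝ) * A w := by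
          refine Finset.sum_le_sum fun w hw => ?_
          refine mul_le_mul_of_nonneg_right ?_ (hApos w (hRZ w hw)).le
          have hcard : (Z.filter (fun y => r y = w)).card ≤ H.relIndex W := by
            apply orbit_card_le H W w
              (fun k hk => hHZ k hk w (hZD w (hRZ w hw)) (hZc w (hRZ w hw)))
            intro y hy
            obtain ⟨hyZ, hyw⟩ := Finset.mem_filter.mp hy
            rw [← hyw]
            exact (hr1 y hyZ).2.1
          exact_mod_cast hcard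
      _ = (H.relIndex W : ℝ) * ∑ w ∈ R, A w := by rw [Finset.mul_sum]
  have hfin : (p : ℝ) ^ c * (p : ℝ) ^ h ≤ (H.relIndex W : ℝ) * (p : ℝ) ^ d := by
    have hPRposR : (0 : ℝ) < (PR.card : ℝ) := by exact_mod_cast hPRpos
    have h1 : (Z.card : ℝ) * (p : ℝ) ^ h ≤ ∑ y ∈ Z, A y := by
      have h2 : (PR.card : ℝ) * ((Z.card : ℝ) * (p : ℝ) ^ h) ≤
          (PR.card : ℝ) * ∑ y ∈ Z, A y := by
        calc (PR.card : ℝ) * ((Z.card : ℝ) * (p : ℝ) ^ h)
            = (Z.card : ℝ) * ((PR.card : ℝ) * (p : ℝ) ^ h) := by ring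
          _ ≤ (PR.card : ℝ) * ∑ y ∈ Z, A y := hlow2
      exact le_of_mul_le_mul_left h2 hPRposR
    rw [hZcard] at h1
    push_cast at h1
    have h3 : (0 : ℝ) ≤ (H.relIndex W : ℝ) := Nat.cast_nonneg _
    calc (p : ℝ) ^ c * (p : ℝ) ^ h ≤ ∑ y ∈ Z, A y := h1
      _ ≤ (H.relIndex W : ℝ) * ∑ w ∈ R, A w := hup2
      _ ≤ (H.relIndex W : ℝ) * (p : ℝ) ^ d := mul_le_mul_of_nonneg_left hup1 h3
  have hfinN : p ^ c * p ^ h ≤ H.relIndex W * p ^ d := by exact_mod_cast hfin
  have h4 : p ^ (c + h) < p ^ (n + 1 + d) := by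
    calc p ^ (c + h) = p ^ c * p ^ h := pow_add p c h
      _ ≤ H.relIndex W * p ^ d := hfinN
      _ < p ^ (n + 1) * p ^ d := Nat.mul_lt_mul_of_pos_right hn (pow_pos hp.pos d)
      _ = p ^ (n + 1 + d) := (pow_add p (n + 1) d).symm
  have h5 := (Nat.pow_lt_pow_iff_right hp.one_lt).mp h4
  omega

end Core

end Cfsg.Agent.Lib.Helper4.HtBound
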