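import Mathlib
import Cfsg.Agent.Lib.Helper22.BFDefs
import Cfsg.Agent.Lib.Helper57.BFFourier
import Cfsg.Agent.Lib.Helper82.CharCore

/-!
# S4504 sub-piece LOCAL-S1A (helper4, copy-edit of helper68's BFS1A with `≤` in `hdeg`)
-/

set_option autoImplicit false
set_option linter.unusedVariables false

namespace Cfsg.Agent.Lib.Helper4.HPT

open Cfsg Cfsg.Agent.Lib.Helper22.BFD
open scoped ComplexConjugate

universe u

variable {G : Type u} [Group G] [Fintype G]

theorem hpl_s1a_hsum0 (p : ℕ) [Fact p.Prime] (ζ : ℂ) (hζ : IsPrimitiveRoot ζ p) (u : ZMod p) :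
    ∑ t : ZMod p, ζ ^ (u * t).val = if u = 0 then (p : ℂ) else 0 := by
  have h1 : ∀ t : ZMod p, ζ ^ (u * t).val =
      (AddChar.zmodChar p hζ.pow_eq_one) (t * u) := by
    intro t
    rw [AddChar.zmodChar_apply, mul_comm]
  rw [Finset.sum_congr rfl (fun t _ => h1 t),
    AddChar.sum_mulShift u (AddChar.zmodChar_primitive_of_primitive_root p hζ), ZMod.card]
  split_ifs <;> simp

theorem hpl_s1a_zero_not_mem (p : ℕ) [Fact p.Prime] (z : G) (hz : orderOf z = p) :
    (0 : ZMod p) ∉ Ef p z := by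
  classical
  have hp : p.Prime := Fact.out
  intro h
  unfold Ef at h
  rw [Finset.mem_filter, ZMod.val_zero, pow_zero, isConj_one_right] at h
  rw [h.2, orderOf_one] at hz
  exact hp.one_lt.ne hz

theorem hpl_s1a_one_mem (p : ℕ) [Fact p.Prime] (z : G) : (1 : ZMod p) ∈ Ef p z := by
  classical
  unfold Ef
  rw [Finset.mem_filter, ZMod.val_one, pow_one]
  exact ⟨Finset.mem_univ _, IsConj.refl z⟩

theorem hpl_s1a_key (p : ℕ) [Fact p.Prime] (z : G) (hz : orderOf z = p) (a : ZMod p → ℕ)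
    (hst : ∀ k ∈ Ef p z, ∀ u : ZMod p, a (k * u) = a u) (u₁ : ZMod p) (hu₁ : u₁ ≠ 0)
    (v : ZMod p) (hv : ∀ k ∈ Ef p z, v ≠ k * u₁) :
    a v + (Ef p z).card * a u₁ ≤ ∑ u, a u := by
  classical
  have hinj : Set.InjOn (fun k : ZMod p => k * u₁) (Ef p z : Set (ZMod p)) := by
    intro k _ k' _ hkk
    exact mul_right_cancel₀ hu₁ hkk
  have hvS : v ∉ (Ef p z).image (fun k : ZMod p => k * u₁) := by
    intro h
    obtain ⟨k, hk, hkv⟩ := Finset.mem_image.1 h
    exact hv k hk hkv.symm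
  have h1 : ∑ u ∈ (Ef p z).image (fun k : ZMod p => k * u₁), a u = (Ef p z).card * a u₁ := by
    rw [Finset.sum_image hinj, Finset.sum_congr rfl (fun k hk => hst k hk u₁), Finset.sum_const,
      smul_eq_mul]
  have h2 : ∑ u ∈ insert v ((Ef p z).image (fun k : ZMod p => k * u₁)), a u ≤ ∑ u, a u :=
    Finset.sum_le_sum_of_subset (Finset.subset_univ _)
  rw [Finset.sum_insert hvS, h1] at h2
  exact h2

/-- SUB-PIECE S1A' -/
theorem step1a' (p : ℕ) [Fact p.Prime] (ζ : ℂ) (hζ : IsPrimitiveRoot ζ p) (z : G)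
    (hz : orderOf z = p) (χ : IrrCharacter G) (hfaith : ∀ g : G, χ.1 g = χ.1 1 → g = 1)
    (hdeg : 2 * charDegree χ.1 + 1 ≤ p) (hstr : Str p ζ z χ.1) (a : ZMod p → ℕ)
    (ha : ∀ t : ZMod p, χ.1 (z ^ t.val) = ∑ u : ZMod p, (a u : ℂ) * ζ ^ (u * t).val)
    (hst : ∀ k ∈ Ef p z, ∀ u : ZMod p, a (k * u) = a u) :
    (Ef p z).card ≤ charDegree χ.1 ∧
      ∃ u₀ : ZMod p, u₀ ≠ 0 ∧ ∀ u : ZMod p, a u ≠ 0 → ∃ k ∈ Ef p z, u = k * u₀ := by
  classical
  have hp : p.Prime := Fact.out
  have hp2 : 2 ≤ p := hp.two_le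
  obtain ⟨hN, hN0⟩ := Cfsg.Agent.Lib.Helper82.irr_charDegree χ
  obtain ⟨N, hNdef⟩ : ∃ N : ℕ, N = charDegree χ.1 := ⟨_, rfl⟩
  rw [← hNdef] at hdeg hN hN0 ⊢
  obtain ⟨f, hfdef⟩ : ∃ f : ℕ, f = (Ef p z).card := ⟨_, rfl⟩
  obtain ⟨d, r, e, w, hd, hre, hw, hS⟩ := hstr
  rw [← hfdef] at hre ⊢
  have key := hpl_s1a_key p z hz a hst
  rw [← hfdef] at key
  -- the degree is the sum of the multiplicities
  have hsum : N = ∑ u, a u := by
    have h := ha 0
    rw [ZMod.val_zero, pow_zero, ← hN] at h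
    simp only [mul_zero, ZMod.val_zero, pow_zero, mul_one] at h
    rw [← Nat.cast_sum] at h
    exact_mod_cast h
  -- the sum over the powers of `z`
  have hsP : sP p z χ.1 = ((p * a 0 : ℕ) : ℂ) := by
    unfold sP
    rw [Finset.sum_congr rfl (fun t _ => ha t), Finset.sum_comm]
    simp_rw [← Finset.mul_sum, hpl_s1a_hsum0 p ζ hζ]
    simp [mul_comm]
  -- bounds on `f`
  have hf1 : 1 ≤ f := by
    rw [hfdef]
    exact Finset.card_pos.2 ⟨1, hpl_s1a_one_mem p z⟩
  have hfp : f + 1 ≤ p := by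
    have h1 : Ef p z ⊆ Finset.univ.erase (0 : ZMod p) := by
      intro k hk
      rw [Finset.mem_erase]
      refine ⟨?_, Finset.mem_univ _⟩
      rintro rfl
      exact hpl_s1a_zero_not_mem p z hz hk
    have h2 := Finset.card_le_card h1
    rw [Finset.card_erase_of_mem (Finset.mem_univ _), Finset.card_univ, ZMod.card, ← hfdef] at h2
    omega
  have hr1 : 1 ≤ r := by
    rcases Nat.eq_zero_or_pos r with h | h
    · rw [h, zero_mul] at hre
      omega
    · exact h
  -- divisibility by `d`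
  have hdvd : ∀ u, d ∣ a u := by
    have h1 := ha 1
    rw [hw 1 one_ne_zero, Finset.mul_sum] at h1
    have h2 : ∑ u : ZMod p, (((a u : ℤ) - d * w u : ℤ) : ℂ) * ζ ^ u.val = 0 := by
      have h3 : ∀ u : ZMod p, (((a u : ℤ) - d * w u : ℤ) : ℂ) * ζ ^ u.val =
          (a u : ℂ) * ζ ^ (u * 1).val - (d : ℂ) * ((w u : ℂ) * ζ ^ (u * 1).val) := by
        intro u
        rw [mul_one]
        push_cast
        ring
      rw [Finset.sum_congr rfl (fun u _ => h3 u), Finset.sum_sub_distrib, ← h1, sub_self]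
    have hconst := Cfsg.Agent.Lib.BF.bfF_const_of_sum_pow_eq_zero ζ hζ
      (fun u => (a u : ℤ) - d * w u) h2
    obtain ⟨u', hu'⟩ : ∃ u' : ZMod p, a u' = 0 := by
      by_contra hne
      push Not at hne
      have h4 : ∑ _u : ZMod p, 1 ≤ ∑ u : ZMod p, a u :=
        Finset.sum_le_sum (fun u _ => Nat.pos_of_ne_zero (hne u))
      rw [Finset.sum_const, Finset.card_univ, ZMod.card, smul_eq_mul, mul_one, ← hsum] at h4
      omega
    intro u
    have h5 := hconst u u'
    simp only [hu', Nat.cast_zero, zero_sub] at h5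
    have h6 : (a u : ℤ) = d * (w u - w u') := by linarith
    have h7 : (d : ℤ) ∣ (a u : ℤ) := ⟨_, h6⟩
    exact Int.natCast_dvd_natCast.1 h7
  -- `a 0 ≤ N`
  have ha0 : a 0 ≤ N := by
    rw [hsum]
    exact Finset.single_le_sum (fun _ _ => Nat.zero_le _) (Finset.mem_univ (0 : ZMod p))
  -- faithfulness
  have h3 : a 0 ≠ N := by
    intro h0
    have hzero : ∀ u : ZMod p, u ≠ 0 → a u = 0 := by
      intro u hu
      by_contra hne
      have hk := key u hu 0 (by
        intro k hk h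
        have hk0 : k ≠ 0 := by
          rintro rfl
          exact hpl_s1a_zero_not_mem p z hz hk
        exact mul_ne_zero hk0 hu h.symm)
      have h1 : 1 ≤ f * a u := Nat.mul_pos hf1 (Nat.pos_of_ne_zero hne)
      omega
    have h1 := ha 1
    rw [Finset.sum_eq_single (0 : ZMod p)] at h1
    · rw [zero_mul, ZMod.val_zero, pow_zero, mul_one, ZMod.val_one, pow_one, h0, hN] at h1
      have hz1 := hfaith z h1
      rw [hz1, orderOf_one] at hz
      omega
    · intro u _ hu
      rw [hzero u hu, Nat.cast_zero, zero_mul]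
    · intro h
      exact absurd (Finset.mem_univ _) h
  rw [hsP, ← hN] at hS
  rcases hS with hA | hB | hC | hD
  · -- `p * a 0 = N + d * r * (p - 1)`
    exfalso
    have hA' : p * a 0 = N + d * r * (p - 1) := by exact_mod_cast hA
    obtain ⟨q, rfl⟩ : ∃ q, p = q + 1 := ⟨p - 1, by omega⟩
    rw [Nat.add_sub_cancel] at hA'
    have hm : d * r ≤ a 0 := by
      by_contra hlt
      push Not at hlt
      have h1 : (a 0 + 1) * q ≤ d * r * q := Nat.mul_le_mul_right q hlt
      nlinarith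
    obtain ⟨δ, hδ⟩ : ∃ δ, a 0 = d * r + δ := ⟨a 0 - d * r, by omega⟩
    rcases Nat.eq_zero_or_pos δ with h0 | hpos
    · apply h3
      rw [hδ, h0] at hA' ⊢
      nlinarith
    · have h1 : q ≤ q * δ := Nat.le_mul_of_pos_right q hpos
      rw [hδ] at hA'
      nlinarith
  · -- `p * a 0 + d * r * (p - 1) = N`
    exfalso
    have hB' : p * a 0 + d * r * (p - 1) = N := by
      have h : ((p * a 0 + d * r * (p - 1) : ℕ) : ℂ) = (N : ℂ) := by
        rw [Nat.cast_add, hB]
        ring
      exact_mod_cast h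
    have h1 : 1 * 1 * (p - 1) ≤ d * r * (p - 1) :=
      Nat.mul_le_mul_right _ (Nat.mul_le_mul hd hr1)
    omega
  · -- `p * a 0 = N + d * f`
    exfalso
    have hC' : p * a 0 = N + d * f := by
      rw [hre] at hC
      exact_mod_cast hC
    obtain ⟨a', ha'⟩ := hdvd 0
    rw [ha'] at hC'
    have ha'1 : 1 ≤ a' := by
      rcases Nat.eq_zero_or_pos a' with h | h
      · rw [h] at hC'
        simp only [mul_zero] at hC'
        omega
      · exact h
    rcases Nat.lt_or_ge a' 2 with hlt | hge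
    · have ha'e : a' = 1 := by omega
      rw [ha'e, mul_one] at hC' ha'
      -- some `u₁ ≠ 0` has `a u₁ ≠ 0`
      obtain ⟨u₁, hu₁, hau₁⟩ : ∃ u₁ : ZMod p, u₁ ≠ 0 ∧ a u₁ ≠ 0 := by
        by_contra hne
        push Not at hne
        apply h3
        rw [hsum]
        symm
        apply Finset.sum_eq_single (0 : ZMod p)
        · intro u _ hu
          exact hne u hu
        · intro h
          exact absurd (Finset.mem_univ _) h
      have hk := key u₁ hu₁ 0 (by
        intro k hk h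
        have hk0 : k ≠ 0 := by
          rintro rfl
          exact hpl_s1a_zero_not_mem p z hz hk
        exact mul_ne_zero hk0 hu₁ h.symm)
      rw [← hsum, ha'] at hk
      have hdle : d ≤ a u₁ := Nat.le_of_dvd (Nat.pos_of_ne_zero hau₁) (hdvd u₁)
      have h1 : f * d ≤ f * a u₁ := Nat.mul_le_mul_left f hdle
      -- `d + f * d ≤ N`, `p * d = N + d * f`
      have h2 : d * (1 + 2 * f) ≤ p * d := by nlinarith
      have h4 : 1 + 2 * f ≤ p := by
        have h5 : d * (1 + 2 * f) ≤ d * p := by rw [mul_comm d p]; exact h2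
        exact Nat.le_of_mul_le_mul_left h5 hd
      have h6 : p - f ≤ N := by
        have h7 : 1 * (p - f) ≤ d * (p - f) := Nat.mul_le_mul_right _ hd
        have h8 : d * (p - f) + d * f = p * d := by
          rw [← Nat.mul_add, Nat.sub_add_cancel (by omega), mul_comm]
        omega
      omega
    · have h1 : p * (d * 2) ≤ p * (d * a') := Nat.mul_le_mul_left p (Nat.mul_le_mul_left d hge)
      have h2 : d * f + d ≤ d * p := by
        rw [← Nat.mul_succ]
        exact Nat.mul_le_mul_left d hfp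
      have h4 : p ≤ p * d := Nat.le_mul_of_pos_right p hd
      nlinarith
  · -- `p * a 0 + d * f = N`
    have hD' : p * a 0 + d * f = N := by
      rw [hre] at hD
      have h : ((p * a 0 + d * f : ℕ) : ℂ) = (N : ℂ) := by
        rw [Nat.cast_add, hD]
        ring
      exact_mod_cast h
    have ha00 : a 0 = 0 := by
      by_contra hne
      have h1 : p ≤ p * a 0 := Nat.le_mul_of_pos_right p (Nat.pos_of_ne_zero hne)
      omega
    rw [ha00, mul_zero, zero_add] at hD'
    have hfN : f ≤ N := by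
      rw [← hD']
      exact Nat.le_mul_of_pos_left f hd
    refine ⟨hfN, ?_⟩
    obtain ⟨u₀, hau₀⟩ : ∃ u₀ : ZMod p, a u₀ ≠ 0 := by
      by_contra hne
      push Not at hne
      apply hN0
      rw [hsum]
      exact Finset.sum_eq_zero (fun u _ => hne u)
    have hu₀ : u₀ ≠ 0 := by
      rintro rfl
      exact hau₀ ha00
    refine ⟨u₀, hu₀, ?_⟩
    intro u hau
    by_contra hne
    push Not at hne
    have hk := key u₀ hu₀ u (fun k hk => hne k hk)
    rw [← hsum] at hk
    have hdle : d ≤ a u₀ := Nat.le_of_dvd (Nat.pos_of_ne_zero hau₀) (hdvd u₀)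
    have h1 : f * d ≤ f * a u₀ := Nat.mul_le_mul_left f hdle
    have h2 : f * d = N := by rw [mul_comm]; exact hD'
    have h4 : 1 ≤ a u := Nat.pos_of_ne_zero hau
    omega

end Cfsg.Agent.Lib.Helper4.HPT
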