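import Mathlib

/-!
# S4504 / HP-NORM4 (helper64's sub-piece ARITH, done by helper4)

Pure finite-sum arithmetic: equality in the basic inequality forces all non-trivial constituents
to have degree `≤ 2e+2`, hence there are many of them.
-/

set_option autoImplicit false

namespace Cfsg.Agent.Lib.Helper4.HPT

/-- `o` = the trivial character, `m` = multiplicities in `χ χ̄`, `d` = degrees, `s i` = the sum of
`φ_i` over the `p`-singular part of `C_G(z)`; equality in the basic inequality forces all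
non-trivial constituents to have degree `≤ 2e+2`, hence there are many of them. -/
theorem norm4_arith {ι : Type*} [Fintype ι] [DecidableEq ι] (o : ι) (m d : ι → ℕ) (s : ι → ℝ)
    (e K : ℕ) (hK : 0 < K) (he : 1 ≤ e)
    (hm1 : m o = 1) (hd1 : d o = 1) (hs1 : s o = 2 * (e : ℝ) * K)
    (hdeg : ∑ i, m i * d i = e ^ 2)
    (hS : ∑ i, (m i : ℝ) * s i = (K : ℝ) * e * ((e : ℝ) + 1))
    (hlb : ∀ i, i ≠ o → m i ≠ 0 → ((e : ℝ) + 1) * s i ≤ (e : ℝ) * d i * K ∧
      (((e : ℝ) + 1) * s i = (e : ℝ) * d i * K → d i ≤ 2 * e + 2)) :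
    1 + e / 2 ≤ ∑ i, m i ^ 2 := by
  classical
  have ho : o ∈ (Finset.univ : Finset ι) := Finset.mem_univ o
  have h1 : m o * d o + ∑ i ∈ Finset.univ.erase o, m i * d i = e ^ 2 :=
    (Finset.add_sum_erase Finset.univ (fun i => m i * d i) ho).trans hdeg
  have h2 : (m o : ℝ) * s o + ∑ i ∈ Finset.univ.erase o, (m i : ℝ) * s i =
      (K : ℝ) * e * ((e : ℝ) + 1) :=
    (Finset.add_sum_erase Finset.univ (fun i => (m i : ℝ) * s i) ho).trans hS
  rw [hm1, hd1] at h1
  rw [hm1, hs1] at h2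
  have h1r : (∑ i ∈ Finset.univ.erase o, (m i : ℝ) * d i) = (e : ℝ) ^ 2 - 1 := by
    have h0 : ((1 * 1 + ∑ i ∈ Finset.univ.erase o, m i * d i : ℕ) : ℝ) = ((e ^ 2 : ℕ) : ℝ) := by
      rw [h1]
    push_cast at h0
    linarith
  have h2r : ∑ i ∈ Finset.univ.erase o, (m i : ℝ) * s i =
      (K : ℝ) * e * ((e : ℝ) + 1) - 2 * e * K := by
    push_cast at h2; linarith
  have h3 : ∑ i ∈ Finset.univ.erase o,
      (m i : ℝ) * ((e : ℝ) * d i * K - ((e : ℝ) + 1) * s i) = 0 := by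
    have h0 : ∀ i, (m i : ℝ) * ((e : ℝ) * d i * K - ((e : ℝ) + 1) * s i) =
        (e : ℝ) * K * ((m i : ℝ) * d i) - ((e : ℝ) + 1) * ((m i : ℝ) * s i) := by
      intro i; ring
    simp_rw [h0]
    rw [Finset.sum_sub_distrib, ← Finset.mul_sum, ← Finset.mul_sum, h1r, h2r]
    ring
  have h4 : ∀ i ∈ Finset.univ.erase o,
      0 ≤ (m i : ℝ) * ((e : ℝ) * d i * K - ((e : ℝ) + 1) * s i) := by
    intro i hi
    have hio : i ≠ o := Finset.ne_of_mem_erase hi
    by_cases hmi : m i = 0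
    · rw [hmi]; simp
    · have h0 := (hlb i hio hmi).1
      exact mul_nonneg (Nat.cast_nonneg _) (by linarith)
  have h5 := (Finset.sum_eq_zero_iff_of_nonneg h4).mp h3
  have h6 : ∀ i ∈ Finset.univ.erase o, m i * d i ≤ m i * (2 * e + 2) := by
    intro i hi
    have hio : i ≠ o := Finset.ne_of_mem_erase hi
    by_cases hmi : m i = 0
    · rw [hmi]; simp
    · have h7 := h5 i hi
      have hmi' : (m i : ℝ) ≠ 0 := by exact_mod_cast hmi
      have h8 : (e : ℝ) * d i * K - ((e : ℝ) + 1) * s i = 0 := by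
        rcases mul_eq_zero.mp h7 with h | h
        · exact absurd h hmi'
        · exact h
      exact Nat.mul_le_mul_left _ ((hlb i hio hmi).2 (by linarith))
  have h7 : ∑ i ∈ Finset.univ.erase o, m i * d i ≤
      (∑ i ∈ Finset.univ.erase o, m i) * (2 * e + 2) := by
    rw [Finset.sum_mul]; exact Finset.sum_le_sum h6
  have h8 : ∑ i ∈ Finset.univ.erase o, m i ≤ ∑ i ∈ Finset.univ.erase o, m i ^ 2 := by
    apply Finset.sum_le_sum
    intro i _
    exact Nat.le_self_pow (by norm_num) (m i)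
  have h9 : ∑ i, m i ^ 2 = m o ^ 2 + ∑ i ∈ Finset.univ.erase o, m i ^ 2 :=
    (Finset.add_sum_erase Finset.univ (fun i => m i ^ 2) ho).symm
  rw [h9, hm1]
  obtain ⟨M, hM⟩ : ∃ M : ℕ, M = ∑ i ∈ Finset.univ.erase o, m i := ⟨_, rfl⟩
  rw [← hM] at h7 h8
  have h10 : e ^ 2 ≤ 1 + M * (2 * e + 2) := by omega
  have h11 : e ≤ 2 * M + 1 := by
    by_contra hcon
    have hcon' : 2 * M + 2 ≤ e := by omega
    have h12 := Nat.mul_le_mul_right e hcon'
    nlinarith
  omega

end Cfsg.Agent.Lib.Helper4.HPT
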