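import Mathlib
import Cfsg.Agent.Lib.Helper58.JEDefs
import Cfsg.Agent.Lib.Helper82.JcOCPC

/-! S2948 project JE (helper58), piece JE-WEQ: `W_K = W₁`. -/

set_option autoImplicit false

namespace Cfsg.Agent.Lib.Helper4.JE

open Cfsg.Agent.Lib.Helper58.JE Cfsg.Agent.Lib.Helper72.JL Cfsg.Agent.Lib.Helper72.SC
  Cfsg.Agent.Lib.Helper78.Jc

open scoped commutatorElement

universe u

theorem weq : WEqStmt.{u} := by
  intro G _ _ T L Q C V D A b y W₁ hD hY hK1 hK2 hW hU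
  obtain ⟨hKL, hyK, -, -, -, hKdec, -⟩ := hK1
  obtain ⟨-, hpc⟩ := hK2
  obtain ⟨hW1U, hW4, hWy, hWf, -⟩ := hW
  have hUle := Cfsg.Agent.Lib.Helper82.Jc.oc_le (KOf Q y ⊓ Q)
  have hUc := Cfsg.Agent.Lib.Helper82.Jc.oc_comm (KOf Q y ⊓ Q)
  have hUsq := Cfsg.Agent.Lib.Helper82.Jc.oc_sq (KOf Q y ⊓ Q)
  -- `y` normalizes `U`
  have hyN : y ∈ Subgroup.normalizer ((KOf Q y ⊓ Q : Subgroup G) : Set G) := by
    have h1 := Subgroup.mem_normalizer_iff.1 (Subgroup.le_normalizer hyK)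
    have h2 := Subgroup.mem_normalizer_iff.1 (hD.hQn (hKL hyK))
    rw [Subgroup.mem_normalizer_iff]
    intro h
    constructor
    · rintro ⟨ha, hb⟩; exact ⟨(h1 h).1 ha, (h2 h).1 hb⟩
    · rintro ⟨ha, hb⟩; exact ⟨(h1 h).2 ha, (h2 h).2 hb⟩
  have hyU : ∀ u ∈ Cfsg.omegaCenterOf (KOf Q y ⊓ Q),
      y * u * y⁻¹ ∈ Cfsg.omegaCenterOf (KOf Q y ⊓ Q) := by
    intro u hu
    exact (Subgroup.mem_normalizer_iff.1
      (Cfsg.Agent.Lib.Helper82.Jc.oc_normalizer (KOf Q y ⊓ Q) hyN) u).1 hu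
  -- powers of `y`
  have hpow : ∀ i : ℕ, ∀ u ∈ Cfsg.omegaCenterOf (KOf Q y ⊓ Q),
      y ^ i * u * (y ^ i)⁻¹ ∈ Cfsg.omegaCenterOf (KOf Q y ⊓ Q) ∧
        y ^ i * u * (y ^ i)⁻¹ * u⁻¹ ∈ W₁ := by
    intro i
    induction i with
    | zero =>
      intro u hu
      refine ⟨by simpa using hu, by simp [W₁.one_mem]⟩
    | succ i ih =>
      intro u hu
      obtain ⟨h1, h2⟩ := ih u hu
      have e1 : y ^ (i + 1) * u * (y ^ (i + 1))⁻¹ = y * (y ^ i * u * (y ^ i)⁻¹) * y⁻¹ := by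
        rw [pow_succ']; group
      refine ⟨by rw [e1]; exact hyU _ h1, ?_⟩
      have e2 : y ^ (i + 1) * u * (y ^ (i + 1))⁻¹ * u⁻¹ =
          (y * (y ^ i * u * (y ^ i)⁻¹) * y⁻¹ * (y ^ i * u * (y ^ i)⁻¹)⁻¹) *
            (y ^ i * u * (y ^ i)⁻¹ * u⁻¹) := by
        rw [pow_succ']; group
      rw [e2]
      exact W₁.mul_mem (hU _ h1) h2
  have hcommW : ∀ a ∈ W₁, ∀ c ∈ W₁, a * c = c * a := fun a ha c hc =>
    hUc a (hW1U ha) c (hUle (hW1U hc))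
  have hEq : Cfsg.wOf (KOf Q y) = W₁ := by
    unfold Cfsg.wOf
    rw [hpc]
    apply le_antisymm
    · rw [Subgroup.commutator_le]
      intro u hu k hk
      obtain ⟨p, hp, i, rfl⟩ := hKdec k hk
      obtain ⟨hv, hvW⟩ := hpow i u⁻¹ (Subgroup.inv_mem _ hu)
      rw [inv_inv] at hvW
      have hvp : y ^ i * u⁻¹ * (y ^ i)⁻¹ * p = p * (y ^ i * u⁻¹ * (y ^ i)⁻¹) := hUc _ hv p hp
      have huv : u * (y ^ i * u⁻¹ * (y ^ i)⁻¹) = y ^ i * u⁻¹ * (y ^ i)⁻¹ * u :=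
        hUc u hu _ (hUle hv)
      have e : ⁅u, p * y ^ i⁆ = y ^ i * u⁻¹ * (y ^ i)⁻¹ * u := by
        rw [commutatorElement_def]
        calc u * (p * y ^ i) * u⁻¹ * (p * y ^ i)⁻¹
            = u * (p * (y ^ i * u⁻¹ * (y ^ i)⁻¹) * p⁻¹) := by group
          _ = u * (y ^ i * u⁻¹ * (y ^ i)⁻¹ * p * p⁻¹) := by rw [hvp]
          _ = u * (y ^ i * u⁻¹ * (y ^ i)⁻¹) := by group
          _ = y ^ i * u⁻¹ * (y ^ i)⁻¹ * u := huv
      rw [e]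
      exact hvW
    · intro w hw
      have hinj : Function.Injective (fun w : ↥W₁ =>
          (⟨y * (w : G) * y⁻¹ * (w : G)⁻¹,
            W₁.mul_mem (hWy w w.2) (W₁.inv_mem w.2)⟩ : ↥W₁)) := by
        intro w1 w2 h12
        have h : y * (w1 : G) * y⁻¹ * (w1 : G)⁻¹ = y * (w2 : G) * y⁻¹ * (w2 : G)⁻¹ :=
          congrArg Subtype.val h12
        have ha : y * (w1 : G) * y⁻¹ = y * (w2 : G) * y⁻¹ * (w2 : G)⁻¹ * (w1 : G) := by
          rw [← h]; group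
        have hc1 := hcommW (y * (w2 : G) * y⁻¹) (hWy w2 w2.2) ((w2 : G)⁻¹ * (w1 : G))
          (W₁.mul_mem (W₁.inv_mem w2.2) w1.2)
        have hc2 := hcommW (w2 : G)⁻¹ (W₁.inv_mem w2.2) (w1 : G) w1.2
        have hfix : y * ((w1 : G) * (w2 : G)⁻¹) * y⁻¹ = (w1 : G) * (w2 : G)⁻¹ := by
          calc y * ((w1 : G) * (w2 : G)⁻¹) * y⁻¹
              = (y * (w1 : G) * y⁻¹) * (y * (w2 : G) * y⁻¹)⁻¹ := by group
            _ = (y * (w2 : G) * y⁻¹ * (w2 : G)⁻¹ * (w1 : G)) * (y * (w2 : G) * y⁻¹)⁻¹ := by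
                rw [ha]
            _ = (y * (w2 : G) * y⁻¹) * ((w2 : G)⁻¹ * (w1 : G)) * (y * (w2 : G) * y⁻¹)⁻¹ := by
                group
            _ = ((w2 : G)⁻¹ * (w1 : G)) * (y * (w2 : G) * y⁻¹) * (y * (w2 : G) * y⁻¹)⁻¹ := by
                rw [hc1]
            _ = (w2 : G)⁻¹ * (w1 : G) := by group
            _ = (w1 : G) * (w2 : G)⁻¹ := hc2
        have h1 := hWf _ (W₁.mul_mem w1.2 (W₁.inv_mem w2.2)) hfix
        exact Subtype.ext (mul_inv_eq_one.1 h1)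
      obtain ⟨w', hw'⟩ := (Finite.injective_iff_surjective.1 hinj) ⟨w, hw⟩
      have hw'' : y * (w' : G) * y⁻¹ * (w' : G)⁻¹ = w := congrArg Subtype.val hw'
      rw [← hw'', ← commutatorElement_def, ← Subgroup.commutator_comm]
      exact Subgroup.commutator_mem_commutator hyK (hW1U w'.2)
  rw [hEq]
  exact ⟨hW4, fun w hw => hUsq w (hW1U hw)⟩

end Cfsg.Agent.Lib.Helper4.JE
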