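import Mathlib
import Cfsg.Agent.Lib.Helper72.JMDefs

/-! S2943 project JM (helper72), piece JM-YX: translate `YyStmt` to the conjugation action of
`X` on `V = VT T`. -/

set_option autoImplicit false

namespace Cfsg.Agent.Lib.Helper4.JM

open Cfsg.Agent.Lib.Helper72.JM Cfsg.Agent.Lib.Helper72.JL Cfsg.Agent.Lib.Helper72.SC
  Cfsg.Agent.Lib.Helper78.Jc

open scoped commutatorElement

universe u

/-- value of the conjugation action -/
theorem yx_rho_val {X : Type u} [Group X] (T : Subgroup X) (x : X) (v : ↥(VT T)) :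
    ((rhoT T x v : ↥(VT T)) : X) = x * (v : X) * x⁻¹ := rfl

theorem yx (h1 : YyStmt.{u}) (h2 : VabStmt.{u}) : YxStmt.{u} := by
  intro X _ _ T hS N hN3 hNab W k z g hk hgk hWV hW4 hcomm hfpf hzW hz1 hgz
  obtain ⟨-, hVab, hVsq, -, -⟩ := h2 X T hS
  have hab : ∀ a b : ↥(VT T), a * b = b * a := fun a b => Subtype.ext (hVab a.1 a.2 b.1 b.2)
  have hsq : ∀ v : ↥(VT T), v * v = 1 := fun v => Subtype.ext (hVsq v.1 v.2)
  have hW'V : W.map (MulAut.conj g).toMonoidHom ≤ VT T := by
    rintro _ ⟨w, hw, rfl⟩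
    exact (VT_normal T).conj_mem w (hWV hw) g
  have hcard : Nat.card ↥(W.subgroupOf (VT T)) = 4 := by
    rw [Nat.card_congr (Subgroup.subgroupOfEquivOfLe hWV).toEquiv]; exact hW4
  have hcard' : Nat.card ↥((W.map (MulAut.conj g).toMonoidHom).subgroupOf (VT T)) = 4 := by
    rw [Nat.card_congr (Subgroup.subgroupOfEquivOfLe hW'V).toEquiv,
      Subgroup.card_map_of_injective (MulAut.conj g).injective]
    exact hW4
  have hzV : z ∈ VT T := hWV hzW
  obtain ⟨i, hi⟩ := h1 ↥(VT T) hab hsq N hN3 hNab (rhoT T k) (rhoT T (g * k * g⁻¹)) hk hgk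
    (W.subgroupOf (VT T)) ((W.map (MulAut.conj g).toMonoidHom).subgroupOf (VT T)) hcard hcard'
    (by
      intro v
      rw [Subgroup.mem_subgroupOf]
      have : ((rhoT T k v * v⁻¹ : ↥(VT T)) : X) = ⁅k, (v : X)⁆ := by
        rw [commutatorElement_def]; rfl
      rw [this]
      exact hcomm _ v.2)
    (by
      intro v
      rw [Subgroup.mem_subgroupOf]
      have hv' : g⁻¹ * (v : X) * g ∈ VT T := by
        have := (VT_normal T).conj_mem (v : X) v.2 g⁻¹
        simpa using this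
      refine ⟨⁅k, g⁻¹ * (v : X) * g⁆, hcomm _ hv', ?_⟩
      have : ((rhoT T (g * k * g⁻¹) v * v⁻¹ : ↥(VT T)) : X)
          = g * k * g⁻¹ * (v : X) * (g * k * g⁻¹)⁻¹ * (v : X)⁻¹ := rfl
      rw [this, commutatorElement_def]
      simp only [MulEquiv.coe_toMonoidHom, MulAut.conj_apply]
      group)
    (by
      intro w hw hfix
      rw [Subgroup.mem_subgroupOf] at hw
      have h := congrArg (Subtype.val) hfix
      rw [yx_rho_val] at h
      exact Subtype.ext (hfpf _ hw h))
    (by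
      intro w hw hfix
      rw [Subgroup.mem_subgroupOf] at hw
      obtain ⟨w0, hw0, hw0e⟩ := hw
      simp only [MulEquiv.coe_toMonoidHom, MulAut.conj_apply] at hw0e
      have h := congrArg (Subtype.val) hfix
      rw [yx_rho_val, ← hw0e] at h
      have h' : k * w0 * k⁻¹ = w0 := by
        have : k * w0 * k⁻¹ = g⁻¹ * (g * k * g⁻¹ * (g * w0 * g⁻¹) * (g * k * g⁻¹)⁻¹) * g := by
          group
        rw [this, h]; group
      have hw01 : w0 = 1 := hfpf _ hw0 h'
      apply Subtype.ext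
      rw [← hw0e, hw01]; simp)
    ⟨z, hzV⟩ (by rw [Subgroup.mem_subgroupOf]; exact hzW)
    (by
      rw [Subgroup.mem_subgroupOf]
      refine ⟨z, hzW, ?_⟩
      simp only [MulEquiv.coe_toMonoidHom, MulAut.conj_apply]
      rw [hgz]; group)
    (by
      intro h
      exact hz1 (congrArg Subtype.val h))
  exact ⟨i, by rw [hi, map_pow]⟩

end Cfsg.Agent.Lib.Helper4.JM
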