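import Mathlib
import Cfsg.Prelude.Def_Characters
import Cfsg.Prelude.Def_Blocks
import Cfsg.Agent.Lib.Helper83.Ortho
import Cfsg.Agent.Lib.Helper83.Quot
import Cfsg.Agent.Lib.Helper83.Twist
import Cfsg.Agent.Lib.Helper83.Central
import Cfsg.Agent.S0868

/-!
# Kiyota–Okuyama, part 1 (helper4): degree-weighted sums of irreducible characters

`wsum U x = Σ_{χ ∈ U} χ(1) χ(x)`; `Vanishes p U` says that it vanishes on the `p`-singular
elements.  Projections to the characters with a normal subgroup in the kernel and to the characters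
with a given central character, and the reduction step `fin_step`.
-/

set_option autoImplicit false

namespace Cfsg.Agent.Lib.Helper4.KO

open Cfsg
open scoped ComplexConjugate
open scoped Classical

variable {G : Type*} [Group G]

/-- the degree-weighted sum of the characters in `U` -/
noncomputable def wsum (U : Set (IrrCharacter G)) (x : G) : ℂ :=
  ∑ᶠ χ ∈ U, (χ : G → ℂ) 1 * (χ : G → ℂ) x

/-- the weighted sum vanishes on the `p`-singular elements -/
def Vanishes (p : ℕ) (U : Set (IrrCharacter G)) : Prop :=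
  ∀ x : G, p ∣ orderOf x → wsum U x = 0

/-- characters with `R` in the kernel -/
def kerSet (R : Subgroup G) : Set (IrrCharacter G) :=
  {χ | ∀ r ∈ R, (χ : G → ℂ) r = (χ : G → ℂ) 1}

/-- characters with the same central character on `Z` as `χ₀` -/
def centSet (Z : Subgroup G) (χ₀ : IrrCharacter G) : Set (IrrCharacter G) :=
  {χ | ∀ z ∈ Z, (χ : G → ℂ) z * (χ₀ : G → ℂ) 1 = (χ₀ : G → ℂ) z * (χ : G → ℂ) 1}

theorem wsum_eq_sum [Fintype (IrrCharacter G)] (U : Set (IrrCharacter G)) (x : G) :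
    wsum U x = ∑ χ : IrrCharacter G, if χ ∈ U then (χ : G → ℂ) 1 * (χ : G → ℂ) x else 0 := by
  unfold wsum
  rw [finsum_mem_def, finsum_eq_sum_of_fintype]
  apply Finset.sum_congr rfl
  intro χ _
  by_cases h : χ ∈ U <;> simp [Set.indicator, h]

theorem wsum_empty (x : G) : wsum (∅ : Set (IrrCharacter G)) x = 0 := by
  unfold wsum
  exact finsum_mem_empty

theorem wsum_conj (U : Set (IrrCharacter G)) (x g : G) : wsum U (g * x * g⁻¹) = wsum U x := by
  unfold wsum
  exact finsum_mem_congr rfl (fun χ _ => by rw [Helper83.irr_classFunction χ.2])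

/-- a linear operator acting on the irreducible characters as the projection to `S` acts on the
weighted sums as the intersection with `S` -/
theorem wsum_inter_proj [Finite G] {ι : Type*} [Fintype ι] (U S : Set (IrrCharacter G)) (x : G)
    (c : ι → ℂ) (y : ι → G)
    (h : ∀ χ : IrrCharacter G, ∑ i, c i * (χ : G → ℂ) (y i) =
      if χ ∈ S then (χ : G → ℂ) x else 0) :
    wsum (U ∩ S) x = ∑ i, c i * wsum U (y i) := by
  classical
  let _ : Fintype (IrrCharacter G) := Fintype.ofFinite _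
  simp only [wsum_eq_sum]
  have h1 : (∑ i, c i * ∑ χ : IrrCharacter G,
        if χ ∈ U then (χ : G → ℂ) 1 * (χ : G → ℂ) (y i) else 0) =
      ∑ χ : IrrCharacter G, ∑ i, c i *
        (if χ ∈ U then (χ : G → ℂ) 1 * (χ : G → ℂ) (y i) else 0) := by
    rw [Finset.sum_comm]
    apply Finset.sum_congr rfl
    intro i _
    rw [Finset.mul_sum]
  rw [h1]
  apply Finset.sum_congr rfl
  intro χ _
  by_cases hU : χ ∈ U
  · have h2 : (∑ i, c i * (if χ ∈ U then (χ : G → ℂ) 1 * (χ : G → ℂ) (y i) else 0)) =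
        (χ : G → ℂ) 1 * ∑ i, c i * (χ : G → ℂ) (y i) := by
      rw [Finset.mul_sum]
      apply Finset.sum_congr rfl
      intro i _
      rw [if_pos hU]
      ring
    rw [h2, h χ]
    by_cases hS : χ ∈ S
    · rw [if_pos hS, if_pos ⟨hU, hS⟩]
    · rw [if_neg hS, if_neg (fun h => hS h.2), mul_zero]
  · rw [if_neg (fun h => hU h.1)]
    apply (Finset.sum_eq_zero _).symm
    intro i _
    rw [if_neg hU, mul_zero]

theorem wsum_add_compl [Finite G] (U : Set (IrrCharacter G)) (x : G) (hx : x ≠ 1) :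
    wsum U x + wsum Uᶜ x = 0 := by
  classical
  let _ : Fintype G := Fintype.ofFinite G
  let _ : Fintype (IrrCharacter G) := Fintype.ofFinite _
  rw [wsum_eq_sum, wsum_eq_sum, ← Finset.sum_add_distrib]
  have h := Helper83.column_orthogonality (G := G) x 1
  rw [if_neg (by rw [isConj_one_right]; exact hx)] at h
  refine Eq.trans (Finset.sum_congr rfl ?_) h
  intro χ _
  have h1 := (Helper83.irr_degree χ.2).2
  by_cases hU : χ ∈ U
  · rw [if_pos hU, if_neg (fun h : χ ∈ Uᶜ => h hU), add_zero, h1, Complex.conj_natCast, mul_comm]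
  · rw [if_neg hU, if_pos (show χ ∈ Uᶜ from hU), zero_add, h1, Complex.conj_natCast, mul_comm]

theorem vanishes_compl [Finite G] {p : ℕ} [hp : Fact p.Prime] {U : Set (IrrCharacter G)}
    (h : Vanishes p U) : Vanishes p Uᶜ := by
  intro x hx
  have hx1 : x ≠ 1 := by
    rintro rfl
    rw [orderOf_one] at hx
    exact hp.out.one_lt.ne' (Nat.dvd_one.mp hx)
  have := wsum_add_compl U x hx1
  rw [h x hx, zero_add] at this
  exact this

theorem wsum_one_ne_zero [Finite G] {U : Set (IrrCharacter G)} {χ : IrrCharacter G}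
    (hχ : χ ∈ U) : wsum U (1 : G) ≠ 0 := by
  classical
  let _ : Fintype (IrrCharacter G) := Fintype.ofFinite _
  rw [wsum_eq_sum]
  have h1 : ∀ ξ : IrrCharacter G, (if ξ ∈ U then (ξ : G → ℂ) 1 * (ξ : G → ℂ) 1 else 0) =
      ((if ξ ∈ U then charDegree (ξ : G → ℂ) * charDegree (ξ : G → ℂ) else 0 : ℕ) : ℂ) := by
    intro ξ
    have := (Helper83.irr_degree ξ.2).2
    by_cases hξ : ξ ∈ U
    · rw [if_pos hξ, if_pos hξ, this, Nat.cast_mul]
    · rw [if_neg hξ, if_neg hξ, Nat.cast_zero]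
  simp only [h1]
  rw [← Nat.cast_sum]
  intro h0
  have h2 : (∑ ξ : IrrCharacter G,
      if ξ ∈ U then charDegree (ξ : G → ℂ) * charDegree (ξ : G → ℂ) else 0) = 0 := by
    exact_mod_cast h0
  rw [Finset.sum_eq_zero_iff] at h2
  have h3 := h2 χ (Finset.mem_univ _)
  rw [if_pos hχ] at h3
  have h4 := (Helper83.irr_degree χ.2).1
  have h5 : charDegree (χ : G → ℂ) = 0 := by
    rcases Nat.mul_eq_zero.mp h3 with h | h <;> exact h
  omega

/-- averaging over a normal subgroup projects to the characters having it in the kernel -/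
theorem proj_ker [Finite G] (R : Subgroup G) [R.Normal] [Fintype R] (x : G)
    (χ : IrrCharacter G) :
    ∑ r : R, (Fintype.card R : ℂ)⁻¹ * (χ : G → ℂ) (x * r) =
      if χ ∈ kerSet R then (χ : G → ℂ) x else 0 := by
  have hc : (Fintype.card R : ℂ) ≠ 0 := by
    have : 0 < Fintype.card R := Fintype.card_pos
    exact_mod_cast this.ne'
  by_cases h : χ ∈ kerSet R
  · rw [if_pos h]
    have h1 : ∀ r : R, (χ : G → ℂ) (x * r) = (χ : G → ℂ) x :=
      fun r => Cfsg.Agent.S0868.irr_mul_ker R χ.2 (fun n => h n n.2) x r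
    simp only [h1]
    rw [Finset.sum_const, Finset.card_univ, nsmul_eq_mul, ← mul_assoc, mul_inv_cancel₀ hc,
      one_mul]
  · rw [if_neg h]
    simp only [kerSet, Set.mem_ofPred_eq, not_forall] at h
    obtain ⟨r, hr, hne⟩ := h
    rw [← Finset.mul_sum, Helper83.irr_sum_normal_eq_zero R χ.2 r hr hne x, mul_zero]

theorem wsum_kerSet [Finite G] (R : Subgroup G) [R.Normal] [Fintype R]
    (U : Set (IrrCharacter G)) (x : G) :
    wsum (U ∩ kerSet R) x = ∑ r : R, (Fintype.card R : ℂ)⁻¹ * wsum U (x * r) :=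
  wsum_inter_proj U (kerSet R) x _ _ (proj_ker R x)

/-- a nonempty set with vanishing weighted sum contains a character with the normal `p`-subgroup
`R` in its kernel -/
theorem exists_mem_kerSet [Finite G] {p : ℕ} [hp : Fact p.Prime] (R : Subgroup G) [R.Normal]
    (hR : IsPGroup p R) {U : Set (IrrCharacter G)} (hU : Vanishes p U) {χ : IrrCharacter G}
    (hχ : χ ∈ U) : ∃ χ' ∈ U, χ' ∈ kerSet R := by
  classical
  let _ : Fintype R := Fintype.ofFinite R
  by_contra hcon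
  push Not at hcon
  have hempty : U ∩ kerSet R = ∅ := by
    ext ξ
    simp only [Set.mem_inter_iff, Set.mem_empty_iff_false, iff_false, not_and]
    exact fun h => hcon ξ h
  have h1 := wsum_kerSet R U 1
  rw [hempty, wsum_empty] at h1
  have h2 : ∑ r : R, (Fintype.card R : ℂ)⁻¹ * wsum U (1 * (r : G)) =
      (Fintype.card R : ℂ)⁻¹ * wsum U 1 := by
    rw [Finset.sum_eq_single (1 : R)]
    · simp
    · intro r _ hr
      have hdvd : p ∣ orderOf ((1 : G) * (r : G)) := by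
        rw [one_mul, Subgroup.orderOf_coe]
        obtain ⟨k, hk⟩ := (IsPGroup.iff_orderOf.mp hR) r
        rw [hk]
        have hk0 : k ≠ 0 := by
          rintro rfl
          rw [pow_zero, orderOf_eq_one_iff] at hk
          exact hr hk
        exact dvd_pow_self p hk0
      rw [hU _ hdvd, mul_zero]
    · intro h
      exact absurd (Finset.mem_univ _) h
  rw [h2] at h1
  have hc : (Fintype.card R : ℂ)⁻¹ ≠ 0 := by
    apply inv_ne_zero
    have : 0 < Fintype.card R := Fintype.card_pos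
    exact_mod_cast this.ne'
  exact wsum_one_ne_zero hχ ((mul_eq_zero.mp h1.symm).resolve_left hc)

/-- multiplying by an element of a normal `p'`-subgroup preserves `p`-singularity -/
theorem dvd_orderOf_mul [Finite G] {p : ℕ} [hp : Fact p.Prime] (N : Subgroup G) [hN : N.Normal]
    (hNp : (Nat.card N).Coprime p) (x n : G) (hn : n ∈ N) (hx : p ∣ orderOf x) :
    p ∣ orderOf (x * n) := by
  by_contra hcon
  set m := orderOf (x * n) with hm
  have h1 : (x * n) ^ m = 1 := pow_orderOf_eq_one _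
  have h2 : ((x * n : G) : G ⧸ N) = (x : G ⧸ N) := by
    rw [QuotientGroup.mk_mul, (QuotientGroup.eq_one_iff n).mpr hn, mul_one]
  have h3 : ((x ^ m : G) : G ⧸ N) = 1 := by
    rw [QuotientGroup.mk_pow, ← h2, ← QuotientGroup.mk_pow, h1]
    rfl
  have h4 : x ^ m ∈ N := (QuotientGroup.eq_one_iff _).mp h3
  have h5 : (x ^ m) ^ Nat.card N = 1 := by
    have := pow_card_eq_one' (G := N) (x := ⟨x ^ m, h4⟩)
    exact congrArg Subtype.val this
  have h6 : orderOf x ∣ m * Nat.card N := orderOf_dvd_of_pow_eq_one (by rw [pow_mul]; exact h5)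
  rcases (Nat.Prime.dvd_mul hp.out).mp (hx.trans h6) with h | h
  · exact hcon h
  · exact hp.out.one_lt.ne' (Nat.Coprime.eq_one_of_dvd hNp.symm h)

theorem dvd_orderOf_mul' [Finite G] {p : ℕ} [hp : Fact p.Prime] (N : Subgroup G) [hN : N.Normal]
    (hNp : (Nat.card N).Coprime p) (x n : G) (hn : n ∈ N) (hx : p ∣ orderOf x) :
    p ∣ orderOf (n * x) := by
  have h : n * x = x * (x⁻¹ * n * x⁻¹⁻¹) := by group
  rw [h]
  exact dvd_orderOf_mul N hNp x _ (hN.conj_mem n hn x⁻¹) hx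

theorem cent_unit [Finite G] (χ : IrrCharacter G) (z : G) (hz : z ∈ Subgroup.center G) :
    conj ((χ : G → ℂ) z / (χ : G → ℂ) 1) * ((χ : G → ℂ) z / (χ : G → ℂ) 1) = 1 := by
  have h1 := Helper83.irr_central_norm χ z hz
  obtain ⟨hpos, h2⟩ := Helper83.irr_degree χ.2
  rw [Complex.conj_mul', norm_div, h1, h2, Complex.norm_natCast]
  have h3 : (charDegree (χ : G → ℂ) : ℝ) ≠ 0 := by exact_mod_cast hpos.ne'
  rw [div_self h3]
  simp

/-- projection to the characters with a given central character -/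
theorem proj_cent [Finite G] (Z : Subgroup G) (hZ : Z ≤ Subgroup.center G) [Fintype Z]
    (χ₀ : IrrCharacter G) (x : G) (χ : IrrCharacter G) :
    ∑ z : Z, ((Fintype.card Z : ℂ)⁻¹ * conj ((χ₀ : G → ℂ) z / (χ₀ : G → ℂ) 1)) *
        (χ : G → ℂ) ((z : G) * x) =
      if χ ∈ centSet Z χ₀ then (χ : G → ℂ) x else 0 := by
  have hc : (Fintype.card Z : ℂ) ≠ 0 := by
    have : 0 < Fintype.card Z := Fintype.card_pos
    exact_mod_cast this.ne'
  have hχ1 : (χ : G → ℂ) 1 ≠ 0 := Helper83.irr_one_ne_zero χ.2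
  have hχ₀1 : (χ₀ : G → ℂ) 1 ≠ 0 := Helper83.irr_one_ne_zero χ₀.2
  have hmul : ∀ (z : Z) (g : G), (χ : G → ℂ) ((z : G) * g) =
      (χ : G → ℂ) z / (χ : G → ℂ) 1 * (χ : G → ℂ) g := by
    intro z g
    have := Helper83.irr_central_mul χ z (hZ z.2) g
    field_simp
    rw [this]
  have hmul₀ : ∀ (z : Z) (g : G), (χ₀ : G → ℂ) ((z : G) * g) =
      (χ₀ : G → ℂ) z / (χ₀ : G → ℂ) 1 * (χ₀ : G → ℂ) g := by
    intro z g
    have := Helper83.irr_central_mul χ₀ z (hZ z.2) g
    field_simp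
    rw [this]
  have hL : ∑ z : Z, ((Fintype.card Z : ℂ)⁻¹ * conj ((χ₀ : G → ℂ) z / (χ₀ : G → ℂ) 1)) *
        (χ : G → ℂ) ((z : G) * x) =
      (Fintype.card Z : ℂ)⁻¹ * (∑ z : Z, conj ((χ₀ : G → ℂ) z / (χ₀ : G → ℂ) 1) *
        ((χ : G → ℂ) z / (χ : G → ℂ) 1)) * (χ : G → ℂ) x := by
    rw [Finset.mul_sum, Finset.sum_mul]
    apply Finset.sum_congr rfl
    intro z _
    rw [hmul z x]
    ring
  rw [hL]
  by_cases h : χ ∈ centSet Z χ₀
  · rw [if_pos h]
    have h1 : ∀ z : Z, conj ((χ₀ : G → ℂ) z / (χ₀ : G → ℂ) 1) *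
        ((χ : G → ℂ) z / (χ : G → ℂ) 1) = 1 := by
      intro z
      have h2 : (χ : G → ℂ) z / (χ : G → ℂ) 1 = (χ₀ : G → ℂ) z / (χ₀ : G → ℂ) 1 := by
        rw [div_eq_div_iff hχ1 hχ₀1]
        exact h z z.2
      rw [h2]
      exact cent_unit χ₀ z (hZ z.2)
    simp only [h1]
    rw [Finset.sum_const, Finset.card_univ, nsmul_eq_mul, mul_one, inv_mul_cancel₀ hc, one_mul]
  · rw [if_neg h]
    simp only [centSet, Set.mem_ofPred_eq, not_forall] at h
    obtain ⟨z₀, hz₀, hne⟩ := h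
    set lam : Z → ℂ := fun z => conj ((χ₀ : G → ℂ) z / (χ₀ : G → ℂ) 1) *
        ((χ : G → ℂ) z / (χ : G → ℂ) 1) with hlam
    have hlm : ∀ z : Z, lam ((⟨z₀, hz₀⟩ : Z) * z) = lam ⟨z₀, hz₀⟩ * lam z := by
      intro z
      simp only [hlam]
      rw [Subgroup.coe_mul, hmul ⟨z₀, hz₀⟩ z, hmul₀ ⟨z₀, hz₀⟩ z, mul_div_assoc, mul_div_assoc,
        map_mul]
      ring
    have hsum : ∑ z : Z, lam z = lam ⟨z₀, hz₀⟩ * ∑ z : Z, lam z := by
      rw [Finset.mul_sum, ← Equiv.sum_comp (Equiv.mulLeft (⟨z₀, hz₀⟩ : Z))]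
      apply Finset.sum_congr rfl
      intro z _
      exact hlm z
    have hl1 : lam ⟨z₀, hz₀⟩ ≠ 1 := by
      intro h1
      apply hne
      have h2 := cent_unit χ₀ z₀ (hZ hz₀)
      have h3 : (χ : G → ℂ) z₀ / (χ : G → ℂ) 1 = (χ₀ : G → ℂ) z₀ / (χ₀ : G → ℂ) 1 := by
        have h4 : conj ((χ₀ : G → ℂ) z₀ / (χ₀ : G → ℂ) 1) ≠ 0 := by
          intro h0
          rw [h0, zero_mul] at h2
          exact zero_ne_one h2
        apply mul_left_cancel₀ h4
        rw [h2]
        exact h1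
      rw [div_eq_div_iff hχ1 hχ₀1] at h3
      exact h3
    have h0 : ∑ z : Z, lam z = 0 := by
      have : (1 - lam ⟨z₀, hz₀⟩) * ∑ z : Z, lam z = 0 := by
        rw [sub_mul, one_mul, ← hsum, sub_self]
      exact (mul_eq_zero.mp this).resolve_left (sub_ne_zero.mpr (Ne.symm hl1))
    rw [h0, mul_zero, zero_mul]

theorem wsum_centSet [Finite G] (Z : Subgroup G) (hZ : Z ≤ Subgroup.center G) [Fintype Z]
    (χ₀ : IrrCharacter G) (U : Set (IrrCharacter G)) (x : G) :
    wsum (U ∩ centSet Z χ₀) x =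
      ∑ z : Z, ((Fintype.card Z : ℂ)⁻¹ * conj ((χ₀ : G → ℂ) z / (χ₀ : G → ℂ) 1)) *
        wsum U ((z : G) * x) :=
  wsum_inter_proj U (centSet Z χ₀) x _ _ (proj_cent Z hZ χ₀ x)

theorem normal_of_le_center (Z : Subgroup G) (hZ : Z ≤ Subgroup.center G) : Z.Normal := by
  refine ⟨fun z hz g => ?_⟩
  have h : g * z * g⁻¹ = z := by
    have := Subgroup.mem_center_iff.mp (hZ hz) g
    rw [this, mul_assoc, mul_inv_cancel, mul_one]
  rw [h]
  exact hz

theorem vanishes_centSet [Finite G] {p : ℕ} [hp : Fact p.Prime] (Z : Subgroup G)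
    (hZ : Z ≤ Subgroup.center G) (hZp : (Nat.card Z).Coprime p) (χ₀ : IrrCharacter G)
    {U : Set (IrrCharacter G)} (hU : Vanishes p U) : Vanishes p (U ∩ centSet Z χ₀) := by
  classical
  let _ : Fintype Z := Fintype.ofFinite Z
  have hZn : Z.Normal := normal_of_le_center Z hZ
  intro x hx
  rw [wsum_centSet Z hZ χ₀ U x]
  apply Finset.sum_eq_zero
  intro z _
  rw [hU _ (dvd_orderOf_mul' Z hZp x z z.2 hx), mul_zero]

theorem centSet_self (Z : Subgroup G) (χ : IrrCharacter G) : χ ∈ centSet Z χ :=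
  fun _ _ => rfl

theorem centSet_trans' (Z : Subgroup G) {χ χ' ψ' : IrrCharacter G} (h1 : χ' ∈ centSet Z χ)
    (h2 : ψ' ∈ centSet Z χ) : ψ' ∈ centSet Z χ' := by
  intro z hz
  have a := h1 z hz
  have b := h2 z hz
  have hχ1 : (χ : G → ℂ) 1 ≠ 0 := Helper83.irr_one_ne_zero χ.2
  apply mul_right_cancel₀ hχ1
  calc (ψ' : G → ℂ) z * (χ' : G → ℂ) 1 * (χ : G → ℂ) 1
      = (ψ' : G → ℂ) z * (χ : G → ℂ) 1 * (χ' : G → ℂ) 1 := by ring
    _ = (χ : G → ℂ) z * (ψ' : G → ℂ) 1 * (χ' : G → ℂ) 1 := by rw [b]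
    _ = (χ' : G → ℂ) z * (χ : G → ℂ) 1 * (ψ' : G → ℂ) 1 := by rw [a]; ring
    _ = (χ' : G → ℂ) z * (ψ' : G → ℂ) 1 * (χ : G → ℂ) 1 := by ring

/-- the reduction step: closure under central characters for the characters having the normal
`p`-subgroup `R` in the kernel implies it for all characters -/
theorem fin_step [Finite G] {p : ℕ} [hp : Fact p.Prime] (R : Subgroup G) [R.Normal]
    (hR : IsPGroup p R) (Z : Subgroup G) (hZ : Z ≤ Subgroup.center G)
    (hZp : (Nat.card Z).Coprime p)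
    (hyp : ∀ V : Set (IrrCharacter G), Vanishes p V → ∀ χ ∈ V, χ ∈ kerSet R →
      ∀ ψ : IrrCharacter G, ψ ∈ kerSet R → ψ ∈ centSet Z χ → ψ ∈ V)
    (U : Set (IrrCharacter G)) (hU : Vanishes p U) (χ : IrrCharacter G) (hχ : χ ∈ U)
    (ψ : IrrCharacter G) (hψ : ψ ∈ centSet Z χ) : ψ ∈ U := by
  by_contra hψU
  have h1 : Vanishes p (U ∩ centSet Z χ) := vanishes_centSet Z hZ hZp χ hU
  have h2 : Vanishes p (Uᶜ ∩ centSet Z χ) := vanishes_centSet Z hZ hZp χ (vanishes_compl hU)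
  obtain ⟨χ', hχ'U, hχ'R⟩ := exists_mem_kerSet R hR h1
    (show χ ∈ U ∩ centSet Z χ from ⟨hχ, centSet_self Z χ⟩)
  obtain ⟨ψ', hψ'U, hψ'R⟩ := exists_mem_kerSet R hR h2
    (show ψ ∈ Uᶜ ∩ centSet Z χ from ⟨hψU, hψ⟩)
  exact hψ'U.1 (hyp U hU χ' hχ'U.1 hχ'R ψ' hψ'R (centSet_trans' Z hχ'U.2 hψ'U.2))

end Cfsg.Agent.Lib.Helper4.KO
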