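import Mathlib
import Cfsg.Agent.Lib.Helper4.KO1
import Cfsg.Agent.Lib.Helper4.CharPerm
import Cfsg.Agent.Lib.Helper4.CharDecomp
import Cfsg.Agent.Lib.Helper35.Ind

/-!
# Kiyota–Okuyama, part 2 (helper4): an abelian normal `p`-subgroup with small centralizer

`tab`: if `A` is an abelian normal `p`-subgroup of `G`, `Z` a central `p'`-subgroup and
`C_G(A) ≤ A Z`, then a set `U` of irreducible characters whose degree-weighted sum vanishes on
the `p`-singular elements is closed under "same central character on `Z`".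
-/

set_option autoImplicit false
set_option linter.style.haveILetI false

namespace Cfsg.Agent.Lib.Helper4.KO

open Cfsg
open scoped ComplexConjugate
open scoped Classical

variable {G : Type*} [Group G]

/-- conjugacy inside a coset of an abelian normal subgroup: if `x` and `x a` both have order
prime to `|A|`, they are conjugate under `A` -/
theorem conj_of_coset (A : Subgroup G) [hA : A.Normal] [Finite A]
    (hab : ∀ a ∈ A, ∀ b ∈ A, a * b = b * a) (x a : G) (ha : a ∈ A) (k : ℕ)
    (hk : (Nat.card A).Coprime k) (hx : x ^ k = 1) (hy : (x * a) ^ k = 1) :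
    ∃ w ∈ A, x * a = w * x * w⁻¹ := by
  letI : CommGroup A := { (inferInstance : Group A) with
    mul_comm := fun a b => Subtype.ext (hab a a.2 b b.2) }
  set y := x * a with hy_def
  have hc1 : y * x⁻¹ ∈ A := hA.conj_mem a ha x
  have hcmem : ∀ i : ℕ, y ^ i * x⁻¹ ^ i ∈ A := by
    intro i
    induction i with
    | zero => simp
    | succ i ih =>
      have : y ^ (i + 1) * x⁻¹ ^ (i + 1) = (y * (y ^ i * x⁻¹ ^ i) * y⁻¹) * (y * x⁻¹) := by
        rw [pow_succ', pow_succ]; group
      rw [this]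
      exact A.mul_mem (hA.conj_mem _ ih y) hc1
  let c : ℕ → A := fun i => ⟨y ^ i * x⁻¹ ^ i, hcmem i⟩
  let φ : A →* A :=
    { toFun := fun b => ⟨y * b * y⁻¹, hA.conj_mem b b.2 y⟩
      map_one' := Subtype.ext (by simp)
      map_mul' := fun b b' => Subtype.ext (by simp [mul_assoc]) }
  have hφ : ∀ i, φ (c i) = c (i + 1) * (c 1)⁻¹ := by
    intro i
    apply Subtype.ext
    show y * (y ^ i * x⁻¹ ^ i) * y⁻¹ = (y ^ (i + 1) * x⁻¹ ^ (i + 1)) * (y ^ 1 * x⁻¹ ^ 1)⁻¹
    rw [pow_succ', pow_succ]; group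
  set u : A := ∏ i ∈ Finset.range k, c i with hu
  have hc0 : c 0 = 1 := Subtype.ext (by simp [c])
  have hck : c k = 1 := Subtype.ext (by
    show y ^ k * x⁻¹ ^ k = 1
    rw [hy, inv_pow, hx]; simp)
  have hshift : ∏ i ∈ Finset.range k, c (i + 1) = u := by
    have h1 := Finset.prod_range_succ' c k
    have h2 := Finset.prod_range_succ c k
    rw [h1, hc0, hck, mul_one, mul_one] at h2
    exact h2
  have hφu : φ u = u * ((c 1)⁻¹) ^ k := by
    rw [hu, map_prod]
    simp only [hφ]
    rw [Finset.prod_mul_distrib, hshift, Finset.prod_const, Finset.card_range]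
  obtain ⟨v, hv⟩ := (powCoprime hk).surjective u⁻¹
  have hv' : v ^ k = u⁻¹ := hv
  have hψ : (v * (φ v)⁻¹) ^ k = ((c 1)⁻¹) ^ k := by
    rw [mul_pow, inv_pow, ← map_pow, hv', map_inv, hφu]
    simp
  have hψ' : v * (φ v)⁻¹ = (c 1)⁻¹ := (powCoprime hk).injective hψ
  refine ⟨((v⁻¹ : A) : G), (v⁻¹).2, ?_⟩
  have h3 : (v : G) * (y * v * y⁻¹)⁻¹ = (y ^ 1 * x⁻¹ ^ 1)⁻¹ := congrArg Subtype.val hψ'
  have h4 : (v : G) * y * (v : G)⁻¹ = x := by
    have : (v : G) * y * (v : G)⁻¹ = ((v : G) * (y * v * y⁻¹)⁻¹) * y := by group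
    rw [this, h3]; group
  rw [← h4]
  simp only [InvMemClass.coe_inv]
  group

/-- the number of fixed points of conjugation by `g` on `A` -/
noncomputable def fixA (A : Subgroup G) (g : G) : ℕ :=
  Nat.card {a : A // g * (a : G) * g⁻¹ = a}

/-- the permutation character of the conjugation action on `A` -/
noncomputable def permA (A : Subgroup G) : G → ℂ := fun g => (fixA A g : ℂ)

theorem isCharacter_permA (A : Subgroup G) [hA : A.Normal] [Finite A] :
    IsCharacter G (permA A) := by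
  let _ : Fintype A := Fintype.ofFinite A
  letI act : MulAction G A :=
    { smul := fun g a => ⟨g * a * g⁻¹, hA.conj_mem a a.2 g⟩
      one_smul := fun a => Subtype.ext (by
        show (1 : G) * (a : G) * (1 : G)⁻¹ = a
        simp)
      mul_smul := fun g h a => Subtype.ext (by
        show g * h * a * (g * h)⁻¹ = g * (h * a * h⁻¹) * g⁻¹
        group) }
  have h := Helper4.isCharacter_of_rep (Representation.ofMulAction ℂ G A)
  convert h using 1
  funext g
  rw [Helper4.char_ofMulAction]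
  unfold permA fixA
  congr 1
  rw [Nat.card_eq_fintype_card, Fintype.card_subtype]
  congr 1
  ext a
  simp only [Finset.mem_filter, Finset.mem_univ, true_and]
  constructor
  · intro h1
    exact Subtype.ext h1
  · intro h1
    exact congrArg Subtype.val h1

theorem fixA_one (A : Subgroup G) : fixA A 1 = Nat.card A := by
  unfold fixA
  exact Nat.card_congr (Equiv.subtypeUnivEquiv (fun a => by simp))

theorem fixA_mul_right (A : Subgroup G) (hab : ∀ a ∈ A, ∀ b ∈ A, a * b = b * a) (g : G)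
    (a : G) (ha : a ∈ A) : fixA A (g * a) = fixA A g := by
  unfold fixA
  apply Nat.card_congr
  apply Equiv.subtypeEquivRight
  intro b
  have h1 : g * a * (b : G) * (g * a)⁻¹ = g * (a * b * a⁻¹) * g⁻¹ := by group
  have h2 : a * (b : G) * a⁻¹ = b := by
    rw [hab a ha b b.2, mul_assoc, mul_inv_cancel, mul_one]
  rw [h1, h2]

/-- the commutator map `u ↦ g⁻¹ u g u⁻¹` of an abelian normal subgroup -/
noncomputable def commHom (A : Subgroup G) [hA : A.Normal]
    (hab : ∀ a ∈ A, ∀ b ∈ A, a * b = b * a) (g : G) : A →* A where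
  toFun u := ⟨g⁻¹ * u * g * (u : G)⁻¹, A.mul_mem (by
    have := hA.conj_mem u u.2 g⁻¹
    simpa using this) (A.inv_mem u.2)⟩
  map_one' := Subtype.ext (by simp)
  map_mul' u v := Subtype.ext (by
    show g⁻¹ * ((u : G) * v) * g * ((u : G) * v)⁻¹ =
      (g⁻¹ * u * g * (u : G)⁻¹) * (g⁻¹ * v * g * (v : G)⁻¹)
    have hv : g⁻¹ * (v : G) * g * (v : G)⁻¹ ∈ A := A.mul_mem (by
      have := hA.conj_mem v v.2 g⁻¹
      simpa using this) (A.inv_mem v.2)
    have h1 := hab _ (A.inv_mem u.2) _ hv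
    calc g⁻¹ * ((u : G) * v) * g * ((u : G) * v)⁻¹
        = g⁻¹ * u * g * ((g⁻¹ * (v : G) * g * (v : G)⁻¹) * (u : G)⁻¹) := by group
      _ = g⁻¹ * u * g * ((u : G)⁻¹ * (g⁻¹ * (v : G) * g * (v : G)⁻¹)) := by rw [h1]
      _ = (g⁻¹ * u * g * (u : G)⁻¹) * (g⁻¹ * v * g * (v : G)⁻¹) := by group)

theorem commHom_apply (A : Subgroup G) [hA : A.Normal]
    (hab : ∀ a ∈ A, ∀ b ∈ A, a * b = b * a) (g : G) (u : A) :
    ((commHom A hab g u : A) : G) = g⁻¹ * u * g * (u : G)⁻¹ := rfl

theorem card_ker_commHom (A : Subgroup G) [hA : A.Normal]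
    (hab : ∀ a ∈ A, ∀ b ∈ A, a * b = b * a) (g : G) :
    Nat.card (commHom A hab g).ker = fixA A g := by
  unfold fixA
  apply Nat.card_congr
  apply Equiv.subtypeEquivRight
  intro u
  rw [MonoidHom.mem_ker]
  constructor
  · intro h
    have h1 : g⁻¹ * (u : G) * g * (u : G)⁻¹ = 1 := congrArg Subtype.val h
    have h2 : g⁻¹ * (u : G) * g = u := by
      have := mul_eq_one_iff_eq_inv.mp h1
      rwa [inv_inv] at this
    calc g * (u : G) * g⁻¹ = g * (g⁻¹ * (u : G) * g) * g⁻¹ := by rw [h2]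
      _ = u := by group
  · intro h
    apply Subtype.ext
    show g⁻¹ * (u : G) * g * (u : G)⁻¹ = 1
    have h2 : g⁻¹ * (u : G) * g = u := by
      calc g⁻¹ * (u : G) * g = g⁻¹ * (g * (u : G) * g⁻¹) * g := by rw [h]
        _ = u := by group
    rw [h2, mul_inv_cancel]

theorem fixA_mul_card_range [Finite G] (A : Subgroup G) [hA : A.Normal]
    (hab : ∀ a ∈ A, ∀ b ∈ A, a * b = b * a) (g : G) :
    fixA A g * Nat.card (commHom A hab g).range = Nat.card A := by
  rw [← card_ker_commHom A hab g, ← Subgroup.index_ker]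
  exact Subgroup.card_mul_index _

/-- on `p`-regular elements the weighted sum is `|C_A(g)|` times its `A`-average -/
theorem l3 [Finite G] {p : ℕ} [hp : Fact p.Prime] (A : Subgroup G) [hA : A.Normal]
    (hAp : IsPGroup p A) (hab : ∀ a ∈ A, ∀ b ∈ A, a * b = b * a)
    {V : Set (IrrCharacter G)} (hV : Vanishes p V) (g : G) (hg : ¬ p ∣ orderOf g) :
    permA A g * wsum (V ∩ kerSet A) g = wsum V g := by
  let _ : Fintype A := Fintype.ofFinite A
  rw [wsum_kerSet A V g]
  have hterm : ∀ a : A, wsum V (g * (a : G)) =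
      if a ∈ (commHom A hab g).range then wsum V g else 0 := by
    intro a
    by_cases ha : a ∈ (commHom A hab g).range
    · rw [if_pos ha]
      obtain ⟨u, hu⟩ := ha
      have h1 : g * (a : G) = u * g * (u : G)⁻¹ := by
        rw [← hu, commHom_apply]; group
      rw [h1, wsum_conj]
    · rw [if_neg ha]
      apply hV
      by_contra hnd
      apply ha
      obtain ⟨n, hn⟩ := IsPGroup.iff_card.mp hAp
      have hk : (Nat.card A).Coprime (orderOf g * orderOf (g * (a : G))) := by
        rw [hn]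
        apply Nat.Coprime.pow_left
        rw [Nat.Prime.coprime_iff_not_dvd hp.out]
        intro hd
        rcases (Nat.Prime.dvd_mul hp.out).mp hd with h | h
        · exact hg h
        · exact hnd h
      obtain ⟨w, hw, hw2⟩ := conj_of_coset A hab g a a.2 _ hk
        (by rw [pow_mul, pow_orderOf_eq_one, one_pow])
        (by rw [mul_comm, pow_mul, pow_orderOf_eq_one, one_pow])
      refine ⟨⟨w, hw⟩, ?_⟩
      apply Subtype.ext
      rw [commHom_apply]
      show g⁻¹ * w * g * w⁻¹ = a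
      have : (a : G) = g⁻¹ * (g * a) := by group
      rw [this, hw2]; group
  simp only [hterm]
  have hsum : ∑ a : A, (Fintype.card A : ℂ)⁻¹ *
      (if a ∈ (commHom A hab g).range then wsum V g else 0) =
      (Fintype.card A : ℂ)⁻¹ * ((Nat.card (commHom A hab g).range : ℂ) * wsum V g) := by
    rw [← Finset.mul_sum]
    congr 1
    rw [← Finset.sum_filter, Finset.sum_const, nsmul_eq_mul]
    congr 2
    rw [Nat.card_eq_fintype_card, Fintype.card_subtype]
  rw [hsum]
  have h2 := fixA_mul_card_range A hab g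
  have hc : (Fintype.card A : ℂ) ≠ 0 := by
    have : 0 < Fintype.card A := Fintype.card_pos
    exact_mod_cast this.ne'
  unfold permA
  rw [← mul_assoc, ← mul_assoc, mul_comm (fixA A g : ℂ), mul_assoc _ (fixA A g : ℂ),
    ← Nat.cast_mul, h2, Nat.card_eq_fintype_card, inv_mul_cancel₀ hc, one_mul]

theorem wsum_eq_smul [Fintype (IrrCharacter G)] (U : Set (IrrCharacter G)) :
    wsum U = ∑ χ : IrrCharacter G,
      (if χ ∈ U then (χ : G → ℂ) 1 else 0) • (χ : G → ℂ) := by
  funext x
  rw [wsum_eq_sum, Finset.sum_apply]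
  apply Finset.sum_congr rfl
  intro χ _
  by_cases h : χ ∈ U
  · simp [h]
  · simp [h]

theorem wsum_eq_sum' [Fintype (IrrCharacter G)] (U : Set (IrrCharacter G)) (x : G) :
    wsum U x = ∑ χ : IrrCharacter G,
      U.indicator (fun χ : IrrCharacter G => (χ : G → ℂ) 1) χ * (χ : G → ℂ) x := by
  rw [wsum_eq_sum]
  apply Finset.sum_congr rfl
  intro χ _
  by_cases h : χ ∈ U
  · rw [if_pos h, Set.indicator_of_mem h]
  · rw [if_neg h, Set.indicator_of_notMem h, zero_mul]

/-- weighted sums of disjoint sets are orthogonal -/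
theorem sum_wsum_disjoint [Finite G] [Fintype G] (V W : Set (IrrCharacter G))
    (hVW : ∀ χ ∈ V, χ ∉ W) : ∑ g : G, wsum V g * conj (wsum W g) = 0 := by
  let _ : Fintype (IrrCharacter G) := Fintype.ofFinite _
  have h1 : classInner (wsum V) (wsum W) = 0 := by
    rw [wsum_eq_smul V, wsum_eq_smul W, Helper4.classInner_sum_sum_irr]
    apply Finset.sum_eq_zero
    intro χ _
    by_cases h : χ ∈ V
    · rw [if_neg (hVW χ h), map_zero, mul_zero]
    · rw [if_neg h, zero_mul]
  unfold classInner at h1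
  have hc : (Nat.card G : ℂ)⁻¹ ≠ 0 := by
    apply inv_ne_zero
    have : 0 < Nat.card G := Nat.card_pos
    exact_mod_cast this.ne'
  exact (mul_eq_zero.mp h1).resolve_left hc

theorem wsum_kerSet_mul_right [Finite G] (A : Subgroup G) (V : Set (IrrCharacter G)) (g a : G)
    (ha : a ∈ A) : wsum (V ∩ kerSet A) (g * a) = wsum (V ∩ kerSet A) g := by
  unfold wsum
  apply finsum_mem_congr rfl
  intro χ hχ
  rw [Cfsg.Agent.S0868.irr_mul_ker A χ.2 (fun n => hχ.2 n n.2) g ⟨a, ha⟩]

/-- the key orthogonality -/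
theorem l4 [Finite G] [Fintype G] {p : ℕ} [hp : Fact p.Prime] (A : Subgroup G) [hA : A.Normal]
    (hAp : IsPGroup p A) (hab : ∀ a ∈ A, ∀ b ∈ A, a * b = b * a)
    {V W : Set (IrrCharacter G)} (hV : Vanishes p V) (hW : Vanishes p W)
    (hVW : ∀ χ ∈ V, χ ∉ W) :
    ∑ g : G, permA A g * wsum (V ∩ kerSet A) g * conj (wsum (W ∩ kerSet A) g) = 0 := by
  let _ : Fintype A := Fintype.ofFinite A
  have hc : (Fintype.card A : ℂ) ≠ 0 := by
    have : 0 < Fintype.card A := Fintype.card_pos
    exact_mod_cast this.ne'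
  set F : G → ℂ := fun g => permA A g * wsum (V ∩ kerSet A) g with hF
  have hFinv : ∀ (g : G) (a : A), F (g * (a : G)⁻¹) = F g := by
    intro g a
    simp only [hF]
    unfold permA
    rw [fixA_mul_right A hab g _ (A.inv_mem a.2),
      wsum_kerSet_mul_right A V g _ (A.inv_mem a.2)]
  have h1 : ∀ a : A, ∑ g : G, F g * conj (wsum W (g * (a : G))) =
      ∑ g : G, F g * conj (wsum W g) := by
    intro a
    rw [← Equiv.sum_comp (Equiv.mulRight (a : G)⁻¹)
      (fun g => F g * conj (wsum W (g * (a : G))))]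
    apply Finset.sum_congr rfl
    intro g _
    simp only [Equiv.coe_mulRight]
    rw [hFinv g a, inv_mul_cancel_right]
  have h2 : ∑ g : G, permA A g * wsum (V ∩ kerSet A) g * conj (wsum (W ∩ kerSet A) g) =
      ∑ g : G, F g * conj (wsum W g) := by
    calc ∑ g : G, permA A g * wsum (V ∩ kerSet A) g * conj (wsum (W ∩ kerSet A) g)
        = ∑ g : G, ∑ a : A, (Fintype.card A : ℂ)⁻¹ * (F g * conj (wsum W (g * (a : G)))) := by
          apply Finset.sum_congr rfl
          intro g _
          rw [wsum_kerSet A W g, map_sum, Finset.mul_sum]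
          apply Finset.sum_congr rfl
          intro a _
          rw [map_mul, map_inv₀, Complex.conj_natCast]
          ring
      _ = ∑ a : A, (Fintype.card A : ℂ)⁻¹ * ∑ g : G, F g * conj (wsum W (g * (a : G))) := by
          rw [Finset.sum_comm]
          apply Finset.sum_congr rfl
          intro a _
          rw [Finset.mul_sum]
      _ = ∑ g : G, F g * conj (wsum W g) := by
          simp only [h1]
          rw [Finset.sum_const, Finset.card_univ, nsmul_eq_mul, ← mul_assoc, mul_inv_cancel₀ hc,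
            one_mul]
  rw [h2]
  have h3 : ∀ g : G, F g * conj (wsum W g) = wsum V g * conj (wsum W g) := by
    intro g
    by_cases hg : p ∣ orderOf g
    · rw [hW g hg, map_zero, mul_zero, mul_zero]
    · simp only [hF]
      rw [l3 A hAp hab hV g hg]
  simp only [h3]
  exact sum_wsum_disjoint V W hVW

theorem sum_weight [Fintype G] [Fintype (IrrCharacter G)] (w : G → ℂ)
    (a b : IrrCharacter G → ℂ) :
    ∑ g : G, w g * (∑ χ : IrrCharacter G, a χ * (χ : G → ℂ) g) *
        conj (∑ ψ : IrrCharacter G, b ψ * (ψ : G → ℂ) g) =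
      ∑ χ : IrrCharacter G, ∑ ψ : IrrCharacter G, a χ * conj (b ψ) *
        ∑ g : G, w g * (χ : G → ℂ) g * conj ((ψ : G → ℂ) g) := by
  have h1 : ∀ g : G, w g * (∑ χ : IrrCharacter G, a χ * (χ : G → ℂ) g) *
        conj (∑ ψ : IrrCharacter G, b ψ * (ψ : G → ℂ) g) =
      ∑ χ : IrrCharacter G, ∑ ψ : IrrCharacter G, a χ * conj (b ψ) *
        (w g * (χ : G → ℂ) g * conj ((ψ : G → ℂ) g)) := by
    intro g
    rw [map_sum, mul_assoc, Finset.sum_mul_sum, Finset.mul_sum]
    apply Finset.sum_congr rfl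
    intro χ _
    rw [Finset.mul_sum]
    apply Finset.sum_congr rfl
    intro ψ _
    rw [map_mul]
    ring
  rw [Finset.sum_congr rfl (fun g _ => h1 g), Finset.sum_comm]
  apply Finset.sum_congr rfl
  intro χ _
  rw [Finset.sum_comm]
  apply Finset.sum_congr rfl
  intro ψ _
  rw [Finset.mul_sum]

theorem permA_mul_right (A : Subgroup G) (hab : ∀ a ∈ A, ∀ b ∈ A, a * b = b * a) (g : G)
    (a : G) (ha : a ∈ A) : permA A (g * a) = permA A g := by
  unfold permA
  rw [fixA_mul_right A hab g a ha]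

/-- closure under multiplication by the permutation character -/
theorem l5 [Finite G] {p : ℕ} [hp : Fact p.Prime] (A : Subgroup G) [hA : A.Normal]
    (hAp : IsPGroup p A) (hab : ∀ a ∈ A, ∀ b ∈ A, a * b = b * a)
    {V : Set (IrrCharacter G)} (hV : Vanishes p V) (β : IrrCharacter G) (hβV : β ∈ V)
    (hβA : β ∈ kerSet A) (β' : IrrCharacter G) [Fintype G]
    (h : classInner (permA A * (β : G → ℂ)) (β' : G → ℂ) ≠ 0) : β' ∈ V ∧ β' ∈ kerSet A := by
  let _ : Fintype A := Fintype.ofFinite A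
  let _ : Fintype (IrrCharacter G) := Fintype.ofFinite _
  have hβ'A : β' ∈ kerSet A := by
    by_contra hcon
    simp only [kerSet, Set.mem_ofPred_eq, not_forall] at hcon
    obtain ⟨x, hx, hne⟩ := hcon
    apply h
    apply Cfsg.Agent.S0868.classInner_eq_zero_of_not_ker A (f := permA A * (β : G → ℂ)) _
      β'.2 ⟨x, hx⟩ hne
    intro g n
    rw [Pi.mul_apply, Pi.mul_apply, permA_mul_right A hab g n n.2,
      Cfsg.Agent.S0868.irr_mul_ker A β.2 (fun n => hβA n n.2) g n]
  refine ⟨?_, hβ'A⟩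
  by_contra hβ'V
  have hW : Vanishes p Vᶜ := vanishes_compl hV
  have h4 := l4 A hAp hab hV hW (fun χ hχ hχ' => hχ' hχ)
  have hm : ∀ χ ψ : IrrCharacter G, ∃ n : ℕ,
      classInner (permA A * (χ : G → ℂ)) (ψ : G → ℂ) = n := fun χ ψ =>
    Helper4.classInner_isCharacter_nat _
      (Helper35.isCharacter_mul (isCharacter_permA A) (Helper35.isChar_of_irr χ.2)) ψ
  choose m hm using hm
  have hcard : (Nat.card G : ℂ) ≠ 0 := by
    have : 0 < Nat.card G := Nat.card_pos
    exact_mod_cast this.ne'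
  have hinner : ∀ χ ψ : IrrCharacter G,
      ∑ g : G, permA A g * (χ : G → ℂ) g * conj ((ψ : G → ℂ) g) =
        (Nat.card G : ℂ) * (m χ ψ : ℂ) := by
    intro χ ψ
    rw [← hm χ ψ]
    unfold classInner
    rw [← mul_assoc, mul_inv_cancel₀ hcard, one_mul]
    rfl
  simp only [wsum_eq_sum'] at h4
  rw [sum_weight] at h4
  simp only [hinner] at h4
  have h5 : ∀ χ ψ : IrrCharacter G,
      (V ∩ kerSet A).indicator (fun χ : IrrCharacter G => (χ : G → ℂ) 1) χ *
        conj ((Vᶜ ∩ kerSet A).indicator (fun χ : IrrCharacter G => (χ : G → ℂ) 1) ψ) *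
        ((Nat.card G : ℂ) * (m χ ψ : ℂ)) =
      (((V ∩ kerSet A).indicator (fun χ : IrrCharacter G => charDegree (χ : G → ℂ)) χ *
        (Vᶜ ∩ kerSet A).indicator (fun χ : IrrCharacter G => charDegree (χ : G → ℂ)) ψ *
        (Nat.card G * m χ ψ) : ℕ) : ℂ) := by
    intro χ ψ
    have e1 := (Helper83.irr_degree χ.2).2
    have e2 := (Helper83.irr_degree ψ.2).2
    by_cases hχ : χ ∈ V ∩ kerSet A
    · by_cases hψ : ψ ∈ Vᶜ ∩ kerSet A
      · rw [Set.indicator_of_mem hχ, Set.indicator_of_mem hψ, Set.indicator_of_mem hχ,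
          Set.indicator_of_mem hψ, e1, e2, Complex.conj_natCast]
        push_cast
        ring
      · rw [Set.indicator_of_notMem hψ, Set.indicator_of_notMem hψ]
        simp
    · rw [Set.indicator_of_notMem hχ, Set.indicator_of_notMem hχ]
      simp
  simp only [h5] at h4
  have h6 : (∑ χ : IrrCharacter G, ∑ ψ : IrrCharacter G,
      (V ∩ kerSet A).indicator (fun χ : IrrCharacter G => charDegree (χ : G → ℂ)) χ *
        (Vᶜ ∩ kerSet A).indicator (fun χ : IrrCharacter G => charDegree (χ : G → ℂ)) ψ *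
        (Nat.card G * m χ ψ)) = 0 := by
    exact_mod_cast h4
  rw [Finset.sum_eq_zero_iff] at h6
  have h7 := h6 β (Finset.mem_univ _)
  rw [Finset.sum_eq_zero_iff] at h7
  have h8 := h7 β' (Finset.mem_univ _)
  rw [Set.indicator_of_mem (show β ∈ V ∩ kerSet A from ⟨hβV, hβA⟩),
    Set.indicator_of_mem (show β' ∈ Vᶜ ∩ kerSet A from ⟨hβ'V, hβ'A⟩)] at h8
  have d1 := (Helper83.irr_degree β.2).1
  have d2 := (Helper83.irr_degree β'.2).1
  have d3 : 0 < Nat.card G := Nat.card_pos
  have h9 : m β β' = 0 := by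
    rcases Nat.mul_eq_zero.mp h8 with h | h
    · rcases Nat.mul_eq_zero.mp h with h | h <;> omega
    · rcases Nat.mul_eq_zero.mp h with h | h
      · omega
      · exact h
  apply h
  rw [hm β β', h9, Nat.cast_zero]

theorem forall_fix_of_fixA_eq (A : Subgroup G) [Finite A] (g : G)
    (h : fixA A g = Nat.card A) : ∀ a ∈ A, g * a * g⁻¹ = a := by
  let _ : Fintype A := Fintype.ofFinite A
  unfold fixA at h
  rw [Nat.card_eq_fintype_card, Nat.card_eq_fintype_card, Fintype.card_subtype] at h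
  have h1 := (Finset.card_eq_iff_eq_univ _).mp h
  intro a ha
  have h2 : (⟨a, ha⟩ : A) ∈ Finset.univ.filter (fun a : A => g * (a : G) * g⁻¹ = a) := by
    rw [h1]; exact Finset.mem_univ _
  exact (Finset.mem_filter.mp h2).2

/-- Burnside–Brauer for the permutation character of `A` -/
theorem l6 [Finite G] [Fintype G] (A : Subgroup G) [hA : A.Normal]
    (hab : ∀ a ∈ A, ∀ b ∈ A, a * b = b * a)
    (Z : Subgroup G) (hZ : Z ≤ Subgroup.center G)
    (hC : ∀ g : G, (∀ a ∈ A, g * a = a * g) → g ∈ A ⊔ Z)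
    (β β' : IrrCharacter G) (hβ : β ∈ kerSet A) (hβ' : β' ∈ kerSet A)
    (hcent : β' ∈ centSet Z β) :
    ∃ k : ℕ, classInner (permA A ^ k * (β : G → ℂ)) (β' : G → ℂ) ≠ 0 := by
  by_contra hcon
  push Not at hcon
  have hcard : (Nat.card G : ℂ) ≠ 0 := by
    have : 0 < Nat.card G := Nat.card_pos
    exact_mod_cast this.ne'
  set F : G → ℂ := fun g => (β : G → ℂ) g * conj ((β' : G → ℂ) g) with hFdef
  have hk : ∀ k : ℕ, ∑ g : G, permA A g ^ k * F g = 0 := by
    intro k
    have h1 := hcon k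
    unfold classInner at h1
    have h2 := (mul_eq_zero.mp h1).resolve_left (inv_ne_zero hcard)
    rw [← h2]
    apply Finset.sum_congr rfl
    intro g _
    simp only [Pi.mul_apply, Pi.pow_apply, hFdef]
    ring
  set c₀ : ℂ := (Nat.card A : ℂ) with hc₀
  set vals : Finset ℂ := Finset.univ.image (permA A) with hvals
  set P : Polynomial ℂ := ∏ v ∈ vals.erase c₀, (Polynomial.X - Polynomial.C v) with hP
  have hPeval : ∀ t : ℂ, P.eval t = ∏ v ∈ vals.erase c₀, (t - v) := by
    intro t
    rw [hP, Polynomial.eval_prod]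
    simp
  have hP0 : P.eval c₀ ≠ 0 := by
    rw [hPeval, Finset.prod_ne_zero_iff]
    intro v hv
    exact sub_ne_zero.mpr (Ne.symm (Finset.ne_of_mem_erase hv))
  have hPz : ∀ g : G, permA A g ≠ c₀ → P.eval (permA A g) = 0 := by
    intro g hg
    rw [hPeval]
    apply Finset.prod_eq_zero (i := permA A g)
    · exact Finset.mem_erase.mpr ⟨hg, Finset.mem_image_of_mem _ (Finset.mem_univ g)⟩
    · exact sub_self _
  have hS0 : ∑ g : G, P.eval (permA A g) * F g = 0 := by
    have h1 : ∀ g : G, P.eval (permA A g) * F g =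
        ∑ i ∈ Finset.range (P.natDegree + 1), P.coeff i * (permA A g ^ i * F g) := by
      intro g
      rw [Polynomial.eval_eq_sum_range, Finset.sum_mul]
      apply Finset.sum_congr rfl
      intro i _
      ring
    rw [Finset.sum_congr rfl (fun g _ => h1 g), Finset.sum_comm]
    apply Finset.sum_eq_zero
    intro i _
    rw [← Finset.mul_sum, hk i, mul_zero]
  have hβ1 : (β : G → ℂ) 1 ≠ 0 := Helper83.irr_one_ne_zero β.2
  have hβ'1 : (β' : G → ℂ) 1 ≠ 0 := Helper83.irr_one_ne_zero β'.2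
  have hF : ∀ g : G, permA A g = c₀ → F g = (β : G → ℂ) 1 * (β' : G → ℂ) 1 := by
    intro g hg
    have hfix : fixA A g = Nat.card A := by
      have hg' : (fixA A g : ℂ) = (Nat.card A : ℂ) := hg
      exact_mod_cast hg'
    have h1 := forall_fix_of_fixA_eq A g hfix
    have h2 : g ∈ A ⊔ Z := hC g (fun a ha => by
      have := h1 a ha
      calc g * a = (g * a * g⁻¹) * g := by group
        _ = a * g := by rw [this])
    have h3 : g ∈ ((A ⊔ Z : Subgroup G) : Set G) := h2
    rw [Subgroup.normal_mul] at h3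
    obtain ⟨a, ha, z, hz, rfl⟩ := Set.mem_mul.mp h3
    have e1 : (β : G → ℂ) (a * z) = (β : G → ℂ) z :=
      Cfsg.Agent.S0868.irr_ker_mul A β.2 (fun n => hβ n n.2) z ⟨a, ha⟩
    have e2 : (β' : G → ℂ) (a * z) = (β' : G → ℂ) z :=
      Cfsg.Agent.S0868.irr_ker_mul A β'.2 (fun n => hβ' n n.2) z ⟨a, ha⟩
    simp only [hFdef]
    rw [e1, e2]
    have u := cent_unit β z (hZ hz)
    have hc := hcent z hz
    have d2 := (Helper83.irr_degree β'.2).2
    set ω := (β : G → ℂ) z / (β : G → ℂ) 1 with hω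
    have e3 : (β' : G → ℂ) z = ω * (β' : G → ℂ) 1 := by
      rw [hω]
      field_simp
      rw [hc]
    have e4 : (β : G → ℂ) z = ω * (β : G → ℂ) 1 := by
      rw [hω]
      field_simp
    rw [e3, map_mul, d2, Complex.conj_natCast, e4]
    linear_combination ((β : G → ℂ) 1 * (charDegree (β' : G → ℂ) : ℂ)) * u
  have hS : ∑ g : G, P.eval (permA A g) * F g =
      (Finset.univ.filter (fun g : G => permA A g = c₀)).card •
        (P.eval c₀ * ((β : G → ℂ) 1 * (β' : G → ℂ) 1)) := by
    rw [← Finset.sum_const, Finset.sum_filter]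
    apply Finset.sum_congr rfl
    intro g _
    by_cases hg : permA A g = c₀
    · rw [if_pos hg, hF g hg, hg]
    · rw [if_neg hg, hPz g hg, zero_mul]
  rw [hS, nsmul_eq_mul] at hS0
  have hne : (Finset.univ.filter (fun g : G => permA A g = c₀)).card ≠ 0 := by
    apply Finset.card_ne_zero.mpr
    refine ⟨1, Finset.mem_filter.mpr ⟨Finset.mem_univ _, ?_⟩⟩
    unfold permA
    rw [fixA_one]
  have hne' : ((Finset.univ.filter (fun g : G => permA A g = c₀)).card : ℂ) ≠ 0 := by
    exact_mod_cast hne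
  exact mul_ne_zero hne' (mul_ne_zero hP0 (mul_ne_zero hβ1 hβ'1)) hS0

/-- **The abelian case.** -/
theorem tab [Finite G] {p : ℕ} [hp : Fact p.Prime] (A : Subgroup G) [hA : A.Normal]
    (hAp : IsPGroup p A) (hab : ∀ a ∈ A, ∀ b ∈ A, a * b = b * a)
    (Z : Subgroup G) (hZ : Z ≤ Subgroup.center G) (hZp : (Nat.card Z).Coprime p)
    (hC : ∀ g : G, (∀ a ∈ A, g * a = a * g) → g ∈ A ⊔ Z)
    (U : Set (IrrCharacter G)) (hU : Vanishes p U) (χ : IrrCharacter G) (hχ : χ ∈ U)
    (ψ : IrrCharacter G) (hψ : ψ ∈ centSet Z χ) : ψ ∈ U := by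
  let _ : Fintype G := Fintype.ofFinite G
  let _ : Fintype (IrrCharacter G) := Fintype.ofFinite _
  refine fin_step A hAp Z hZ hZp ?_ U hU χ hχ ψ hψ
  intro V hV χ hχV hχA ψ hψA hψc
  obtain ⟨k, hk⟩ := l6 A hab Z hZ hC χ ψ hχA hψA hψc
  have key : ∀ k : ℕ, IsCharacter G (permA A ^ k * (χ : G → ℂ)) ∧
      ∀ ψ : IrrCharacter G, classInner (permA A ^ k * (χ : G → ℂ)) (ψ : G → ℂ) ≠ 0 →
        ψ ∈ V ∧ ψ ∈ kerSet A := by
    intro k
    induction k with
    | zero =>
      rw [pow_zero, one_mul]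
      refine ⟨Helper35.isChar_of_irr χ.2, fun ψ h => ?_⟩
      rw [Helper83.irr_orthonormal] at h
      have : χ = ψ := by
        by_contra hne
        exact h (if_neg hne)
      rw [← this]
      exact ⟨hχV, hχA⟩
    | succ k ih =>
      obtain ⟨hchar, ih⟩ := ih
      have e : permA A ^ (k + 1) * (χ : G → ℂ) = permA A * (permA A ^ k * (χ : G → ℂ)) := by
        rw [pow_succ', mul_assoc]
      rw [e]
      refine ⟨Helper35.isCharacter_mul (isCharacter_permA A) hchar, fun ψ h => ?_⟩
      obtain ⟨n, hn⟩ := Helper4.exists_decomp_of_isCharacter _ hchar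
      have h1 : classInner (permA A * (permA A ^ k * (χ : G → ℂ))) (ψ : G → ℂ) =
          ∑ ξ : IrrCharacter G, (n ξ : ℂ) *
            classInner (permA A * (ξ : G → ℂ)) (ψ : G → ℂ) := by
        rw [hn, Finset.mul_sum, Helper83.classInner_sum_left]
        apply Finset.sum_congr rfl
        intro ξ _
        rw [mul_smul_comm, Helper83.classInner_smul_left]
      rw [h1] at h
      obtain ⟨ξ, -, hξ⟩ := Finset.exists_ne_zero_of_sum_ne_zero h
      have hnξ : (n ξ : ℂ) ≠ 0 := left_ne_zero_of_mul hξ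
      have hξ2 : classInner (permA A * (ξ : G → ℂ)) (ψ : G → ℂ) ≠ 0 := right_ne_zero_of_mul hξ
      have h2 : classInner (permA A ^ k * (χ : G → ℂ)) (ξ : G → ℂ) ≠ 0 := by
        rw [hn, Helper4.classInner_sum_irr]
        exact hnξ
      obtain ⟨hξV, hξA⟩ := ih ξ h2
      exact l5 A hAp hab hV ξ hξV hξA ψ hξ2
  exact ((key k).2 ψ hk).1

end Cfsg.Agent.Lib.Helper4.KO
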