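import Mathlib
import Cfsg.Agent.Lib.Helper4.KO2
import Cfsg.Agent.Lib.Helper75.FrattiniAct

/-!
# Kiyota–Okuyama, part 3 (helper4): the Frattini quotient

`tfrat`: if `Q` is a normal `p`-subgroup of `G`, `Z` a central `p'`-subgroup and every element
acting trivially on `Q / Φ(Q)` lies in `Q Z`, then a set `U` of irreducible characters whose
degree-weighted sum vanishes on the `p`-singular elements is closed under "same central character
on `Z`".
-/

set_option autoImplicit false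

namespace Cfsg.Agent.Lib.Helper4.KO

open Cfsg
open scoped ComplexConjugate
open scoped Classical
open scoped commutatorElement

variable {G : Type*} [Group G]

theorem wsum_image {H : Type*} [Group H] (B : IrrCharacter H → IrrCharacter G)
    (U : Set (IrrCharacter H)) (hinj : Set.InjOn B U) (y : G) :
    wsum (B '' U) y = ∑ᶠ χ ∈ U, (B χ : G → ℂ) 1 * (B χ : G → ℂ) y := by
  unfold wsum
  exact finsum_mem_image hinj

theorem wsum_quot [Finite G] (N : Subgroup G) [N.Normal] (V : Set (IrrCharacter G)) (g : G) :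
    wsum {β : IrrCharacter (G ⧸ N) | Helper83.inflate N β ∈ V} (g : G ⧸ N) =
      wsum (V ∩ kerSet N) g := by
  have himg : V ∩ kerSet N =
      Helper83.inflate N '' {β : IrrCharacter (G ⧸ N) | Helper83.inflate N β ∈ V} := by
    ext χ
    constructor
    · rintro ⟨hV, hk⟩
      obtain ⟨β, hβ⟩ := Helper83.exists_inflate_eq N χ hk
      refine ⟨β, ?_, hβ⟩
      show Helper83.inflate N β ∈ V
      rw [hβ]
      exact hV
    · rintro ⟨β, hβ, rfl⟩
      exact ⟨hβ, fun x hx => Helper83.inflate_ker N β x hx⟩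
  rw [himg, wsum_image _ _ (Helper83.inflate_injective N).injOn]
  unfold wsum
  apply finsum_mem_congr rfl
  intro β _
  rfl

theorem vanishes_quot [Finite G] {p : ℕ} (N : Subgroup G) [N.Normal]
    {V : Set (IrrCharacter G)} (hV : Vanishes p V) :
    Vanishes p {β : IrrCharacter (G ⧸ N) | Helper83.inflate N β ∈ V} := by
  let _ : Fintype N := Fintype.ofFinite N
  intro y hy
  obtain ⟨g, rfl⟩ := QuotientGroup.mk_surjective y
  rw [wsum_quot N V g, wsum_kerSet N V g]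
  apply Finset.sum_eq_zero
  intro r _
  have h1 : ((g * (r : G) : G) : G ⧸ N) = (g : G ⧸ N) := by
    rw [QuotientGroup.mk_mul, (QuotientGroup.eq_one_iff (r : G)).mpr r.2, mul_one]
  have h2 : orderOf ((g * (r : G) : G) : G ⧸ N) ∣ orderOf (g * (r : G)) :=
    orderOf_map_dvd (QuotientGroup.mk' N) (g * (r : G))
  rw [h1] at h2
  rw [hV _ (hy.trans h2), mul_zero]

/-- **The Frattini case.** -/
theorem tfrat [Finite G] {p : ℕ} [hp : Fact p.Prime] (Q : Subgroup G) [hQ : Q.Normal]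
    (hQp : IsPGroup p Q) (Z : Subgroup G) (hZ : Z ≤ Subgroup.center G)
    (hZp : (Nat.card Z).Coprime p)
    (hK : ∀ g : G, (∀ x ∈ Q, g * x * g⁻¹ * x⁻¹ ∈ (frattini Q).map Q.subtype) → g ∈ Q ⊔ Z)
    (U : Set (IrrCharacter G)) (hU : Vanishes p U) (χ : IrrCharacter G) (hχ : χ ∈ U)
    (ψ : IrrCharacter G) (hψ : ψ ∈ centSet Z χ) : ψ ∈ U := by
  set Φ : Subgroup G := (frattini Q).map Q.subtype with hΦ
  have hΦn : Φ.Normal := ConjAct.normal_of_characteristic_of_normal
  have hΦQ : Φ ≤ Q := Subgroup.map_subtype_le _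
  have hΦp : IsPGroup p Φ := hQp.to_le hΦQ
  refine fin_step Φ hΦp Z hZ hZp ?_ U hU χ hχ ψ hψ
  intro V hV χ hχV hχΦ ψ hψΦ hψc
  obtain ⟨β, hβ⟩ := Helper83.exists_inflate_eq Φ χ hχΦ
  obtain ⟨β', hβ'⟩ := Helper83.exists_inflate_eq Φ ψ hψΦ
  set mk := QuotientGroup.mk' Φ with hmk
  have hsurj : Function.Surjective mk := QuotientGroup.mk'_surjective Φ
  have hA₁n : (Q.map mk).Normal := hQ.map mk hsurj
  have hA₁p : IsPGroup p (Q.map mk) := hQp.map mk
  have hcomm : ∀ a ∈ Q, ∀ b ∈ Q, a * b * a⁻¹ * b⁻¹ ∈ Φ := by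
    intro a ha b hb
    have h1 : ⁅(⟨a, ha⟩ : Q), (⟨b, hb⟩ : Q)⁆ ∈ commutator Q := by
      rw [commutator_def]
      exact Subgroup.commutator_mem_commutator (Subgroup.mem_top _) (Subgroup.mem_top _)
    have h2 := Cfsg.Agent.Lib.Helper75.Fratt.commutator_le_frattini hQp h1
    exact ⟨_, h2, rfl⟩
  have hab : ∀ a ∈ Q.map mk, ∀ b ∈ Q.map mk, a * b = b * a := by
    rintro _ ⟨a, ha, rfl⟩ _ ⟨b, hb, rfl⟩
    have h1 := hcomm a ha b hb
    have h2 : mk (a * b * a⁻¹ * b⁻¹) = 1 := (QuotientGroup.eq_one_iff _).mpr h1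
    have h3 : a * b = (a * b * a⁻¹ * b⁻¹) * (b * a) := by group
    rw [← map_mul, ← map_mul, h3, map_mul, h2, one_mul]
  have hZ₁ : Z.map mk ≤ Subgroup.center (G ⧸ Φ) := by
    rintro _ ⟨z, hz, rfl⟩
    rw [Subgroup.mem_center_iff]
    intro y
    obtain ⟨g, rfl⟩ := hsurj y
    rw [← map_mul, ← map_mul, Subgroup.mem_center_iff.mp (hZ hz) g]
  have hZ₁p : (Nat.card (Z.map mk)).Coprime p :=
    Nat.Coprime.coprime_dvd_left (Subgroup.card_map_dvd Z mk) hZp
  have hC₁ : ∀ y : G ⧸ Φ, (∀ a ∈ Q.map mk, y * a = a * y) → y ∈ Q.map mk ⊔ Z.map mk := by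
    intro y hy
    obtain ⟨g, rfl⟩ := hsurj y
    have h1 : g ∈ Q ⊔ Z := by
      apply hK
      intro x hx
      have h2 := hy (mk x) ⟨x, hx, rfl⟩
      apply (QuotientGroup.eq_one_iff _).mp
      show mk (g * x * g⁻¹ * x⁻¹) = 1
      rw [map_mul, map_mul, map_mul, h2, map_inv, map_inv]
      group
    rw [← Subgroup.map_sup]
    exact ⟨g, h1, rfl⟩
  have hV₁ := vanishes_quot (p := p) Φ hV
  have hβV : β ∈ {β : IrrCharacter (G ⧸ Φ) | Helper83.inflate Φ β ∈ V} := by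
    show Helper83.inflate Φ β ∈ V
    rw [hβ]
    exact hχV
  have hcent : β' ∈ centSet (Z.map mk) β := by
    rintro _ ⟨z, hz, rfl⟩
    have h1 := hψc z hz
    rw [← hβ, ← hβ'] at h1
    exact h1
  have h := tab (Q.map mk) hA₁p hab (Z.map mk) hZ₁ hZ₁p hC₁ _ hV₁ β hβV β' hcent
  have h' : Helper83.inflate Φ β' ∈ V := h
  rw [hβ'] at h'
  exact h'

end Cfsg.Agent.Lib.Helper4.KO
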