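import Mathlib
import Cfsg.Prelude.Def_Local
import Cfsg.Agent.Lib.Helper40.HallHigman
import Cfsg.Agent.Lib.Helper75.FrattiniAct
import Cfsg.Agent.Lib.Helper31.PComp
import Cfsg.Agent.Lib.Helper55.Basic

/-!
# Kiyota–Okuyama, part 4 (helper4): group theory

* `frattini_kernel_le`: in a `p`-solvable group `S` with `O_{p'}(S) = 1`, an element acting
  trivially on `O_p(S) / Φ(O_p(S))` lies in `O_p(S)`.
* `exists_frattini_sub`: the same for a central extension `Γ → S` with kernel in the central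
  subgroup `Z`: there is a normal `p`-subgroup `Q` of `Γ` such that every element acting trivially
  on `Q / Φ(Q)` lies in `Q Z`.
-/

set_option autoImplicit false
set_option linter.style.haveILetI false

namespace Cfsg.Agent.Lib.Helper4.KO

open Cfsg

theorem frattini_kernel_le {S : Type*} [Group S] [Finite S] {p : ℕ} [hp : Fact p.Prime]
    (hS : IsPSolvable p S) (hred : pPrimeCore p S = ⊥) (s : S)
    (hs : ∀ x ∈ pCore p S,
      s * x * s⁻¹ * x⁻¹ ∈ (frattini (pCore p S)).map (pCore p S).subtype) :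
    s ∈ pCore p S := by
  have hQn : (pCore p S).Normal := Cfsg.Agent.Lib.Helper40.pCore_normal' p
  have hQp : IsPGroup p (pCore p S) := Cfsg.Agent.Lib.Helper40.pCore_isPGroup' p
  have hHH := Cfsg.Agent.Lib.Helper40.centralizer_pCore_le hS hred
  set Q := pCore p S with hQ
  set Φ : Subgroup S := (frattini Q).map Q.subtype with hΦ
  have hΦn : Φ.Normal := ConjAct.normal_of_characteristic_of_normal
  let K : Subgroup S :=
    { carrier := {s | ∀ x ∈ Q, s * x * s⁻¹ * x⁻¹ ∈ Φ}
      one_mem' := by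
        intro x _
        simp only [one_mul, inv_one, mul_one, mul_inv_cancel]
        exact Φ.one_mem
      mul_mem' := by
        intro a b ha hb x hx
        have h1 := hb x hx
        have h2 := ha x hx
        have h3 : a * b * x * (a * b)⁻¹ * x⁻¹ =
            (a * (b * x * b⁻¹ * x⁻¹) * a⁻¹) * (a * x * a⁻¹ * x⁻¹) := by group
        rw [h3]
        exact Φ.mul_mem (hΦn.conj_mem _ h1 a) h2
      inv_mem' := by
        intro a ha x hx
        have h1 := ha (a⁻¹ * x * a) (by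
          have := hQn.conj_mem x hx a⁻¹
          simpa using this)
        have h2 : a⁻¹ * x * a⁻¹⁻¹ * x⁻¹ = (a * (a⁻¹ * x * a) * a⁻¹ * (a⁻¹ * x * a)⁻¹)⁻¹ := by
          group
        rw [h2]
        exact Φ.inv_mem h1 }
  have hKn : K.Normal := by
    refine ⟨fun a ha g x hx => ?_⟩
    have h1 := ha (g⁻¹ * x * g) (by
      have := hQn.conj_mem x hx g⁻¹
      simpa using this)
    have h2 : g * a * g⁻¹ * x * (g * a * g⁻¹)⁻¹ * x⁻¹ =
        g * (a * (g⁻¹ * x * g) * a⁻¹ * (g⁻¹ * x * g)⁻¹) * g⁻¹ := by group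
    rw [h2]
    exact hΦn.conj_mem _ h1 g
  have hKp : IsPGroup p K := by
    have hcard : Nat.card K = p ^ (Nat.card K).primeFactorsList.length := by
      apply Nat.eq_prime_pow_of_unique_prime_dvd Nat.card_pos.ne'
      intro q hq hqd
      by_contra hne
      haveI : Fact q.Prime := ⟨hq⟩
      obtain ⟨c, hc⟩ := exists_prime_orderOf_dvd_card' (G := K) q hqd
      have hc1 : (c : S) ^ q ^ 1 = 1 := by
        rw [pow_one, ← hc, ← Subgroup.orderOf_coe, pow_orderOf_eq_one]
      have hcen := Cfsg.Agent.Lib.Helper75.Fratt.mem_centralizer_of_frattini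
        (fun h : p = q => hne h.symm) Q hQp (c : S) 1 hc1 c.2
      have hcQ : (c : S) ∈ Q := hHH hcen
      obtain ⟨j, hj⟩ := (IsPGroup.iff_orderOf.mp hQp) ⟨(c : S), hcQ⟩
      rw [Subgroup.orderOf_mk, Subgroup.orderOf_coe, hc] at hj
      have hpq : p = q := by
        have h1 : q ∣ p ^ j := by rw [← hj]
        exact ((Nat.prime_dvd_prime_iff_eq hq hp.out).mp (hq.dvd_of_dvd_pow h1)).symm
      exact hne hpq.symm
    exact IsPGroup.of_card hcard
  exact Cfsg.Agent.Lib.Helper55.le_pCore hKn hKp hs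

theorem exists_frattini_sub {Γ S : Type*} [Group Γ] [Group S] [Finite Γ] [Finite S] {p : ℕ}
    [hp : Fact p.Prime] (τ : Γ →* S) (hτ : Function.Surjective τ) (Z : Subgroup Γ)
    (hZc : Z ≤ Subgroup.center Γ) (hker : τ.ker ≤ Z) (hS : IsPSolvable p S)
    (hred : pPrimeCore p S = ⊥) :
    ∃ Q : Subgroup Γ, Q.Normal ∧ IsPGroup p Q ∧
      ∀ γ : Γ, (∀ x ∈ Q, γ * x * γ⁻¹ * x⁻¹ ∈ (frattini Q).map Q.subtype) → γ ∈ Q ⊔ Z := by
  have hQSn : (pCore p S).Normal := Cfsg.Agent.Lib.Helper40.pCore_normal' p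
  have hQSp : IsPGroup p (pCore p S) := Cfsg.Agent.Lib.Helper40.pCore_isPGroup' p
  set QS := pCore p S with hQS
  set M : Subgroup Γ := QS.comap τ with hM
  have hMn : M.Normal := hQSn.comap τ
  let f : M →* QS := (τ.comp M.subtype).codRestrict QS (fun m => m.2)
  have hfker : f.ker ≤ Subgroup.center M := by
    intro m hm
    rw [Subgroup.mem_center_iff]
    intro m'
    apply Subtype.ext
    have h1 : τ (m : Γ) = 1 := congrArg Subtype.val (MonoidHom.mem_ker.mp hm)
    have h2 : (m : Γ) ∈ Subgroup.center Γ := hZc (hker (MonoidHom.mem_ker.mpr h1))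
    exact Subgroup.mem_center_iff.mp h2 (m' : Γ)
  haveI : Group.IsNilpotent QS := hQSp.isNilpotent
  haveI hnil : Group.IsNilpotent M := Subgroup.isNilpotent_of_ker_le_center f hfker
  let P : Sylow p M := default
  have hPn : (P : Subgroup M).Normal := inferInstance
  haveI hPc : (P : Subgroup M).Characteristic := Sylow.characteristic_of_normal P hPn
  set Q : Subgroup Γ := (P : Subgroup M).map M.subtype with hQ
  have hQn : Q.Normal := ConjAct.normal_of_characteristic_of_normal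
  have hQp : IsPGroup p Q := P.2.map M.subtype
  have hQM : Q ≤ M := Subgroup.map_subtype_le _
  have pM : ∀ γ ∈ M, ∀ j : ℕ, γ ^ p ^ j = 1 → γ ∈ Q := by
    intro γ hγ j hj
    set u : M := ⟨γ, hγ⟩ with hu
    have hu1 : u ^ p ^ j = 1 := Subtype.ext hj
    have hz : IsPGroup p (Subgroup.zpowers u) := by
      rintro ⟨g, hg⟩
      obtain ⟨i, rfl⟩ := Subgroup.mem_zpowers_iff.mp hg
      refine ⟨j, Subtype.ext ?_⟩
      show (u ^ i) ^ p ^ j = 1
      rw [← zpow_natCast, ← zpow_mul, mul_comm, zpow_mul, zpow_natCast, hu1, one_zpow]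
    have hsup : IsPGroup p ((P : Subgroup M) ⊔ Subgroup.zpowers u : Subgroup M) :=
      IsPGroup.to_sup_of_normal_left P.2 hz
    have h1 := P.is_maximal' hsup le_sup_left
    have h2 : u ∈ (P : Subgroup M) := by
      rw [← h1]
      exact Subgroup.mem_sup_right (Subgroup.mem_zpowers u)
    exact ⟨u, h2, rfl⟩
  have hsurjQ : ∀ y ∈ QS, ∃ x ∈ Q, τ x = y := by
    intro y hy
    obtain ⟨k, hk⟩ := hQSp ⟨y, hy⟩
    have hk' : y ^ p ^ k = 1 := congrArg Subtype.val hk
    obtain ⟨x, hx, j, hj⟩ := Cfsg.Agent.Lib.Helper31.exists_pElt_lift hp.out τ hτ hk'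
    have hxM : x ∈ M := by
      show τ x ∈ QS
      rw [hx]; exact hy
    exact ⟨x, pM x hxM j hj, hx⟩
  refine ⟨Q, hQn, hQp, fun γ hγ => ?_⟩
  have h1 : τ γ ∈ QS := by
    apply frattini_kernel_le hS hred (τ γ)
    intro y hy
    obtain ⟨x, hx, rfl⟩ := hsurjQ y hy
    obtain ⟨w, hw, hw2⟩ := hγ x hx
    let τ' : Q →* QS := (τ.comp Q.subtype).codRestrict QS (fun q => hQM q.2)
    have hτ's : Function.Surjective τ' := by
      rintro ⟨y, hy⟩
      obtain ⟨x, hx, hxy⟩ := hsurjQ y hy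
      exact ⟨⟨x, hx⟩, Subtype.ext hxy⟩
    have h2 := frattini_le_comap_frattini_of_surjective hτ's hw
    refine ⟨τ' w, h2, ?_⟩
    show τ (Q.subtype w) = _
    rw [hw2]
    simp only [map_mul, map_inv]
  obtain ⟨x, hx, hxy⟩ := hsurjQ (τ γ) h1
  have h3 : x⁻¹ * γ ∈ τ.ker := by
    rw [MonoidHom.mem_ker, map_mul, map_inv, hxy, inv_mul_cancel]
  have h4 : γ = x * (x⁻¹ * γ) := by group
  rw [h4]
  exact Subgroup.mul_mem_sup hx (hker h3)

end Cfsg.Agent.Lib.Helper4.KO
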