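import Mathlib
import Cfsg.Agent.Lib.Helper4.KO3
import Cfsg.Agent.Lib.Helper4.FongHt3
import Cfsg.Agent.S0868

/-!
# Kiyota–Okuyama, part 5 (helper4): characters over an extendible character

`ext_case`: `N ⊴ G`, `θ ∈ Irr(G)` with `θ_N` irreducible, `Z` a central `p'`-subgroup, `Q` a normal
`p`-subgroup of `G / N` with the Frattini centralizer property relative to the image of `Z`.
Then a set `U ⊆ Irr(G | θ_N)` of characters trivial on `Z` with vanishing weighted sum is empty or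
everything (Gallagher correspondence to `Irr(G / N)`).
-/

set_option autoImplicit false

namespace Cfsg.Agent.Lib.Helper4.KO

open Cfsg
open scoped ComplexConjugate
open scoped Classical

variable {G : Type*} [Group G]

theorem wsum_image_proj {H : Type*} [Group H] [Finite H] (B : IrrCharacter H → IrrCharacter G)
    (U : Set (IrrCharacter H)) (hinj : Set.InjOn B U) (y : G) {ι : Type*} [Fintype ι]
    (c : ι → ℂ) (z : ι → H)
    (h : ∀ ξ ∈ U, (B ξ : G → ℂ) 1 * (B ξ : G → ℂ) y =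
      ∑ i, c i * ((ξ : H → ℂ) 1 * (ξ : H → ℂ) (z i))) :
    wsum (B '' U) y = ∑ i, c i * wsum U (z i) := by
  let _ : Fintype (IrrCharacter H) := Fintype.ofFinite _
  rw [wsum_image B U hinj y, finsum_mem_congr rfl h, finsum_mem_def, finsum_eq_sum_of_fintype]
  simp only [wsum_eq_sum]
  have h1 : (∑ i, c i * ∑ χ : IrrCharacter H,
        if χ ∈ U then (χ : H → ℂ) 1 * (χ : H → ℂ) (z i) else 0) =
      ∑ χ : IrrCharacter H, ∑ i, c i *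
        (if χ ∈ U then (χ : H → ℂ) 1 * (χ : H → ℂ) (z i) else 0) := by
    rw [Finset.sum_comm]
    apply Finset.sum_congr rfl
    intro i _
    rw [Finset.mul_sum]
  rw [h1]
  apply Finset.sum_congr rfl
  intro ξ _
  by_cases hξ : ξ ∈ U
  · rw [Set.indicator_of_mem hξ]
    apply Finset.sum_congr rfl
    intro i _
    rw [if_pos hξ]
  · rw [Set.indicator_of_notMem hξ]
    symm
    apply Finset.sum_eq_zero
    intro i _
    rw [if_neg hξ, mul_zero]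

section gallagher

variable [Fintype G] (N : Subgroup G) [hN : N.Normal] [Fintype N] (θ : IrrCharacter G)
  (hθN : IsIrrCharacter N (fun n : N => (θ : G → ℂ) n))

include hθN in
/-- Gallagher: a character over the extendible `θ_N` is `θ` times an irreducible character of
`G / N` -/
theorem gallagher (ξ : IrrCharacter G)
    (hξ : classInner (fun n : N => (ξ : G → ℂ) n) (fun n : N => (θ : G → ℂ) n) ≠ 0) :
    IsIrrCharacter G (Cfsg.Agent.S0868.eta N (ξ : G → ℂ) (θ : G → ℂ)) ∧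
      (ξ : G → ℂ) = (θ : G → ℂ) * Cfsg.Agent.S0868.eta N (ξ : G → ℂ) (θ : G → ℂ) := by
  have hη : IsIrrCharacter G (Cfsg.Agent.S0868.eta N (ξ : G → ℂ) (θ : G → ℂ)) :=
    (Cfsg.Agent.S0868.result N (θ : G → ℂ) θ.2 hθN (ξ : G → ℂ) ξ.2 _ rfl).1 hξ
  refine ⟨hη, ?_⟩
  have hinvη : ∀ (g : G) (n : N), Cfsg.Agent.S0868.eta N (ξ : G → ℂ) (θ : G → ℂ) (n * g) =
      Cfsg.Agent.S0868.eta N (ξ : G → ℂ) (θ : G → ℂ) g :=
    fun g n => Cfsg.Agent.S0868.eta_mul_left N _ _ g n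
  have h1 := Cfsg.Agent.S0868.classInner_eta N (ξ : G → ℂ) (θ : G → ℂ) hinvη
  have h2 : classInner (Cfsg.Agent.S0868.eta N (ξ : G → ℂ) (θ : G → ℂ))
      (Cfsg.Agent.S0868.eta N (ξ : G → ℂ) (θ : G → ℂ)) = 1 := by
    have := Helper83.irr_orthonormal (⟨_, hη⟩ : IrrCharacter G) ⟨_, hη⟩
    simpa using this
  have hinvθ : ∀ (g : G) (n : N), (fun n : N => (θ : G → ℂ) n)
      ⟨g * n * g⁻¹, hN.conj_mem n n.2 g⟩ = (fun n : N => (θ : G → ℂ) n) n :=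
    fun g n => Helper83.irr_classFunction θ.2 n g
  obtain ⟨e, he⟩ := Helper4.res_eq_mul_of_invariant N hθN ξ.2 hξ hinvθ
  have h3 : Cfsg.Agent.S0868.eta N (ξ : G → ℂ) (θ : G → ℂ) 1 = e := by
    rw [Cfsg.Agent.S0868.eta_one]
    have h4 : (fun n : N => (ξ : G → ℂ) n) = (e : ℂ) • (fun n : N => (θ : G → ℂ) n) := by
      funext n
      simp [he n]
    rw [h4, Helper83.classInner_smul_left]
    have h5 := Helper83.irr_orthonormal (⟨_, hθN⟩ : IrrCharacter N) ⟨_, hθN⟩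
    rw [if_pos rfl] at h5
    rw [h5, mul_one]
  have hdeg : ((θ : G → ℂ) * Cfsg.Agent.S0868.eta N (ξ : G → ℂ) (θ : G → ℂ)) 1 =
      (ξ : G → ℂ) 1 := by
    rw [Pi.mul_apply, h3]
    have h6 := he 1
    rw [Subgroup.coe_one] at h6
    rw [h6]
    ring
  have hchar : IsCharacter G ((θ : G → ℂ) * Cfsg.Agent.S0868.eta N (ξ : G → ℂ) (θ : G → ℂ)) :=
    Helper35.isCharacter_mul (Helper35.isChar_of_irr θ.2) (Helper35.isChar_of_irr hη)
  have hinner : classInner ((θ : G → ℂ) * Cfsg.Agent.S0868.eta N (ξ : G → ℂ) (θ : G → ℂ))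
      (ξ : G → ℂ) ≠ 0 := by
    rw [Helper4.classInner_conj_symm, mul_comm, ← h1, h2]
    simp
  exact (Helper83.char_eq_irr_of_degree _ hchar ξ hinner hdeg).symm

include hθN in
theorem exists_defl (ξ : IrrCharacter G)
    (hξ : classInner (fun n : N => (ξ : G → ℂ) n) (fun n : N => (θ : G → ℂ) n) ≠ 0) :
    ∃ β : IrrCharacter (G ⧸ N), ∀ g : G, (β : G ⧸ N → ℂ) (g : G ⧸ N) =
      Cfsg.Agent.S0868.eta N (ξ : G → ℂ) (θ : G → ℂ) g := by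
  obtain ⟨hη, -⟩ := gallagher N θ hθN ξ hξ
  have hk : ∀ x ∈ N, Cfsg.Agent.S0868.eta N (ξ : G → ℂ) (θ : G → ℂ) x =
      Cfsg.Agent.S0868.eta N (ξ : G → ℂ) (θ : G → ℂ) 1 := by
    intro x hx
    have := Cfsg.Agent.S0868.eta_mul_left N (ξ : G → ℂ) (θ : G → ℂ) 1 ⟨x, hx⟩
    simpa using this
  obtain ⟨ψ, hψ, hψ1⟩ := Helper83.irr_deflate N hη hk
  exact ⟨⟨ψ, hψ⟩, hψ1⟩

/-- the Gallagher map `Irr(G | θ_N) → Irr(G / N)` -/
noncomputable def gmap (ξ : IrrCharacter G) : IrrCharacter (G ⧸ N) :=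
  if hξ : classInner (fun n : N => (ξ : G → ℂ) n) (fun n : N => (θ : G → ℂ) n) ≠ 0 then
    Classical.choose (exists_defl N θ hθN ξ hξ) else Helper83.trivIrr (G ⧸ N)

theorem gmap_apply (ξ : IrrCharacter G)
    (hξ : classInner (fun n : N => (ξ : G → ℂ) n) (fun n : N => (θ : G → ℂ) n) ≠ 0) (g : G) :
    (gmap N θ hθN ξ : G ⧸ N → ℂ) (g : G ⧸ N) =
      Cfsg.Agent.S0868.eta N (ξ : G → ℂ) (θ : G → ℂ) g := by
  unfold gmap
  rw [dif_pos hξ]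
  exact Classical.choose_spec (exists_defl N θ hθN ξ hξ) g

theorem gmap_one (ξ : IrrCharacter G)
    (hξ : classInner (fun n : N => (ξ : G → ℂ) n) (fun n : N => (θ : G → ℂ) n) ≠ 0) :
    (gmap N θ hθN ξ : G ⧸ N → ℂ) 1 =
      Cfsg.Agent.S0868.eta N (ξ : G → ℂ) (θ : G → ℂ) 1 :=
  gmap_apply N θ hθN ξ hξ 1

theorem gmap_inj (ξ₁ ξ₂ : IrrCharacter G)
    (h1 : classInner (fun n : N => (ξ₁ : G → ℂ) n) (fun n : N => (θ : G → ℂ) n) ≠ 0)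
    (h2 : classInner (fun n : N => (ξ₂ : G → ℂ) n) (fun n : N => (θ : G → ℂ) n) ≠ 0)
    (h : gmap N θ hθN ξ₁ = gmap N θ hθN ξ₂) : ξ₁ = ξ₂ := by
  have hη : Cfsg.Agent.S0868.eta N (ξ₁ : G → ℂ) (θ : G → ℂ) =
      Cfsg.Agent.S0868.eta N (ξ₂ : G → ℂ) (θ : G → ℂ) := by
    funext g
    rw [← gmap_apply N θ hθN ξ₁ h1 g, ← gmap_apply N θ hθN ξ₂ h2 g, h]
  apply Subtype.ext
  rw [(gallagher N θ hθN ξ₁ h1).2, (gallagher N θ hθN ξ₂ h2).2, hη]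

theorem gmap_formula (ξ : IrrCharacter G)
    (hξ : classInner (fun n : N => (ξ : G → ℂ) n) (fun n : N => (θ : G → ℂ) n) ≠ 0) (g : G) :
    (gmap N θ hθN ξ : G ⧸ N → ℂ) 1 * (gmap N θ hθN ξ : G ⧸ N → ℂ) (g : G ⧸ N) =
      ∑ n : N, (((θ : G → ℂ) 1 * (Fintype.card N : ℂ))⁻¹ * conj ((θ : G → ℂ) ((n : G) * g))) *
        ((ξ : G → ℂ) 1 * (ξ : G → ℂ) ((n : G) * g)) := by
  rw [gmap_one N θ hθN ξ hξ, gmap_apply N θ hθN ξ hξ g]
  have hprod := congrFun (gallagher N θ hθN ξ hξ).2 1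
  rw [Pi.mul_apply] at hprod
  have hθ1 : (θ : G → ℂ) 1 ≠ 0 := Helper83.irr_one_ne_zero θ.2
  have hc : (Fintype.card N : ℂ) ≠ 0 := by
    have : 0 < Fintype.card N := Fintype.card_pos
    exact_mod_cast this.ne'
  have h1 : Cfsg.Agent.S0868.eta N (ξ : G → ℂ) (θ : G → ℂ) 1 = (ξ : G → ℂ) 1 / (θ : G → ℂ) 1 := by
    rw [hprod]
    field_simp
  rw [h1]
  unfold Cfsg.Agent.S0868.eta
  rw [Nat.card_eq_fintype_card, Finset.mul_sum, Finset.mul_sum]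
  apply Finset.sum_congr rfl
  intro n _
  field_simp

theorem gmap_cent (Z : Subgroup G) (hZ : Z ≤ Subgroup.center G) (ξ₁ ξ₂ : IrrCharacter G)
    (h1 : classInner (fun n : N => (ξ₁ : G → ℂ) n) (fun n : N => (θ : G → ℂ) n) ≠ 0)
    (h2 : classInner (fun n : N => (ξ₂ : G → ℂ) n) (fun n : N => (θ : G → ℂ) n) ≠ 0)
    (hk1 : ∀ z ∈ Z, ∀ g : G, (ξ₁ : G → ℂ) (g * z) = (ξ₁ : G → ℂ) g)
    (hk2 : ∀ z ∈ Z, ∀ g : G, (ξ₂ : G → ℂ) (g * z) = (ξ₂ : G → ℂ) g) :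
    gmap N θ hθN ξ₂ ∈ centSet (Z.map (QuotientGroup.mk' N)) (gmap N θ hθN ξ₁) := by
  have key : ∀ ξ : IrrCharacter G, (∀ z ∈ Z, ∀ g : G, (ξ : G → ℂ) (g * z) = (ξ : G → ℂ) g) →
      ∀ z ∈ Z, Cfsg.Agent.S0868.eta N (ξ : G → ℂ) (θ : G → ℂ) z =
        conj ((θ : G → ℂ) z / (θ : G → ℂ) 1) *
          Cfsg.Agent.S0868.eta N (ξ : G → ℂ) (θ : G → ℂ) 1 := by
    intro ξ hk z hz
    have hθ1 : (θ : G → ℂ) 1 ≠ 0 := Helper83.irr_one_ne_zero θ.2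
    have e1 : ∀ n : N, (θ : G → ℂ) ((n : G) * z) =
        (θ : G → ℂ) z / (θ : G → ℂ) 1 * (θ : G → ℂ) n := by
      intro n
      have h3 := Helper83.irr_central_mul θ z (hZ hz) n
      rw [← Subgroup.mem_center_iff.mp (hZ hz) (n : G)] at h3
      field_simp
      rw [h3]
    show (Nat.card N : ℂ)⁻¹ * ∑ n : N, (ξ : G → ℂ) ((n : G) * z) *
        conj ((θ : G → ℂ) ((n : G) * z)) =
      conj ((θ : G → ℂ) z / (θ : G → ℂ) 1) * ((Nat.card N : ℂ)⁻¹ *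
        ∑ n : N, (ξ : G → ℂ) ((n : G) * 1) * conj ((θ : G → ℂ) ((n : G) * 1)))
    rw [Finset.mul_sum, Finset.mul_sum, Finset.mul_sum]
    apply Finset.sum_congr rfl
    intro n _
    rw [hk z hz, e1 n, mul_one, map_mul]
    ring
  rintro _ ⟨z, hz, rfl⟩
  show (gmap N θ hθN ξ₂ : G ⧸ N → ℂ) (z : G ⧸ N) * (gmap N θ hθN ξ₁ : G ⧸ N → ℂ) 1 =
    (gmap N θ hθN ξ₁ : G ⧸ N → ℂ) (z : G ⧸ N) * (gmap N θ hθN ξ₂ : G ⧸ N → ℂ) 1
  rw [gmap_one N θ hθN ξ₁ h1, gmap_one N θ hθN ξ₂ h2, gmap_apply N θ hθN ξ₁ h1 z,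
    gmap_apply N θ hθN ξ₂ h2 z, key ξ₁ hk1 z hz, key ξ₂ hk2 z hz]
  ring

include hθN in
/-- **The extendible case.** -/
theorem ext_case {p : ℕ} [hp : Fact p.Prime]
    (Z : Subgroup G) (hZ : Z ≤ Subgroup.center G) (hZp : (Nat.card Z).Coprime p)
    (Q : Subgroup (G ⧸ N)) [hQ : Q.Normal] (hQp : IsPGroup p Q)
    (hK : ∀ y : G ⧸ N, (∀ x ∈ Q, y * x * y⁻¹ * x⁻¹ ∈ (frattini Q).map Q.subtype) →
      y ∈ Q ⊔ Z.map (QuotientGroup.mk' N))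
    (U : Set (IrrCharacter G)) (hU : Vanishes p U)
    (hover : ∀ ξ ∈ U,
      classInner (fun n : N => (ξ : G → ℂ) n) (fun n : N => (θ : G → ℂ) n) ≠ 0)
    (hker : ∀ ξ ∈ U, ∀ z ∈ Z, ∀ g : G, (ξ : G → ℂ) (g * z) = (ξ : G → ℂ) g)
    (ξ₁ : IrrCharacter G) (hξ₁ : ξ₁ ∈ U) (ξ₂ : IrrCharacter G)
    (hξ₂o : classInner (fun n : N => (ξ₂ : G → ℂ) n) (fun n : N => (θ : G → ℂ) n) ≠ 0)
    (hξ₂k : ∀ z ∈ Z, ∀ g : G, (ξ₂ : G → ℂ) (g * z) = (ξ₂ : G → ℂ) g) : ξ₂ ∈ U := by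
  have hinj : Set.InjOn (gmap N θ hθN) U := fun a ha b hb hab =>
    gmap_inj N θ hθN a b (hover a ha) (hover b hb) hab
  have hU' : Vanishes p (gmap N θ hθN '' U) := by
    intro y hy
    obtain ⟨g, rfl⟩ := QuotientGroup.mk_surjective y
    rw [wsum_image_proj (gmap N θ hθN) U hinj (g : G ⧸ N) _ _
      (fun ξ hξ => gmap_formula N θ hθN ξ (hover ξ hξ) g)]
    apply Finset.sum_eq_zero
    intro n _
    have h1 : (QuotientGroup.mk' N) ((n : G) * g) = (g : G ⧸ N) := by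
      show (((n : G) * g : G) : G ⧸ N) = (g : G ⧸ N)
      rw [QuotientGroup.mk_mul, (QuotientGroup.eq_one_iff _).mpr n.2, one_mul]
    have h2 := orderOf_map_dvd (QuotientGroup.mk' N) ((n : G) * g)
    rw [h1] at h2
    rw [hU _ (hy.trans h2), mul_zero]
  have hsurj : Function.Surjective (QuotientGroup.mk' N) := QuotientGroup.mk'_surjective N
  have hZ₁ : Z.map (QuotientGroup.mk' N) ≤ Subgroup.center (G ⧸ N) := by
    rintro _ ⟨z, hz, rfl⟩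
    rw [Subgroup.mem_center_iff]
    intro y
    obtain ⟨g, rfl⟩ := hsurj y
    rw [← map_mul, ← map_mul, Subgroup.mem_center_iff.mp (hZ hz) g]
  have hZ₁p : (Nat.card (Z.map (QuotientGroup.mk' N))).Coprime p :=
    Nat.Coprime.coprime_dvd_left (Subgroup.card_map_dvd Z (QuotientGroup.mk' N)) hZp
  have hmem := tfrat Q hQp (Z.map (QuotientGroup.mk' N)) hZ₁ hZ₁p hK (gmap N θ hθN '' U) hU'
    (gmap N θ hθN ξ₁) ⟨ξ₁, hξ₁, rfl⟩ (gmap N θ hθN ξ₂)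
    (gmap_cent N θ hθN Z hZ ξ₁ ξ₂ (hover ξ₁ hξ₁) hξ₂o (hker ξ₁ hξ₁) hξ₂k)
  obtain ⟨ξ, hξU, hξeq⟩ := hmem
  have := gmap_inj N θ hθN ξ ξ₂ (hover ξ hξU) hξ₂o hξeq
  rw [← this]
  exact hξU

end gallagher

end Cfsg.Agent.Lib.Helper4.KO
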