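import Mathlib
import Cfsg.Agent.Lib.Helper4.KO4
import Cfsg.Agent.Lib.Helper4.KO5
import Cfsg.Agent.Lib.Helper4.IndFun
import Cfsg.Agent.Lib.Helper83.ProjDeg
import Cfsg.Agent.Lib.Helper83.Schur

/-!
# Kiyota–Okuyama, part 6 (helper4): an invariant character of `O_{p'}(G)`

* `proj_theta`, `vanishes_over`: projection to the characters lying over an invariant character
  of a normal `p'`-subgroup.
* `invariant_case`: `G` `p`-solvable, `θ ∈ Irr(O_{p'}(G))` invariant; a set `U` with vanishing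
  weighted sum containing a character over `θ` contains all of them.
-/

set_option autoImplicit false
set_option linter.style.haveILetI false

namespace Cfsg.Agent.Lib.Helper4.KO

open Cfsg
open scoped ComplexConjugate
open scoped Classical

variable {G : Type*} [Group G]

/-- characters lying over `θ` -/
def overSet (N : Subgroup G) [Fintype N] (θ : N → ℂ) : Set (IrrCharacter G) :=
  {χ | classInner (fun n : N => (χ : G → ℂ) n) θ ≠ 0}

theorem irr_comp_surj {A B : Type*} [Group A] [Group B] (f : A →* B)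
    (hf : Function.Surjective f) {χ : B → ℂ} (hχ : IsIrrCharacter B χ) :
    IsIrrCharacter A (fun a => χ (f a)) := by
  obtain ⟨n, ρ, hρ, rfl⟩ := hχ
  refine ⟨n, ρ.comp f, ?_, rfl⟩
  exact Helper83.irreducible_of_equiv ρ (ρ.comp f) (LinearEquiv.refl ℂ _) (fun b => by
    obtain ⟨a, rfl⟩ := hf b
    exact ⟨a, fun v => rfl⟩) hρ

theorem dvd_orderOf_map {A B : Type*} [Group A] [Group B] [Finite A] {p : ℕ}
    [hp : Fact p.Prime] (f : A →* B) (hk : (Nat.card f.ker).Coprime p) (a : A)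
    (ha : p ∣ orderOf a) : p ∣ orderOf (f a) := by
  by_contra hcon
  set m := orderOf (f a) with hm
  have h1 : a ^ m ∈ f.ker := by rw [MonoidHom.mem_ker, map_pow, pow_orderOf_eq_one]
  have h2 : (a ^ m) ^ Nat.card f.ker = 1 := by
    have := pow_card_eq_one' (G := f.ker) (x := ⟨a ^ m, h1⟩)
    exact congrArg Subtype.val this
  have h3 : orderOf a ∣ m * Nat.card f.ker :=
    orderOf_dvd_of_pow_eq_one (by rw [pow_mul]; exact h2)
  rcases (Nat.Prime.dvd_mul hp.out).mp (ha.trans h3) with h | h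
  · exact hcon h
  · exact hp.out.one_lt.ne' (Nat.Coprime.eq_one_of_dvd hk.symm h)

/-- central character identity for class-function weights -/
theorem sum_class_mul [Fintype G] (χ : IrrCharacter G) (c : G → ℂ)
    (hc : ∀ g h : G, c (h * g * h⁻¹) = c g) (x : G) :
    (∑ g : G, c g * (χ : G → ℂ) (x * g)) * (χ : G → ℂ) 1 =
      (∑ g : G, c g * (χ : G → ℂ) g) * (χ : G → ℂ) x := by
  have hcard : (Nat.card G : ℂ) ≠ 0 := by
    have : 0 < Nat.card G := Nat.card_pos
    exact_mod_cast this.ne'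
  have h1 : ∀ h : G, ∑ g : G, c g * (χ : G → ℂ) (x * (h * g * h⁻¹)) =
      ∑ g : G, c g * (χ : G → ℂ) (x * g) := by
    intro h
    rw [← Equiv.sum_comp (MulAut.conj h).toEquiv (fun g => c g * (χ : G → ℂ) (x * g))]
    apply Finset.sum_congr rfl
    intro g _
    simp only [MulEquiv.toEquiv_eq_coe, EquivLike.coe_coe, MulAut.conj_apply, hc]
  have key : (Nat.card G : ℂ) * ((∑ g : G, c g * (χ : G → ℂ) (x * g)) * (χ : G → ℂ) 1) =
      (Nat.card G : ℂ) * ((∑ g : G, c g * (χ : G → ℂ) g) * (χ : G → ℂ) x) := by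
    calc (Nat.card G : ℂ) * ((∑ g : G, c g * (χ : G → ℂ) (x * g)) * (χ : G → ℂ) 1)
        = (∑ h : G, ∑ g : G, c g * (χ : G → ℂ) (x * (h * g * h⁻¹))) * (χ : G → ℂ) 1 := by
          rw [Finset.sum_congr rfl (fun h _ => h1 h), Finset.sum_const, Finset.card_univ,
            nsmul_eq_mul, Nat.card_eq_fintype_card]
          ring
      _ = ∑ g : G, c g * ((∑ h : G, (χ : G → ℂ) (x * (h * g * h⁻¹))) * (χ : G → ℂ) 1) := by
          rw [Finset.sum_comm, Finset.sum_mul]
          apply Finset.sum_congr rfl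
          intro g _
          rw [← Finset.mul_sum]
          ring
      _ = ∑ g : G, c g * ((Nat.card G : ℂ) * (χ : G → ℂ) x * (χ : G → ℂ) g) := by
          apply Finset.sum_congr rfl
          intro g _
          rw [Helper83.irr_avg_conj χ.2 x g]
      _ = (Nat.card G : ℂ) * ((∑ g : G, c g * (χ : G → ℂ) g) * (χ : G → ℂ) x) := by
          rw [Finset.sum_mul, Finset.mul_sum]
          apply Finset.sum_congr rfl
          intro g _
          ring
  exact mul_left_cancel₀ hcard key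

/-- projection to the characters over an invariant irreducible character of a normal subgroup -/
theorem proj_theta [Finite G] (N : Subgroup G) [hN : N.Normal] [Fintype N] (θ : IrrCharacter N)
    (hinv : ∀ (g : G) (n : N),
      (θ : N → ℂ) ⟨g * n * g⁻¹, hN.conj_mem n n.2 g⟩ = (θ : N → ℂ) n)
    (x : G) (χ : IrrCharacter G) :
    ∑ n : N, ((Fintype.card N : ℂ)⁻¹ * (θ : N → ℂ) 1 * conj ((θ : N → ℂ) n)) *
        (χ : G → ℂ) (x * n) =
      if χ ∈ overSet N (θ : N → ℂ) then (χ : G → ℂ) x else 0 := by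
  let _ : Fintype G := Fintype.ofFinite G
  have hcN : (Fintype.card N : ℂ) ≠ 0 := by
    have : 0 < Fintype.card N := Fintype.card_pos
    exact_mod_cast this.ne'
  have hχ1 : (χ : G → ℂ) 1 ≠ 0 := Helper83.irr_one_ne_zero χ.2
  set c : G → ℂ := extendByZero N (fun n : N => conj ((θ : N → ℂ) n)) with hcdef
  have hc : ∀ g h : G, c (h * g * h⁻¹) = c g := by
    intro g h
    by_cases hg : g ∈ N
    · have hg' : h * g * h⁻¹ ∈ N := hN.conj_mem g hg h
      rw [hcdef, Helper4.extendByZero_apply_mem' N _ hg, Helper4.extendByZero_apply_mem' N _ hg']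
      exact congrArg conj (hinv h ⟨g, hg⟩)
    · have hg' : h * g * h⁻¹ ∉ N := by
        intro h1
        apply hg
        have := hN.conj_mem _ h1 h⁻¹
        simpa [mul_assoc] using this
      rw [hcdef, Helper4.extendByZero_apply_not_mem N _ hg,
        Helper4.extendByZero_apply_not_mem N _ hg']
  have h1 := sum_class_mul χ c hc x
  rw [hcdef, Helper4.sum_extendByZero_mul N _ (fun g => (χ : G → ℂ) (x * g)),
    Helper4.sum_extendByZero_mul N _ (fun g => (χ : G → ℂ) g)] at h1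
  have h2 : ∑ n : N, conj ((θ : N → ℂ) n) * (χ : G → ℂ) n =
      (Fintype.card N : ℂ) * classInner (fun n : N => (χ : G → ℂ) n) (θ : N → ℂ) := by
    unfold classInner
    rw [Nat.card_eq_fintype_card, ← mul_assoc, mul_inv_cancel₀ hcN, one_mul]
    apply Finset.sum_congr rfl
    intro n _
    ring
  rw [h2] at h1
  have h3 : ∑ n : N, ((Fintype.card N : ℂ)⁻¹ * (θ : N → ℂ) 1 * conj ((θ : N → ℂ) n)) *
        (χ : G → ℂ) (x * n) =
      (θ : N → ℂ) 1 * classInner (fun n : N => (χ : G → ℂ) n) (θ : N → ℂ) *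
        (χ : G → ℂ) x / (χ : G → ℂ) 1 := by
    have h4 : ∑ n : N, ((Fintype.card N : ℂ)⁻¹ * (θ : N → ℂ) 1 * conj ((θ : N → ℂ) n)) *
        (χ : G → ℂ) (x * n) = (Fintype.card N : ℂ)⁻¹ * (θ : N → ℂ) 1 *
          ∑ n : N, conj ((θ : N → ℂ) n) * (χ : G → ℂ) (x * n) := by
      rw [Finset.mul_sum]
      apply Finset.sum_congr rfl
      intro n _
      ring
    rw [h4, eq_div_iff hχ1, mul_assoc, h1]
    field_simp
  rw [h3]
  by_cases hover : χ ∈ overSet N (θ : N → ℂ)
  · rw [if_pos hover]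
    obtain ⟨e, he⟩ := Helper4.res_eq_mul_of_invariant N θ.2 χ.2 hover hinv
    have h5 : classInner (fun n : N => (χ : G → ℂ) n) (θ : N → ℂ) = e := by
      have h6 : (fun n : N => (χ : G → ℂ) n) = (e : ℂ) • (θ : N → ℂ) := by
        funext n
        simp [he n]
      rw [h6, Helper83.classInner_smul_left]
      have h7 := Helper83.irr_orthonormal θ θ
      rw [if_pos rfl] at h7
      rw [h7, mul_one]
    have h8 := he 1
    rw [Subgroup.coe_one] at h8
    have he0 : (e : ℂ) ≠ 0 := by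
      intro h0
      rw [h0, zero_mul] at h8
      exact hχ1 h8
    have hθ1 : (θ : N → ℂ) 1 ≠ 0 := Helper83.irr_one_ne_zero θ.2
    rw [h5, h8]
    field_simp
  · rw [if_neg hover]
    have : classInner (fun n : N => (χ : G → ℂ) n) (θ : N → ℂ) = 0 := by
      by_contra h
      exact hover h
    rw [this]
    simp

theorem vanishes_over [Finite G] {p : ℕ} [hp : Fact p.Prime] (N : Subgroup G) [hN : N.Normal]
    [Fintype N] (hNp : (Nat.card N).Coprime p) (θ : IrrCharacter N)
    (hinv : ∀ (g : G) (n : N),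
      (θ : N → ℂ) ⟨g * n * g⁻¹, hN.conj_mem n n.2 g⟩ = (θ : N → ℂ) n)
    {U : Set (IrrCharacter G)} (hU : Vanishes p U) :
    Vanishes p (U ∩ overSet N (θ : N → ℂ)) := by
  intro x hx
  rw [wsum_inter_proj U (overSet N (θ : N → ℂ)) x _ _ (proj_theta N θ hinv x)]
  apply Finset.sum_eq_zero
  intro n _
  rw [hU _ (dvd_orderOf_mul N hNp x n n.2 hx), mul_zero]

section lift

variable (N : Subgroup G) [hN : N.Normal] {d : ℕ} (σ : Representation ℂ N (Fin d → ℂ))

/-- the kernel of the lifting group is central -/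
theorem liftKer_le_center [hσ : σ.IsIrreducible] :
    (Helper83.liftFst N σ).ker ≤ Subgroup.center (Helper83.liftGroup N σ) := by
  intro x hx
  have hx' : x.1.1 = 1 := hx
  obtain ⟨c, hc, -⟩ := Helper83.liftGroup_scalar N σ x hx'
  rw [Subgroup.mem_center_iff]
  intro y
  apply Subtype.ext
  apply Prod.ext
  · show y.1.1 * x.1.1 = x.1.1 * y.1.1
    rw [hx', mul_one, one_mul]
  · apply Units.ext
    show (y.1.2 : Module.End ℂ (Fin d → ℂ)) * (x.1.2 : Module.End ℂ (Fin d → ℂ)) =
      (x.1.2 : Module.End ℂ (Fin d → ℂ)) * (y.1.2 : Module.End ℂ (Fin d → ℂ))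
    rw [hc, mul_smul_comm, smul_mul_assoc]
    congr 1

theorem liftKer_pow [hσ : σ.IsIrreducible] (x : Helper83.liftGroup N σ)
    (hx : x ∈ (Helper83.liftFst N σ).ker) : x ^ (d * Nat.card N) = 1 := by
  have hx' : x.1.1 = 1 := hx
  obtain ⟨c, hc, hc2⟩ := Helper83.liftGroup_scalar N σ x hx'
  apply Subtype.ext
  apply Prod.ext
  · show ((x ^ (d * Nat.card N) : Helper83.liftGroup N σ) :
      G × (Module.End ℂ (Fin d → ℂ))ˣ).1 = 1
    rw [Subgroup.coe_pow, Prod.pow_fst, hx', one_pow]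
  · apply Units.ext
    show ((((x ^ (d * Nat.card N) : Helper83.liftGroup N σ) :
      G × (Module.End ℂ (Fin d → ℂ))ˣ).2 : (Module.End ℂ (Fin d → ℂ))ˣ) :
        Module.End ℂ (Fin d → ℂ)) = 1
    rw [Subgroup.coe_pow, Prod.pow_snd, Units.val_pow_eq_pow_val, hc, smul_pow, hc2, one_smul]
    exact one_pow _

theorem liftKer_coprime [Finite G] [hσ : σ.IsIrreducible] (hd : 0 < d) {p : ℕ}
    [hp : Fact p.Prime] (hNp : (Nat.card N).Coprime p) (hdN : d ∣ Nat.card N) :
    (Nat.card (Helper83.liftFst N σ).ker).Coprime p := by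
  haveI : Finite (Helper83.liftGroup N σ) := Helper83.liftGroup_finite N σ hσ hd
  rw [Nat.coprime_comm, Nat.Prime.coprime_iff_not_dvd hp.out]
  intro hdvd
  obtain ⟨z, hz⟩ := exists_prime_orderOf_dvd_card' (G := (Helper83.liftFst N σ).ker) p hdvd
  have h1 : z ^ (d * Nat.card N) = 1 := Subtype.ext (by
    rw [Subgroup.coe_pow]
    exact liftKer_pow N σ z.1 z.2)
  have h2 : p ∣ d * Nat.card N := by
    rw [← hz]
    exact orderOf_dvd_of_pow_eq_one h1
  have h3 : p ∣ Nat.card N := by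
    rcases (Nat.Prime.dvd_mul hp.out).mp h2 with h | h
    · exact h.trans hdN
    · exact h
  exact hp.out.one_lt.ne' (Nat.Coprime.eq_one_of_dvd hNp.symm h3)

theorem classInner_lift [Fintype N] [Fintype (Helper83.liftN N σ)] (F : G → ℂ) :
    classInner (fun n : Helper83.liftN N σ =>
        F (Helper83.liftFst N σ (n : Helper83.liftGroup N σ)))
      (fun n : Helper83.liftN N σ =>
        (Helper83.liftRep N σ).character (n : Helper83.liftGroup N σ)) =
    classInner (fun n : N => F n) σ.character := by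
  let e : N ≃ Helper83.liftN N σ :=
    Equiv.ofBijective (fun n => ⟨Helper83.liftIncl N σ n, ⟨n, rfl⟩⟩)
      ⟨fun a b h => Helper83.liftIncl_injective N σ (congrArg Subtype.val h),
        fun ⟨x, ⟨n, hn⟩⟩ => ⟨n, Subtype.ext hn⟩⟩
  unfold classInner
  rw [Nat.card_congr e.symm]
  congr 1
  rw [← Equiv.sum_comp e]
  apply Finset.sum_congr rfl
  intro n _
  rfl

end lift

/-- **The invariant case.** -/
theorem invariant_case [Finite G] (p : ℕ) [hp : Fact p.Prime] (hsolv : IsPSolvable p G)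
    (N : Subgroup G) [hN : N.Normal] [Fintype N] (hNdef : N = pPrimeCore p G)
    (θ : IrrCharacter N)
    (hinv : ∀ (g : G) (n : N),
      (θ : N → ℂ) ⟨g * n * g⁻¹, hN.conj_mem n n.2 g⟩ = (θ : N → ℂ) n)
    (U : Set (IrrCharacter G)) (hU : Vanishes p U) (χ : IrrCharacter G) (hχU : χ ∈ U)
    (hχ : χ ∈ overSet N (θ : N → ℂ)) (ψ : IrrCharacter G)
    (hψ : ψ ∈ overSet N (θ : N → ℂ)) : ψ ∈ U := by
  have hNp : (Nat.card N).Coprime p := by
    rw [hNdef]
    exact Cfsg.Agent.Lib.Helper81.pPrimeCore_coprime p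
  have hS : IsPSolvable p (G ⧸ N) := Cfsg.Agent.Lib.Helper75.Fratt.isPSolvable_quotient N hsolv
  have hred : pPrimeCore p (G ⧸ N) = ⊥ := by
    subst hNdef
    exact Cfsg.Agent.Lib.Helper31.pPrimeCore_quotient_eq_bot p
  have hUθ := vanishes_over N hNp θ hinv hU
  obtain ⟨d, σ, hσ, hσθ⟩ := θ.2
  haveI := hσ
  have hd : 0 < d := by
    have hnt := Helper5.irr_nontrivial σ
    by_contra h0
    have hd0 : d = 0 := by omega
    subst hd0
    exact not_subsingleton (Fin 0 → ℂ) inferInstance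
  have hdN : d ∣ Nat.card N := by
    have h1 := Helper83.irr_degree θ.2
    have h2 : (θ : N → ℂ) 1 = (d : ℂ) := by
      rw [← hσθ, Representation.char_one]
      simp
    have h3 : charDegree (θ : N → ℂ) = d := by
      have h4 := h1.2
      rw [h2] at h4
      exact_mod_cast h4.symm
    rw [← h3]
    exact Helper83.irr_degree_dvd_card θ
  have hinvσ : ∀ (g : G) (n m : N), (m : G) = g * n * g⁻¹ →
      σ.character m = σ.character n := by
    intro g n m h
    rw [hσθ]
    have hm : m = ⟨g * n * g⁻¹, hN.conj_mem n n.2 g⟩ := Subtype.ext h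
    rw [hm]
    exact hinv g n
  haveI hfin : Finite (Helper83.liftGroup N σ) := Helper83.liftGroup_finite N σ hσ hd
  let _ : Fintype (Helper83.liftGroup N σ) := Fintype.ofFinite _
  let _ : Fintype (Helper83.liftN N σ) := Fintype.ofFinite _
  set π := Helper83.liftFst N σ with hπ
  have hπs : Function.Surjective π := Helper83.liftFst_surjective N σ hd hinvσ
  let θ' : IrrCharacter (Helper83.liftGroup N σ) :=
    ⟨(Helper83.liftRep N σ).character,
      Helper83.isIrrCharacter_of_irreducible _ (Helper83.liftRep_irreducible N σ hσ)⟩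
  have hθ'N : IsIrrCharacter (Helper83.liftN N σ)
      (fun n : Helper83.liftN N σ => (θ' : Helper83.liftGroup N σ → ℂ) n) :=
    Helper83.isIrrCharacter_of_irreducible (Helper83.liftRepN N σ)
      (Helper83.liftRepN_irreducible N σ hσ)
  have hZc := liftKer_le_center N σ
  have hZp : (Nat.card π.ker).Coprime p := liftKer_coprime N σ hd hNp hdN
  let τ : (Helper83.liftGroup N σ) ⧸ (Helper83.liftN N σ) →* G ⧸ N :=
    QuotientGroup.lift (Helper83.liftN N σ) ((QuotientGroup.mk' N).comp π) (by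
      rintro _ ⟨n, rfl⟩
      rw [MonoidHom.mem_ker]
      show (((n : G) : G) : G ⧸ N) = 1
      exact (QuotientGroup.eq_one_iff _).mpr n.2)
  have hτs : Function.Surjective τ := by
    intro s
    obtain ⟨g, rfl⟩ := QuotientGroup.mk_surjective s
    obtain ⟨x, rfl⟩ := hπs g
    exact ⟨(x : (Helper83.liftGroup N σ) ⧸ (Helper83.liftN N σ)), rfl⟩
  have hτk : τ.ker ≤ (π.ker).map (QuotientGroup.mk' (Helper83.liftN N σ)) := by
    intro y hy
    obtain ⟨x, rfl⟩ := QuotientGroup.mk_surjective y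
    have h1 : ((π x : G) : G ⧸ N) = 1 := MonoidHom.mem_ker.mp hy
    have h2 : π x ∈ N := (QuotientGroup.eq_one_iff _).mp h1
    refine ⟨x * (Helper83.liftIncl N σ ⟨π x, h2⟩)⁻¹, ?_, ?_⟩
    · rw [SetLike.mem_coe, MonoidHom.mem_ker, map_mul, map_inv]
      exact mul_inv_cancel (π x)
    · show ((x * (Helper83.liftIncl N σ ⟨π x, h2⟩)⁻¹ : Helper83.liftGroup N σ) :
          (Helper83.liftGroup N σ) ⧸ (Helper83.liftN N σ)) = (x : _ ⧸ _)
      have h3 : Helper83.liftIncl N σ ⟨π x, h2⟩ ∈ Helper83.liftN N σ := ⟨⟨π x, h2⟩, rfl⟩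
      rw [QuotientGroup.mk_mul, QuotientGroup.mk_inv,
        (QuotientGroup.eq_one_iff _).mpr h3, inv_one, mul_one]
  have hZ₁c : (π.ker).map (QuotientGroup.mk' (Helper83.liftN N σ)) ≤
      Subgroup.center ((Helper83.liftGroup N σ) ⧸ (Helper83.liftN N σ)) := by
    rintro _ ⟨z, hz, rfl⟩
    rw [Subgroup.mem_center_iff]
    intro y
    obtain ⟨g, rfl⟩ := QuotientGroup.mk'_surjective (Helper83.liftN N σ) y
    rw [← map_mul, ← map_mul, Subgroup.mem_center_iff.mp (hZc hz) g]
  obtain ⟨Q, hQn, hQp, hK⟩ := exists_frattini_sub τ hτs _ hZ₁c hτk hS hred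
  let infl : IrrCharacter G → IrrCharacter (Helper83.liftGroup N σ) := fun ξ =>
    ⟨fun x => (ξ : G → ℂ) (π x), irr_comp_surj π hπs ξ.2⟩
  have hinfl_inj : Function.Injective infl := by
    intro a b h
    apply Subtype.ext
    funext g
    obtain ⟨x, rfl⟩ := hπs g
    exact congrFun (congrArg Subtype.val h) x
  have hÛvan : Vanishes p (infl '' (U ∩ overSet N (θ : N → ℂ))) := by
    intro x hx
    rw [wsum_image infl _ hinfl_inj.injOn x]
    have h1 : ∑ᶠ ξ ∈ U ∩ overSet N (θ : N → ℂ),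
        (infl ξ : Helper83.liftGroup N σ → ℂ) 1 * (infl ξ : Helper83.liftGroup N σ → ℂ) x =
        wsum (U ∩ overSet N (θ : N → ℂ)) (π x) := by
      unfold wsum
      apply finsum_mem_congr rfl
      intro ξ _
      show (ξ : G → ℂ) (π 1) * (ξ : G → ℂ) (π x) = _
      rw [map_one]
    rw [h1]
    exact hUθ _ (dvd_orderOf_map π hZp x hx)
  have hoverlift : ∀ ξ : IrrCharacter G, ξ ∈ overSet N (θ : N → ℂ) →
      classInner (fun n : Helper83.liftN N σ => (infl ξ : Helper83.liftGroup N σ → ℂ) n)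
        (fun n : Helper83.liftN N σ => (θ' : Helper83.liftGroup N σ → ℂ) n) ≠ 0 := by
    intro ξ hξ
    have h1 := classInner_lift N σ (ξ : G → ℂ)
    rw [hσθ] at h1
    intro h0
    apply hξ
    rw [← h1]
    exact h0
  have hkerlift : ∀ ξ : IrrCharacter G, ∀ z ∈ π.ker, ∀ x : Helper83.liftGroup N σ,
      (infl ξ : Helper83.liftGroup N σ → ℂ) (x * z) =
        (infl ξ : Helper83.liftGroup N σ → ℂ) x := by
    intro ξ z hz x
    show (ξ : G → ℂ) (π (x * z)) = (ξ : G → ℂ) (π x)
    rw [map_mul, MonoidHom.mem_ker.mp hz, mul_one]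
  haveI := hQn
  have hmem := ext_case (Helper83.liftN N σ) θ' hθ'N π.ker hZc hZp Q hQp hK
    (infl '' (U ∩ overSet N (θ : N → ℂ))) hÛvan
    (by
      rintro _ ⟨ξ, hξ, rfl⟩
      exact hoverlift ξ hξ.2)
    (by
      rintro _ ⟨ξ, hξ, rfl⟩ z hz x
      exact hkerlift ξ z hz x)
    (infl χ) ⟨χ, ⟨hχU, hχ⟩, rfl⟩ (infl ψ) (hoverlift ψ hψ) (hkerlift ψ)
  obtain ⟨ξ, hξ, hξeq⟩ := hmem
  rw [← hinfl_inj hξeq]
  exact hξ.1

end Cfsg.Agent.Lib.Helper4.KO
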