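import Mathlib
import Cfsg.Agent.Lib.Helper4.KO6
import Cfsg.Agent.Lib.Helper33.FRChar
import Cfsg.Agent.Lib.Helper33.Fong
import Cfsg.Agent.Lib.Helper35.Ind
import Cfsg.Agent.Lib.Helper83.Induce

/-!
# Kiyota–Okuyama, part 7 (helper4): the Clifford correspondence

`T` the stabilizer of `θ ∈ Irr(N)`, `N` a normal `p'`-subgroup.  If the weighted sum of
`U ⊆ Irr(G)` vanishes on the `p`-singular elements, so does the weighted sum of the set
`cliffSet U` of the Clifford correspondents in `Irr(T | θ)` of the members of `U`.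
-/

set_option autoImplicit false

namespace Cfsg.Agent.Lib.Helper4.KO

open Cfsg
open scoped ComplexConjugate
open scoped Classical

section FR

variable {G : Type*} [Group G] [Fintype G] (N : Subgroup G) [hN : N.Normal] [Fintype N]
  (T : Subgroup G) [Fintype T] (hNT : N ≤ T) (θ : IrrCharacter N)
  (hst : Helper33.IsStab N T ({θ} : Set (IrrCharacter N)))

/-- the Clifford correspondence map -/
noncomputable def indMap (β : IrrCharacter T) : IrrCharacter G :=
  if h : Helper33.OverB N T hNT ({θ} : Set (IrrCharacter N)) (β : T → ℂ) then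
    ⟨indFun T (β : T → ℂ), Helper33.ind_irr N T hNT hst β h⟩ else Helper83.trivIrr G

theorem indMap_coe (β : IrrCharacter T)
    (h : Helper33.OverB N T hNT ({θ} : Set (IrrCharacter N)) (β : T → ℂ)) :
    (indMap N T hNT θ hst β : G → ℂ) = indFun T (β : T → ℂ) := by
  unfold indMap
  rw [dif_pos h]

/-- the Clifford correspondents of the members of `U` -/
def cliffSet (U : Set (IrrCharacter G)) : Set (IrrCharacter T) :=
  {β | Helper33.OverB N T hNT ({θ} : Set (IrrCharacter N)) (β : T → ℂ) ∧
    indMap N T hNT θ hst β ∈ U}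

include hst in
theorem proj_bT (β : IrrCharacter T) (t : T) :
    ∑ x : T, Helper33.bT N T ({θ} : Set (IrrCharacter N)) x * (β : T → ℂ) (t * x) =
      if Helper33.OverB N T hNT ({θ} : Set (IrrCharacter N)) (β : T → ℂ) then
        (β : T → ℂ) t else 0 := by
  have hcf := Helper33.bT_isClassFunction N T hst
  have h1 := sum_class_mul β (Helper33.bT N T ({θ} : Set (IrrCharacter N))) hcf t
  have h2 := Helper33.omega_bT_singleton N T hNT θ hcf β
  rw [Helper21.omega_def] at h2
  have hβ1 : (β : T → ℂ) 1 ≠ 0 := Helper83.irr_one_ne_zero β.2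
  have h3 : ∑ x : T, Helper33.bT N T ({θ} : Set (IrrCharacter N)) x * (β : T → ℂ) (t * x) =
      ((∑ x : T, Helper33.bT N T ({θ} : Set (IrrCharacter N)) x * (β : T → ℂ) x) /
        (β : T → ℂ) 1) * (β : T → ℂ) t := by
    field_simp
    rw [h1]
  rw [h3, h2]
  by_cases h : Helper33.OverB N T hNT ({θ} : Set (IrrCharacter N)) (β : T → ℂ)
  · have h' : classInner (Helper33.resN N T hNT (β : T → ℂ)) (θ : N → ℂ) ≠ 0 := by
      obtain ⟨θ', hθ', hne⟩ := h
      rw [Set.mem_singleton_iff] at hθ'
      rw [hθ'] at hne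
      exact hne
    rw [if_pos h, if_pos h', one_mul]
  · have h' : ¬ classInner (Helper33.resN N T hNT (β : T → ℂ)) (θ : N → ℂ) ≠ 0 :=
      fun hne => h ⟨θ, rfl, hne⟩
    rw [if_neg h, if_neg h', zero_mul]

theorem inner_res_indMap (χ' : IrrCharacter G) (β : IrrCharacter T)
    (h : Helper33.OverB N T hNT ({θ} : Set (IrrCharacter N)) (β : T → ℂ)) :
    classInner (fun t : T => (χ' : G → ℂ) t) (β : T → ℂ) =
      if χ' = indMap N T hNT θ hst β then 1 else 0 := by
  have h1 := Helper35.frobenius_reciprocity' T (β : T → ℂ) (χ' : G → ℂ)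
    (Helper4.isClassFunction_irr χ')
  rw [← indMap_coe N T hNT θ hst β h, Helper83.irr_orthonormal] at h1
  exact h1.symm

theorem proj_bT_res [Fintype (IrrCharacter T)] (χ' : IrrCharacter G) (t : T) :
    ∑ x : T, Helper33.bT N T ({θ} : Set (IrrCharacter N)) x * (χ' : G → ℂ) ((t * x : T) : G) =
      ∑ β : IrrCharacter T,
        if Helper33.OverB N T hNT ({θ} : Set (IrrCharacter N)) (β : T → ℂ) ∧
          χ' = indMap N T hNT θ hst β then (β : T → ℂ) t else 0 := by
  have hexp := Helper83.class_fun_expansion (G := T) (fun t : T => (χ' : G → ℂ) t)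
    (fun g x => by
      show (χ' : G → ℂ) ((x * g * x⁻¹ : T) : G) = (χ' : G → ℂ) (g : G)
      rw [Subgroup.coe_mul, Subgroup.coe_mul, Subgroup.coe_inv]
      exact Helper83.irr_classFunction χ'.2 (g : G) (x : G))
  have h1 : ∀ x : T, (χ' : G → ℂ) ((t * x : T) : G) = ∑ β : IrrCharacter T,
      classInner (fun t : T => (χ' : G → ℂ) t) (β : T → ℂ) * (β : T → ℂ) (t * x) := by
    intro x
    have h2 := congrFun hexp (t * x)
    simp only [Finset.sum_apply, Pi.smul_apply, smul_eq_mul] at h2
    exact h2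
  have h3 : (∑ x : T, Helper33.bT N T ({θ} : Set (IrrCharacter N)) x *
        (χ' : G → ℂ) ((t * x : T) : G)) =
      ∑ β : IrrCharacter T, classInner (fun t : T => (χ' : G → ℂ) t) (β : T → ℂ) *
        ∑ x : T, Helper33.bT N T ({θ} : Set (IrrCharacter N)) x * (β : T → ℂ) (t * x) := by
    rw [Finset.sum_congr rfl (fun x _ => by rw [h1 x])]
    simp only [Finset.mul_sum]
    rw [Finset.sum_comm]
    apply Finset.sum_congr rfl
    intro β _
    apply Finset.sum_congr rfl
    intro x _
    ring
  rw [h3]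
  apply Finset.sum_congr rfl
  intro β _
  rw [proj_bT N T hNT θ hst β t]
  by_cases h : Helper33.OverB N T hNT ({θ} : Set (IrrCharacter N)) (β : T → ℂ)
  · rw [if_pos h, inner_res_indMap N T hNT θ hst χ' β h]
    by_cases h2 : χ' = indMap N T hNT θ hst β
    · rw [if_pos h2, if_pos ⟨h, h2⟩, one_mul]
    · rw [if_neg h2, if_neg (fun hh => h2 hh.2), zero_mul]
  · rw [if_neg h, if_neg (fun hh => h hh.1), mul_zero]

theorem wsum_cliffSet [Fintype (IrrCharacter G)] [Fintype (IrrCharacter T)]
    (U : Set (IrrCharacter G)) (t : T) :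
    ∑ x : T, Helper33.bT N T ({θ} : Set (IrrCharacter N)) x * wsum U ((t * x : T) : G) =
      (T.index : ℂ) * wsum (cliffSet N T hNT θ hst U) t := by
  simp only [wsum_eq_sum]
  have hL : (∑ x : T, Helper33.bT N T ({θ} : Set (IrrCharacter N)) x *
        ∑ χ' : IrrCharacter G,
          if χ' ∈ U then (χ' : G → ℂ) 1 * (χ' : G → ℂ) ((t * x : T) : G) else 0) =
      ∑ χ' : IrrCharacter G, ∑ β : IrrCharacter T,
        (if χ' ∈ U ∧ Helper33.OverB N T hNT ({θ} : Set (IrrCharacter N)) (β : T → ℂ) ∧
          χ' = indMap N T hNT θ hst β then (χ' : G → ℂ) 1 * (β : T → ℂ) t else 0) := by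
    simp only [Finset.mul_sum]
    rw [Finset.sum_comm]
    apply Finset.sum_congr rfl
    intro χ' _
    by_cases hU : χ' ∈ U
    · have h1 : (∑ x : T, Helper33.bT N T ({θ} : Set (IrrCharacter N)) x *
          (if χ' ∈ U then (χ' : G → ℂ) 1 * (χ' : G → ℂ) ((t * x : T) : G) else 0)) =
          (χ' : G → ℂ) 1 * ∑ x : T, Helper33.bT N T ({θ} : Set (IrrCharacter N)) x *
            (χ' : G → ℂ) ((t * x : T) : G) := by
        rw [Finset.mul_sum]
        apply Finset.sum_congr rfl
        intro x _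
        rw [if_pos hU]
        ring
      rw [h1, proj_bT_res N T hNT θ hst χ' t, Finset.mul_sum]
      apply Finset.sum_congr rfl
      intro β _
      by_cases h2 : Helper33.OverB N T hNT ({θ} : Set (IrrCharacter N)) (β : T → ℂ) ∧
          χ' = indMap N T hNT θ hst β
      · rw [if_pos h2, if_pos ⟨hU, h2⟩]
      · rw [if_neg h2, if_neg (fun hh => h2 hh.2), mul_zero]
    · rw [Finset.sum_eq_zero, Finset.sum_eq_zero]
      · intro β _
        rw [if_neg (fun hh => hU hh.1)]
      · intro x _
        rw [if_neg hU, mul_zero]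
  rw [hL, Finset.sum_comm, Finset.mul_sum]
  apply Finset.sum_congr rfl
  intro β _
  by_cases hβ : β ∈ cliffSet N T hNT θ hst U
  · rw [if_pos hβ]
    obtain ⟨hov, hmem⟩ := hβ
    rw [Finset.sum_eq_single (indMap N T hNT θ hst β)]
    · rw [if_pos ⟨hmem, hov, rfl⟩, indMap_coe N T hNT θ hst β hov, Helper83.indFun_one]
      ring
    · intro χ' _ hne
      rw [if_neg (fun h => hne h.2.2)]
    · intro h
      exact absurd (Finset.mem_univ _) h
  · rw [if_neg hβ, mul_zero]
    apply Finset.sum_eq_zero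
    intro χ' _
    rw [if_neg]
    rintro ⟨hU, hov, rfl⟩
    exact hβ ⟨hov, hU⟩

theorem vanishes_cliffSet {p : ℕ} [hp : Fact p.Prime] (hNp : (Nat.card N).Coprime p)
    {U : Set (IrrCharacter G)} (hU : Vanishes p U) :
    Vanishes p (cliffSet N T hNT θ hst U) := by
  let _ : Fintype (IrrCharacter G) := Fintype.ofFinite _
  let _ : Fintype (IrrCharacter T) := Fintype.ofFinite _
  intro t ht
  have h1 := wsum_cliffSet N T hNT θ hst U t
  have h2 : ∑ x : T, Helper33.bT N T ({θ} : Set (IrrCharacter N)) x *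
      wsum U ((t * x : T) : G) = 0 := by
    apply Finset.sum_eq_zero
    intro x _
    by_cases hx : (x : G) ∈ N
    · have h3 : p ∣ orderOf ((t * x : T) : G) := by
        rw [Subgroup.coe_mul]
        exact dvd_orderOf_mul N hNp (t : G) (x : G) hx (by rw [Subgroup.orderOf_coe]; exact ht)
      rw [hU _ h3, mul_zero]
    · have h3 : Helper33.bT N T ({θ} : Set (IrrCharacter N)) x = 0 :=
        Helper4.extendByZero_apply_not_mem N _ hx
      rw [h3, zero_mul]
  rw [h2] at h1
  have hidx : (T.index : ℂ) ≠ 0 := by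
    exact_mod_cast (Subgroup.index_ne_zero_of_finite (H := T))
  exact (mul_eq_zero.mp h1.symm).resolve_left hidx

end FR

end Cfsg.Agent.Lib.Helper4.KO
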