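import Mathlib
import Cfsg.Prelude.Def_LieTypeChar
import Cfsg.Agent.Lib.Lead.LTBCore
import Cfsg.Agent.Lib.Lead.LTBDefs

/-!
S2363 (lead's project LTB), piece PSP: the order bound for `PSp_{2m}(F)`, `m ≥ 2`.
-/

set_option autoImplicit false

namespace Cfsg.Agent.Lib.Lead.LTB

open Cfsg

private theorem ltbpsp_sum (m : ℕ) : ∑ i ∈ Finset.range m, 2 * (i + 1) = m * (m + 1) := by
  induction m with
  | zero => simp
  | succ k ih => rw [Finset.sum_range_succ, ih]; ring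

private theorem ltbpsp_prod_lt (q m : ℕ) (hq : 2 ≤ q) (hm : 1 ≤ m) :
    ∏ i ∈ Finset.range m, (q ^ (2 * (i + 1)) - 1) < q ^ (m * (m + 1)) := by
  have h1 : ∏ i ∈ Finset.range m, (q ^ (2 * (i + 1)) - 1) <
      ∏ i ∈ Finset.range m, q ^ (2 * (i + 1)) := by
    apply Finset.prod_lt_prod_of_nonempty
    · intro i _
      have h2 : 2 ≤ q ^ (2 * (i + 1)) := by
        calc 2 ≤ q := hq
          _ = q ^ 1 := (pow_one q).symm
          _ ≤ q ^ (2 * (i + 1)) := Nat.pow_le_pow_right (by omega) (by omega)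
      omega
    · intro i _
      have h2 : 1 ≤ q ^ (2 * (i + 1)) := Nat.one_le_pow _ _ (by omega)
      omega
    · exact Finset.nonempty_range_iff.mpr (by omega)
  rwa [Finset.prod_pow_eq_pow_sum, ltbpsp_sum] at h1

theorem psp_stmt : PspStmt := by
  intro p hp F _ _ _ m hm hcard hZ
  obtain ⟨f, _, hq⟩ := FiniteField.card F p
  rw [hq] at hcard hZ
  have hq2 : 2 ≤ p ^ (f : ℕ) := by
    calc 2 ≤ p := hp.two_le
      _ = p ^ 1 := (pow_one p).symm
      _ ≤ p ^ (f : ℕ) := Nat.pow_le_pow_right hp.pos f.pos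
  have h1 : Nat.card (Matrix.symplecticGroup (Fin m) F) =
      Nat.card (PSp m F) * Nat.card (Subgroup.center (Matrix.symplecticGroup (Fin m) F)) :=
    Subgroup.card_eq_card_quotient_mul_card_subgroup _
  refine goal_of_q_mul_bounds p hp f (m ^ 2) (m * (m + 1)) (Nat.gcd 2 (p ^ (f : ℕ) - 1))
    (∏ i ∈ Finset.range m, ((p ^ (f : ℕ)) ^ (2 * (i + 1)) - 1)) ?_ ?_ ?_ ?_
  · intro hd
    have h2 : p ∣ p ^ (f : ℕ) - 1 := hd.trans (Nat.gcd_dvd_right _ _)
    have h3 : p ∣ p ^ (f : ℕ) := dvd_pow_self p f.pos.ne'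
    have h4 : p ∣ p ^ (f : ℕ) - (p ^ (f : ℕ) - 1) := Nat.dvd_sub h3 h2
    have h5 : p ^ (f : ℕ) - (p ^ (f : ℕ) - 1) = 1 := by omega
    rw [h5] at h4
    exact hp.one_lt.ne' (Nat.dvd_one.mp h4)
  · rw [← hZ, ← hcard, h1, mul_comm]
  · exact ltbpsp_prod_lt _ m hq2 (by omega)
  · nlinarith

end Cfsg.Agent.Lib.Lead.LTB
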