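import Cfsg.Agent.Lib.Helper4.BrMono5

set_option autoImplicit false

open Module Representation
open scoped ComplexConjugate

universe u

namespace Cfsg.Agent.Lib.Helper4

/-- In a nilpotent group, a proper subgroup `N` has an element `a ∉ N` which is central
modulo `N`. -/
theorem exists_central_mod {G : Type*} [Group G] [Group.IsNilpotent G] (N : Subgroup G)
    (hN : N ≠ ⊤) : ∃ a, a ∉ N ∧ ∀ x : G, x * a * x⁻¹ * a⁻¹ ∈ N := by
  classical
  obtain ⟨n, hn⟩ := Subgroup.nilpotent_iff_lowerCentralSeries.mp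
    (inferInstance : Group.IsNilpotent G)
  have hex : ∃ k, (⊤ : Subgroup G).lowerCentralSeries k ≤ N := ⟨n, by rw [hn]; exact bot_le⟩
  have hk := Nat.find_spec hex
  have hk0 : Nat.find hex ≠ 0 := by
    intro h0
    rw [h0, Subgroup.lowerCentralSeries_zero] at hk
    exact hN (top_le_iff.mp hk)
  obtain ⟨j, hj⟩ := Nat.exists_eq_succ_of_ne_zero hk0
  have hj' : ¬ (⊤ : Subgroup G).lowerCentralSeries j ≤ N := Nat.find_min hex (by omega)
  obtain ⟨a, haj, haN⟩ := SetLike.not_le_iff_exists.mp hj'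
  refine ⟨a, haN, fun x => ?_⟩
  have h1 : a * x * a⁻¹ * x⁻¹ ∈ (⊤ : Subgroup G).lowerCentralSeries (j + 1) := by
    rw [Subgroup.mem_lowerCentralSeries_succ_iff]
    exact Subgroup.subset_closure ⟨a, haj, x, Subgroup.mem_top x, rfl⟩
  rw [hj] at hk
  have h2 := N.inv_mem (hk h1)
  have h3 : (a * x * a⁻¹ * x⁻¹)⁻¹ = x * a * x⁻¹ * a⁻¹ := by group
  rwa [h3] at h2

section

variable {E : Type*} [Group E] [Fintype E]

/-- A nonlinear irreducible character of a nilpotent group is fixed by multiplication with a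
nontrivial linear character. -/
theorem exists_lin_stab_nilpotent [Group.IsNilpotent E] (χ : IrrCharacter E)
    (h1 : (χ : E → ℂ) 1 ≠ 1) :
    ∃ l : E →* ℂˣ, l ≠ 1 ∧ ∀ g, (l g : ℂ) * (χ : E → ℂ) g = (χ : E → ℂ) g := by
  classical
  obtain ⟨m, ρ, hρ, hχ⟩ := χ.2
  have hnt : Nontrivial (Fin m → ℂ) := Cfsg.Agent.Lib.Helper5.irr_nontrivial ρ
  obtain ⟨v0, hv0⟩ := exists_ne (0 : Fin m → ℂ)
  have hinj : ∀ c c' : ℂ, c • (LinearMap.id : (Fin m → ℂ) →ₗ[ℂ] (Fin m → ℂ)) = c' • LinearMap.id →
      c = c' := by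
    intro c c' h
    have h2 := congrArg (fun T : (Fin m → ℂ) →ₗ[ℂ] (Fin m → ℂ) => T v0) h
    simp only [LinearMap.smul_apply, LinearMap.id_apply] at h2
    have h3 : (c - c') • v0 = 0 := by rw [sub_smul, h2, sub_self]
    rcases smul_eq_zero.mp h3 with h4 | h4
    · exact sub_eq_zero.mp h4
    · exact absurd h4 hv0
  -- the subgroup acting by scalars
  let N : Subgroup E :=
    { carrier := {g | ∃ c : ℂ, ρ g = c • LinearMap.id}
      one_mem' := ⟨1, by rw [map_one, one_smul]; rfl⟩
      mul_mem' := by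
        rintro a b ⟨c, hc⟩ ⟨d, hd⟩
        refine ⟨c * d, ?_⟩
        rw [map_mul, hc, hd]
        refine LinearMap.ext fun v => ?_
        simp only [Module.End.mul_apply, LinearMap.smul_apply, LinearMap.id_apply, mul_smul]
      inv_mem' := by
        rintro a ⟨c, hc⟩
        refine ⟨c⁻¹, ?_⟩
        have h2 : ρ a⁻¹ * ρ a = 1 := by rw [← map_mul, inv_mul_cancel, map_one]
        rw [hc] at h2
        have h3 : c • ρ a⁻¹ = 1 := by
          rw [← h2]
          refine LinearMap.ext fun v => ?_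
          simp only [Module.End.mul_apply, LinearMap.smul_apply, LinearMap.id_apply, map_smul]
        have hc0 : c ≠ 0 := by
          rintro rfl
          rw [zero_smul] at h3
          have h4 := congrArg (fun T : (Fin m → ℂ) →ₗ[ℂ] (Fin m → ℂ) => T v0) h3
          simp only [LinearMap.zero_apply, Module.End.one_apply] at h4
          exact hv0 h4.symm
        calc ρ a⁻¹ = c⁻¹ • (c • ρ a⁻¹) := by rw [smul_smul, inv_mul_cancel₀ hc0, one_smul]
          _ = c⁻¹ • LinearMap.id := by rw [h3]; rfl }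
  have hNmem : ∀ g, g ∈ N ↔ ∃ c : ℂ, ρ g = c • LinearMap.id := fun g => Iff.rfl
  have hNtop : N ≠ ⊤ := by
    intro htop
    apply h1
    have hall : ∀ g : E, ∃ c : ℂ, ρ g = c • LinearMap.id := by
      intro g
      exact (hNmem g).mp (by rw [htop]; trivial)
    have hW : ∀ g : E, ∀ v ∈ Submodule.span ℂ ({v0} : Set (Fin m → ℂ)),
        ρ g v ∈ Submodule.span ℂ ({v0} : Set (Fin m → ℂ)) := by
      intro g v hv
      obtain ⟨c, hc⟩ := hall g
      rw [hc]
      simp only [LinearMap.smul_apply, LinearMap.id_apply]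
      exact Submodule.smul_mem _ _ hv
    rcases Cfsg.Agent.Lib.Helper5.irr_stable_eq_bot_or_top ρ _ hW with h | h
    · exact absurd (Submodule.span_singleton_eq_bot.mp h) hv0
    · have h2 : finrank ℂ (Fin m → ℂ) = 1 := by
        have h3 := finrank_span_singleton (K := ℂ) hv0
        rw [h] at h3
        rwa [finrank_top] at h3
      rw [← hχ, Representation.char_one, h2]
      simp
  obtain ⟨a, haN, hacomm⟩ := exists_central_mod N hNtop
  choose ω hω using fun x : E => (hNmem _).mp (hacomm x)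
  have hω1 : ω 1 = 1 := by
    apply hinj
    rw [← hω 1]
    have h2 : (1 : E) * a * 1⁻¹ * a⁻¹ = 1 := by group
    rw [h2, map_one, one_smul]
    rfl
  have hωmul : ∀ x y, ω (x * y) = ω x * ω y := by
    intro x y
    apply hinj
    rw [← hω (x * y)]
    have h2 : x * y * a * (x * y)⁻¹ * a⁻¹ = x * (y * a * y⁻¹ * a⁻¹) * x⁻¹ * (x * a * x⁻¹ * a⁻¹) := by
      group
    rw [h2, map_mul, map_mul, map_mul, hω x, hω y]
    refine LinearMap.ext fun v => ?_
    have h3 : ∀ w, ρ x (ρ x⁻¹ w) = w := by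
      intro w
      rw [← Module.End.mul_apply, ← map_mul, mul_inv_cancel, map_one]
      rfl
    simp only [Module.End.mul_apply, LinearMap.smul_apply, LinearMap.id_apply, map_smul, h3,
      smul_smul]
  let μ0 : E →* ℂ := { toFun := ω, map_one' := hω1, map_mul' := hωmul }
  let μ : E →* ℂˣ := μ0.toHomUnits
  have hμ : ∀ x, (μ x : ℂ) = ω x := fun x => rfl
  refine ⟨μ, ?_, ?_⟩
  · intro hμ1
    apply haN
    rw [hNmem]
    apply Cfsg.Agent.Lib.Helper5.schur_scalar ρ (ρ a)
    intro g v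
    have h2 : ω g = 1 := by
      rw [← hμ g, hμ1]; rfl
    have h3 := hω g
    rw [h2, one_smul] at h3
    have h4 : g * a = (g * a * g⁻¹ * a⁻¹) * (a * g) := by group
    have h5 : ρ (g * a) = ρ (a * g) := by
      conv_lhs => rw [h4, map_mul, h3]
      exact one_mul _
    have h6 := congrArg (fun T : (Fin m → ℂ) →ₗ[ℂ] (Fin m → ℂ) => T v) h5
    simp only [map_mul, Module.End.mul_apply] at h6
    exact h6.symm
  · intro g
    rw [hμ g]
    have hcl := isClassFunction_irr χ g a
    have h2 : g = (g * a * g⁻¹ * a⁻¹) * (a * g * a⁻¹) := by group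
    have h3 : (χ : E → ℂ) g = ω g * (χ : E → ℂ) (a * g * a⁻¹) := by
      conv_lhs => rw [h2]
      rw [← hχ]
      show LinearMap.trace ℂ _ (ρ (g * a * g⁻¹ * a⁻¹ * (a * g * a⁻¹))) =
        ω g * LinearMap.trace ℂ _ (ρ (a * g * a⁻¹))
      rw [map_mul, hω g, smul_mul_assoc, map_smul, smul_eq_mul]
      rfl
    rw [hcl] at h3
    exact h3.symm

/-- A linear character stabilizing `χ` can be replaced by one of prime order. -/
theorem lin_stab_prime_of_lin_stab (χ : E → ℂ) (l : E →* ℂˣ) (hl1 : l ≠ 1)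
    (hl : ∀ g, (l g : ℂ) * χ g = χ g) :
    ∃ (μ : E →* ℂˣ) (r : ℕ), r.Prime ∧ orderOf μ = r ∧ ∀ g, (μ g : ℂ) * χ g = χ g := by
  have hpow : l ^ Nat.card E = 1 := by
    ext g
    rw [MonoidHom.pow_apply, ← map_pow, pow_card_eq_one', map_one]
    rfl
  have hord0 : orderOf l ≠ 0 := by
    have : IsOfFinOrder l := isOfFinOrder_iff_pow_eq_one.mpr ⟨Nat.card E, Nat.card_pos, hpow⟩
    exact (orderOf_pos_iff.mpr this).ne'
  have hord1 : orderOf l ≠ 1 := by
    intro h
    exact hl1 (orderOf_eq_one_iff.mp h)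
  refine ⟨l ^ (orderOf l / (orderOf l).minFac), (orderOf l).minFac, Nat.minFac_prime hord1,
    orderOf_pow_orderOf_div hord0 (Nat.minFac_dvd _), ?_⟩
  intro g
  have key : ∀ k : ℕ, (l g : ℂ) ^ k * χ g = χ g := by
    intro k
    induction k with
    | zero => simp
    | succ k ih =>
      rw [pow_succ, mul_assoc, hl g, ih]
  rw [MonoidHom.pow_apply, Units.val_pow_eq_pow_val]
  exact key _

end

/-- Irreducible characters of nilpotent groups are induced from linear characters. -/
theorem irr_monomial_nilpotent_aux :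
    ∀ (N : ℕ) (E : Type u) [Group E] [Fintype E], Nat.card E = N → Group.IsNilpotent E →
      ∀ χ : IrrCharacter E, ∃ (K : Subgroup E) (l : K →* ℂˣ),
        (χ : E → ℂ) = indFun K (fun k => (l k : ℂ)) := by
  intro N
  induction N using Nat.strong_induction_on with
  | _ N ih =>
  intro E _ _ hN hE χ
  classical
  by_cases h1 : (χ : E → ℂ) 1 = 1
  · obtain ⟨l, hl⟩ := linToIrr_bijective.2 ⟨χ, h1⟩
    have hχl : (χ : E → ℂ) = fun g => (l g : ℂ) := by
      have := congrArg (fun z : {χ : IrrCharacter E // (χ : E → ℂ) 1 = 1} => (z.1 : E → ℂ)) hl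
      exact this.symm
    refine ⟨⊤, l.comp (⊤ : Subgroup E).subtype, ?_⟩
    have := indFun_top (χ : E → ℂ) (isClassFunction_irr χ)
    rw [← this]
    congr 1
    funext k
    rw [hχl]
    rfl
  · obtain ⟨l0, hl01, hl0⟩ := exists_lin_stab_nilpotent χ h1
    obtain ⟨μ, r, hr, hμ, hstab⟩ := lin_stab_prime_of_lin_stab (χ : E → ℂ) l0 hl01 hl0
    have hidx : μ.ker.index = r := index_ker_of_orderOf_prime μ r hr hμ
    have hvan : ∀ g, g ∉ μ.ker → (χ : E → ℂ) g = 0 := by
      intro g hg
      have h2 : (μ g : ℂ) ≠ 1 := by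
        intro h
        apply hg
        rw [MonoidHom.mem_ker]
        exact Units.ext h
      have h3 : ((μ g : ℂ) - 1) * (χ : E → ℂ) g = 0 := by
        rw [sub_mul, hstab g, one_mul, sub_self]
      rcases mul_eq_zero.mp h3 with h | h
      · exact absurd (sub_eq_zero.mp h) h2
      · exact h
    obtain ⟨θ, hθ⟩ := exists_ind_of_vanish μ.ker r hr hidx χ hvan
    have hKel : Group.IsNilpotent μ.ker := Subgroup.isNilpotent μ.ker
    have hlt : Nat.card μ.ker < N := by
      have h2 := μ.ker.card_mul_index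
      rw [hidx, hN] at h2
      have h3 : 0 < Nat.card μ.ker := Nat.card_pos
      have h4 := hr.one_lt
      nlinarith
    obtain ⟨K', l', hl'⟩ := ih (Nat.card μ.ker) hlt μ.ker rfl hKel θ
    refine ⟨K'.map μ.ker.subtype, l'.comp
      ((K'.equivMapOfInjective μ.ker.subtype μ.ker.subtype_injective).symm : _ →* K'), ?_⟩
    rw [hθ, hl', indFun_indFun]
    rfl

/-- Irreducible characters of nilpotent groups are monomial. -/
theorem irr_monomial_nilpotent {E : Type u} [Group E] [Fintype E] [Group.IsNilpotent E]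
    (χ : IrrCharacter E) :
    ∃ (K : Subgroup E) (l : K →* ℂˣ), (χ : E → ℂ) = indFun K (fun k => (l k : ℂ)) :=
  irr_monomial_nilpotent_aux (Nat.card E) E rfl inferInstance χ

end Cfsg.Agent.Lib.Helper4
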