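import Mathlib
import Cfsg.Prelude.Def_GeometricClasses
import Cfsg.Prelude.Def_LieClassical

/-! Project OMP (architect helper71; S5814 / S5859), piece TRa (helper4): the conditions
`IsResidualCore` transport back along the reindexing isomorphism `glReindex e`. -/

set_option autoImplicit false
set_option linter.unusedSectionVars false

namespace Cfsg.Agent.Lib.Helper4.OMPTRa

open Matrix Cfsg.Geo

variable {n : ℕ} {F : Type*} [Field F] [Fintype F]
variable {κ : Type} [Fintype κ] [DecidableEq κ]

/-- the matrix of a reindexed element -/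
theorem tra_val (e : κ ≃ Fin n) (g : GL κ F) :
    ((glReindex e g : GL (Fin n) F) : Matrix (Fin n) (Fin n) F) =
      (g : Matrix κ κ F).submatrix e.symm e.symm := rfl

/-- reindexing preserves and reflects scalars -/
theorem tra_scalar_iff (e : κ ≃ Fin n) (g : GL κ F) :
    glReindex e g ∈ scalars (Fin n) F ↔ g ∈ scalars κ F := by
  rw [mem_scalars_iff, mem_scalars_iff]
  constructor
  · rintro ⟨c, hc⟩
    refine ⟨c, ?_⟩
    rw [tra_val] at hc
    ext i j
    have h1 := congrFun (congrFun hc (e i)) (e j)
    simpa [Matrix.one_apply] using h1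
  · rintro ⟨c, hc⟩
    refine ⟨c, ?_⟩
    rw [tra_val]
    ext i j
    have h1 := congrFun (congrFun hc (e.symm i)) (e.symm j)
    simpa [Matrix.one_apply] using h1

/-- the restriction of a group isomorphism to the preimage of a subgroup -/
def traEquiv {G G' : Type*} [Group G] [Group G'] (Φ : G ≃* G') (P' : Subgroup G') :
    ↥(P'.comap Φ.toMonoidHom) ≃* ↥P' where
  toFun x := ⟨Φ x.1, x.2⟩
  invFun y := ⟨Φ.symm y.1, by
    show Φ (Φ.symm y.1) ∈ P'
    rw [Φ.apply_symm_apply]
    exact y.2⟩
  left_inv x := Subtype.ext (Φ.symm_apply_apply x.1)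
  right_inv y := Subtype.ext (Φ.apply_symm_apply y.1)
  map_mul' x y := Subtype.ext (map_mul Φ x.1 y.1)

theorem traEquiv_val {G G' : Type*} [Group G] [Group G'] (Φ : G ≃* G') (P' : Subgroup G')
    (x : ↥(P'.comap Φ.toMonoidHom)) : ((traEquiv Φ P' x : ↥P') : G') = Φ x.1 := rfl

theorem traEquiv_symm_val {G G' : Type*} [Group G] [Group G'] (Φ : G ≃* G') (P' : Subgroup G')
    (y : ↥P') : (((traEquiv Φ P').symm y : ↥(P'.comap Φ.toMonoidHom)) : G) = Φ.symm y.1 := rfl

/-- the quotients modulo scalars correspond -/
noncomputable def traQuot (e : κ ≃ Fin n) (P' : Subgroup (GL (Fin n) F)) :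
    (↥(P'.comap (glReindex (F := F) e).toMonoidHom) ⧸
        (scalars κ F).subgroupOf (P'.comap (glReindex (F := F) e).toMonoidHom)) ≃*
      (↥P' ⧸ (scalars (Fin n) F).subgroupOf P') :=
  QuotientGroup.congr _ _ (traEquiv (glReindex (F := F) e) P') (by
    ext y
    constructor
    · rintro ⟨x, hx, rfl⟩
      rw [Subgroup.mem_subgroupOf]
      exact (tra_scalar_iff e x.1).mpr (Subgroup.mem_subgroupOf.mp hx)
    · intro hy
      rw [Subgroup.mem_subgroupOf] at hy
      refine ⟨(traEquiv (glReindex (F := F) e) P').symm y, ?_,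
        (traEquiv (glReindex (F := F) e) P').apply_symm_apply y⟩
      show (traEquiv (glReindex (F := F) e) P').symm y ∈
        (scalars κ F).subgroupOf (P'.comap (glReindex (F := F) e).toMonoidHom)
      rw [Subgroup.mem_subgroupOf]
      apply (tra_scalar_iff e _).mp
      rw [traEquiv_symm_val, MulEquiv.apply_symm_apply]
      exact hy)

/-- `mulVec` and reindexing -/
theorem tra_mulVec (e : κ ≃ Fin n) (M : Matrix κ κ F) (v : Fin n → F) :
    (M.submatrix e.symm e.symm) *ᵥ v = (M *ᵥ (v ∘ e)) ∘ e.symm := by
  ext i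
  simp only [Matrix.mulVec, dotProduct, Matrix.submatrix_apply, Function.comp_apply]
  exact Fintype.sum_equiv e.symm _ _ (fun j => by simp)

/-- TRa -/
theorem TRa (e : κ ≃ Fin n) (H : Subgroup (GL κ F)) (P' : Subgroup (GL (Fin n) F))
    (h : IsResidualCore (H.map (glReindex e).toMonoidHom) P') :
    IsResidualCore H (P'.comap (glReindex e).toMonoidHom) := by
  classical
  have hinj : Function.Injective (glReindex (F := F) e) := (glReindex e).injective
  have hsurj : Function.Surjective (glReindex (F := F) e) := (glReindex e).surjective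
  have hmem : ∀ x : GL κ F, x ∈ P'.comap (glReindex (F := F) e).toMonoidHom ↔
      glReindex e x ∈ P' := fun x => Iff.rfl
  have hmapP : (P'.comap (glReindex (F := F) e).toMonoidHom).map
      (glReindex (F := F) e).toMonoidHom = P' :=
    Subgroup.map_comap_eq_self_of_surjective hsurj P'
  have hmemH : ∀ g : GL κ F, g ∈ H → glReindex e g ∈ H.map (glReindex (F := F) e).toMonoidHom :=
    fun g hg => ⟨g, hg, rfl⟩
  -- every element of `matrixSet P'` is a reindexed element of `matrixSet P`
  have hset : ∀ s' ∈ matrixSet P', ∃ s ∈ matrixSet (P'.comap (glReindex (F := F) e).toMonoidHom),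
      s' = s.submatrix e.symm e.symm := by
    rintro _ ⟨g', hg', rfl⟩
    obtain ⟨g, rfl⟩ := hsurj g'
    exact ⟨(g : Matrix κ κ F), ⟨g, hg', rfl⟩, tra_val e g⟩
  refine ⟨?_, ?_, ?_, ?_, ?_, ?_, ?_, ?_⟩
  · -- le
    intro x hx
    obtain ⟨y, hy, hyx⟩ := h.le ((hmem x).mp hx)
    have hyx' : y = x := hinj hyx
    exact hyx' ▸ hy
  · -- normal
    intro g hg x hx
    rw [hmem] at hx ⊢
    rw [map_mul, map_mul, map_inv]
    exact h.normal _ (hmemH g hg) _ hx
  · -- perfect
    have h1 : (⁅P'.comap (glReindex (F := F) e).toMonoidHom,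
        P'.comap (glReindex (F := F) e).toMonoidHom⁆).map (glReindex (F := F) e).toMonoidHom =
        (P'.comap (glReindex (F := F) e).toMonoidHom).map (glReindex (F := F) e).toMonoidHom := by
      rw [Subgroup.map_commutator, hmapP]
      exact h.perfect
    exact Subgroup.map_injective (f := (glReindex (F := F) e).toMonoidHom) hinj h1
  · -- simple
    have hsimp := h.simple
    exact (traQuot e P').isSimpleGroup
  · -- nonabelian
    intro hcomm
    apply h.nonabelian
    refine ⟨⟨fun a b => ?_⟩⟩
    have h1 := hcomm.is_comm.comm ((traQuot e P').symm a) ((traQuot e P').symm b)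
    have h2 := congrArg (traQuot e P') h1
    rw [map_mul, map_mul, MulEquiv.apply_symm_apply, MulEquiv.apply_symm_apply] at h2
    exact h2
  · -- centralizer_scalar
    intro g hg hcen
    apply (tra_scalar_iff e g).mp
    apply h.centralizer_scalar _ (hmemH g hg)
    intro x' hx'
    obtain ⟨x, rfl⟩ := hsurj x'
    have h1 := (tra_scalar_iff e (g * x * g⁻¹ * x⁻¹)).mpr (hcen x hx')
    rw [map_mul, map_mul, map_mul, map_inv, map_inv] at h1
    exact h1
  · -- absIrred
    obtain ⟨hirr, hcomm⟩ := h.absIrred
    refine ⟨?_, ?_⟩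
    · intro W hW
      have key := hirr (W.comap (LinearMap.funLeft F F e)) (by
        intro s' hs'
        obtain ⟨s, hs, rfl⟩ := hset s' hs'
        rintro _ ⟨v, hv, rfl⟩
        show LinearMap.funLeft F F e (Matrix.toLin' (s.submatrix e.symm e.symm) v) ∈ W
        have hv' : LinearMap.funLeft F F e v ∈ W := hv
        have h1 : LinearMap.funLeft F F e (Matrix.toLin' (s.submatrix e.symm e.symm) v) =
            Matrix.toLin' s (LinearMap.funLeft F F e v) := by
          rw [Matrix.toLin'_apply, Matrix.toLin'_apply, tra_mulVec]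
          ext i
          show (s *ᵥ (v ∘ e)) (e.symm (e i)) = (s *ᵥ (v ∘ e)) i
          rw [Equiv.symm_apply_apply]
        rw [h1]
        exact hW s hs (Submodule.mem_map_of_mem hv'))
      rcases key with h0 | h1
      · left
        rw [Submodule.eq_bot_iff]
        intro w hw
        have h2 : (w ∘ e.symm) ∈ W.comap (LinearMap.funLeft F F e) := by
          show LinearMap.funLeft F F e (w ∘ e.symm) ∈ W
          have h3 : LinearMap.funLeft F F e (w ∘ e.symm) = w := by
            ext i
            simp [LinearMap.funLeft_apply]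
          rw [h3]
          exact hw
        rw [h0, Submodule.mem_bot] at h2
        ext i
        have h4 := congrFun h2 (e i)
        simpa using h4
      · right
        rw [Submodule.eq_top_iff']
        intro w
        have h2 : (w ∘ e.symm) ∈ W.comap (LinearMap.funLeft F F e) := by
          rw [h1]
          trivial
        have h3 : LinearMap.funLeft F F e (w ∘ e.symm) = w := by
          ext i
          simp [LinearMap.funLeft_apply]
        have h4 : LinearMap.funLeft F F e (w ∘ e.symm) ∈ W := h2
        rw [h3] at h4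
        exact h4
    · intro M hM
      obtain ⟨c, hc⟩ := hcomm (M.submatrix e.symm e.symm) (by
        intro s' hs'
        obtain ⟨s, hs, rfl⟩ := hset s' hs'
        rw [Matrix.submatrix_mul_equiv, Matrix.submatrix_mul_equiv, hM s hs])
      refine ⟨c, ?_⟩
      ext i j
      have h1 := congrFun (congrFun hc (e i)) (e j)
      simpa [Matrix.one_apply] using h1
  · -- no_subfield
    intro F₀ hF₀ hreal
    apply h.no_subfield F₀ hF₀
    obtain ⟨B, hB⟩ := hreal
    refine ⟨glReindex e B, ?_⟩
    intro s' hs' i j
    obtain ⟨s, hs, rfl⟩ := hset s' hs'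
    have h1 : ((glReindex e B : GL (Fin n) F) : Matrix (Fin n) (Fin n) F) *
        s.submatrix e.symm e.symm *
        (((glReindex e B)⁻¹ : GL (Fin n) F) : Matrix (Fin n) (Fin n) F) =
        ((B : Matrix κ κ F) * s * ((B⁻¹ : GL κ F) : Matrix κ κ F)).submatrix e.symm e.symm := by
      rw [← map_inv, tra_val, tra_val, Matrix.submatrix_mul_equiv, Matrix.submatrix_mul_equiv]
    rw [h1]
    exact hB s hs (e.symm i) (e.symm j)

end Cfsg.Agent.Lib.Helper4.OMPTRa
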