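import Mathlib
import Cfsg.Prelude.Def_GeometricClasses
import Cfsg.Prelude.Def_Classical
import Cfsg.Agent.Lib.Helper18.OmegaTR

/-! S5981 (helper96), piece ORDSIM (helper4): similar quadratic forms have isometry groups of the
same cardinality. -/

set_option autoImplicit false

namespace Cfsg.Agent.Lib.Helper4.Oq

open Cfsg.Agent.Lib.Helper18.OmegaTR

theorem card_isometry_of_sim {F : Type*} [Field F] {n : ℕ} {ι' : Type} [Fintype ι']
    [DecidableEq ι'] (Q : (Fin n → F) → F) (Q' : (ι' → F) → F)
    (L : (Fin n → F) ≃ₗ[F] (ι' → F)) (c : F) (hc : c ≠ 0) (hL : ∀ v, Q' (L v) = c * Q v) :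
    Nat.card ↥(Cfsg.isometryGroup F Q) = Nat.card ↥(Cfsg.isometryGroup F Q') := by
  have heq : Cfsg.isometryGroup F Q = Cfsg.isometryGroup F (fun v => c * Q v) := by
    ext g
    rw [mem_isometryGroup_iff', mem_isometryGroup_iff']
    constructor
    · intro h x
      show c * Q _ = c * Q x
      rw [h x]
    · intro h x
      exact mul_left_cancel₀ hc (h x)
  obtain ⟨E⟩ := iso_transport (fun v => c * Q v) Q' L hL
  rw [heq]
  exact Nat.card_congr E.toEquiv

end Cfsg.Agent.Lib.Helper4.Oq
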