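import Mathlib
import Cfsg.Agent.Lib.Helper72.PQDefs
import Cfsg.Agent.S1545

/-!
# S4306, piece P6N (helper4 for helper72): the count via S1545 and the final contradiction
-/

set_option autoImplicit false

namespace Cfsg.Agent.Lib.Helper4.PQ

open Cfsg.Agent.Lib.Helper72.PQ

universe u

section Aux

variable {Γ : Type u} [Group Γ]

theorem p6n_mem_cent_zpowers {t c : Γ} :
    c ∈ Subgroup.centralizer ((Subgroup.zpowers t : Subgroup Γ) : Set Γ) ↔ t * c = c * t := by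
  constructor
  · intro h
    exact (Subgroup.mem_centralizer_iff.mp h) t (Subgroup.mem_zpowers t)
  · intro h
    rw [Subgroup.mem_centralizer_iff]
    intro x hx
    obtain ⟨k, rfl⟩ := Subgroup.mem_zpowers_iff.mp hx
    exact ((show Commute t c from h).zpow_left k).eq

theorem p6n_mem_cent_single {g c : Γ} :
    g ∈ Subgroup.centralizer ({c} : Set Γ) ↔ c * g = g * c := by
  rw [Subgroup.mem_centralizer_iff]
  constructor
  · intro h
    exact h c rfl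
  · intro h x hx
    rw [Set.mem_singleton_iff] at hx
    subst hx
    exact h

theorem p6n_two_mul_lt : ∀ n : ℕ, 3 ≤ n → 2 * n < 2 ^ n := by
  intro n hn
  induction n, hn using Nat.le_induction with
  | base => norm_num
  | succ n hn ih => rw [pow_succ]; omega

theorem p6n_card_sup [Finite Γ] {R T : Subgroup Γ}
    (hN : T ≤ Subgroup.normalizer (R : Set Γ)) (hRT : R ⊓ T = ⊥) :
    Nat.card ↥(R ⊔ T) = Nat.card R * Nat.card T := by
  rw [← Nat.card_prod]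
  symm
  apply Nat.card_congr
  refine Equiv.ofBijective (fun x : ↥R × ↥T => (⟨(x.1 : Γ) * (x.2 : Γ),
    mul_mem (le_sup_left (a := R) (b := T) x.1.2) (le_sup_right (a := R) (b := T) x.2.2)⟩ :
      ↥(R ⊔ T))) ⟨?_, ?_⟩
  · rintro ⟨⟨r, hr⟩, ⟨u, hu⟩⟩ ⟨⟨r', hr'⟩, ⟨u', hu'⟩⟩ h
    have h' : r * u = r' * u' := congrArg Subtype.val h
    have h1 : r'⁻¹ * r = u' * u⁻¹ := by
      rw [eq_mul_inv_iff_mul_eq, mul_assoc, h', inv_mul_cancel_left]
    have h2 : r'⁻¹ * r ∈ R ⊓ T := by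
      refine Subgroup.mem_inf.mpr ⟨mul_mem (inv_mem hr') hr, ?_⟩
      rw [h1]
      exact mul_mem hu' (inv_mem hu)
    rw [hRT, Subgroup.mem_bot] at h2
    have hrr : r = r' := (inv_mul_eq_one.mp h2).symm
    subst hrr
    have huu : u = u' := mul_left_cancel h'
    subst huu
    rfl
  · rintro ⟨g, hg⟩
    have hg' : g ∈ ((R ⊔ T : Subgroup Γ) : Set Γ) := hg
    rw [Subgroup.coe_mul_of_right_le_normalizer_left _ _ hN] at hg'
    obtain ⟨x, hx, y, hy, rfl⟩ := Set.mem_mul.mp hg'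
    exact ⟨(⟨x, hx⟩, ⟨y, hy⟩), rfl⟩

theorem p6n_card_prod [Finite Γ] {E C D Q : Subgroup Γ}
    (hcomm : ∀ e ∈ E, ∀ c ∈ C, e * c = c * e)
    (hEQ : E ≤ Q) (hCQ : C ≤ Q) (hdec : ∀ y ∈ Q, ∃ e ∈ E, ∃ c ∈ C, y = e * c)
    (hD : E ⊓ C = D) :
    Nat.card E * Nat.card C = Nat.card D * Nat.card Q := by
  obtain ⟨φ, hφ⟩ : ∃ φ : ↥E × ↥C →* Γ, ∀ x, φ x = (x.1 : Γ) * (x.2 : Γ) :=
    ⟨E.subtype.noncommCoprod C.subtype (fun e c => hcomm e e.2 c c.2), fun x => rfl⟩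
  have hrange : φ.range = Q := by
    apply le_antisymm
    · rintro _ ⟨x, rfl⟩
      rw [hφ]
      exact mul_mem (hEQ x.1.2) (hCQ x.2.2)
    · intro y hy
      obtain ⟨e, he, c, hc, rfl⟩ := hdec y hy
      exact ⟨(⟨e, he⟩, ⟨c, hc⟩), hφ _⟩
  have hker : Nat.card φ.ker = Nat.card D := by
    subst hD
    apply Nat.card_congr
    have hmem : ∀ x : ↥φ.ker, (x.1.1 : Γ) ∈ E ⊓ C := by
      intro x
      have hx := MonoidHom.mem_ker.mp x.2
      rw [hφ] at hx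
      refine Subgroup.mem_inf.mpr ⟨x.1.1.2, ?_⟩
      have h1 : (x.1.1 : Γ) = (x.1.2 : Γ)⁻¹ := eq_inv_of_mul_eq_one_left hx
      rw [h1]
      exact inv_mem x.1.2.2
    refine Equiv.ofBijective (fun x : ↥φ.ker => (⟨(x.1.1 : Γ), hmem x⟩ : ↥(E ⊓ C))) ⟨?_, ?_⟩
    · intro x y hxy
      have h1 : (x.1.1 : Γ) = (y.1.1 : Γ) := by
        have h0 := congrArg (fun z : ↥(E ⊓ C) => (z : Γ)) hxy
        exact h0
      have hx := MonoidHom.mem_ker.mp x.2
      have hy := MonoidHom.mem_ker.mp y.2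
      rw [hφ] at hx hy
      have h2 : (x.1.2 : Γ) = (y.1.2 : Γ) := by
        have e1 : (x.1.2 : Γ) = (x.1.1 : Γ)⁻¹ := eq_inv_of_mul_eq_one_right hx
        have e2 : (y.1.2 : Γ) = (y.1.1 : Γ)⁻¹ := eq_inv_of_mul_eq_one_right hy
        rw [e1, e2, h1]
      exact Subtype.ext (Prod.ext (Subtype.ext h1) (Subtype.ext h2))
    · rintro ⟨d, hd⟩
      obtain ⟨hdE, hdC⟩ := Subgroup.mem_inf.mp hd
      refine ⟨⟨(⟨d, hdE⟩, ⟨d⁻¹, inv_mem hdC⟩), ?_⟩, rfl⟩
      rw [MonoidHom.mem_ker, hφ]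
      exact mul_inv_cancel d
  have h1 := Subgroup.card_mul_index φ.ker
  rw [Subgroup.index_ker, hrange, Nat.card_prod, hker] at h1
  exact h1.symm

end Aux

/-- **P6N**: the count via S1545 and the final contradiction. -/
theorem p6n (h1 : P6AStmt.{u}) : P6NStmt.{u} := by
  intro Γ _ _ q r s ℓ M Q R₀ E t hP hEQ hEC hdec hDE hCE hq2 n hℓn hcardE
  obtain ⟨hA1, hA2, hA3, hA4⟩ := h1 Γ q r s ℓ M Q R₀ t hP
  subst hq2
  obtain ⟨T, hT⟩ : ∃ T : Subgroup Γ, T = Subgroup.zpowers t := ⟨_, rfl⟩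
  obtain ⟨C₀, hC₀⟩ : ∃ C₀ : Subgroup Γ, C₀ = Q ⊓ Subgroup.centralizer (T : Set Γ) := ⟨_, rfl⟩
  obtain ⟨Z₀, hZ₀⟩ : ∃ Z₀ : Subgroup Γ, Z₀ = Q ⊓ Subgroup.centralizer (R₀ : Set Γ) := ⟨_, rfl⟩
  have hℓp : ℓ.Prime := hP.hℓ
  have : Fact (Nat.Prime 2) := ⟨Nat.prime_two⟩
  have hℓF : Fact ℓ.Prime := ⟨hℓp⟩
  have hcardT : Nat.card T = ℓ := by rw [hT, Nat.card_zpowers, hP.ht]
  have memC₀ : ∀ c : Γ, c ∈ C₀ ↔ c ∈ Q ∧ t * c = c * t := by
    intro c
    rw [hC₀, hT, Subgroup.mem_inf, p6n_mem_cent_zpowers]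
  have memZ₀ : ∀ z : Γ, z ∈ Z₀ ↔ z ∈ Q ∧ ∀ x ∈ R₀, x * z = z * x := by
    intro z
    rw [hZ₀, Subgroup.mem_inf, Subgroup.mem_centralizer_iff]
    rfl
  have hC₀Q : C₀ ≤ Q := fun c hc => ((memC₀ c).mp hc).1
  have hZ₀Q : Z₀ ≤ Q := fun c hc => ((memZ₀ c).mp hc).1
  have hZC : Z₀ ≤ C₀ := by
    intro z hz
    obtain ⟨hzQ, hzR⟩ := (memZ₀ z).mp hz
    exact (memC₀ z).mpr ⟨hzQ, (hA3 z hzQ hzR).2⟩
  have hDQ : (⁅Q, Q⁆ : Subgroup Γ) ≤ Q := by
    rw [Subgroup.commutator_le]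
    intro a ha b hb
    rw [commutatorElement_def]
    exact mul_mem (mul_mem (mul_mem ha hb) (inv_mem ha)) (inv_mem hb)
  have hDC : (⁅Q, Q⁆ : Subgroup Γ) ≤ C₀ := fun d hd => (memC₀ d).mpr ⟨hDQ hd, hP.hDt d hd⟩
  have hQ1 : Q ≠ ⊥ := by
    intro h
    have hD := hP.hD
    rw [h, Subgroup.commutator_bot_left, Subgroup.card_bot] at hD
    omega
  have hR1 : R₀ ≠ ⊥ := by
    intro h
    have hQR := hP.hQR
    rw [h, Subgroup.commutator_bot_right] at hQR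
    exact hQ1 hQR.symm
  have ht1 : t ≠ 1 := by
    intro h
    have hto := hP.ht
    rw [h, orderOf_one] at hto
    exact hℓp.one_lt.ne hto
  have hT1 : T ≠ ⊥ := by
    rw [hT]
    intro h
    exact ht1 (Subgroup.zpowers_eq_bot.mp h)
  have hTN : T ≤ Subgroup.normalizer (R₀ : Set Γ) := by
    rw [hT, Subgroup.zpowers_le]
    exact hP.htR
  have hRT : R₀ ⊓ T = ⊥ := by
    rw [Subgroup.eq_bot_iff_forall]
    intro x hx
    obtain ⟨hxR, hxT⟩ := Subgroup.mem_inf.mp hx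
    rw [hT] at hxT
    obtain ⟨k, rfl⟩ := Subgroup.mem_zpowers_iff.mp hxT
    exact hP.hRt _ hxR ((Commute.refl t).zpow_right k).eq
  have hUn : ∀ e ∈ T, ∀ u ∈ R₀, e * u * e⁻¹ ∈ R₀ := by
    intro e he u hu
    exact ((Subgroup.mem_normalizer_iff.mp (hTN he)) u).mp hu
  have htT : t ∈ T := by
    rw [hT]
    exact Subgroup.mem_zpowers t
  have hfpf : ∀ e ∈ T, e ≠ 1 → ∀ u ∈ R₀, e * u = u * e → u = 1 := by
    intro e he he1 u hu heu
    have htop : Subgroup.zpowers (⟨e, he⟩ : ↥T) = ⊤ :=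
      zpowers_eq_top_of_prime_card hcardT (fun h => he1 (congrArg Subtype.val h))
    have hmem : (⟨t, htT⟩ : ↥T) ∈ Subgroup.zpowers (⟨e, he⟩ : ↥T) := by
      rw [htop]
      exact Subgroup.mem_top _
    obtain ⟨k, hk⟩ := Subgroup.mem_zpowers_iff.mp hmem
    have hk' : e ^ k = t := by
      have := congrArg Subtype.val hk
      simpa using this
    apply hP.hRt u hu
    rw [← hk']
    exact ((show Commute e u from heu).zpow_left k).eq
  have hHn : ∀ x ∈ R₀ ⊔ T, ∀ h ∈ Q, x * h * x⁻¹ ∈ Q := by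
    have hle : R₀ ⊔ T ≤ Subgroup.normalizer (Q : Set Γ) := by
      apply sup_le hP.hRQ
      rw [hT, Subgroup.zpowers_le]
      exact hP.htQ
    intro x hx h hh
    exact ((Subgroup.mem_normalizer_iff.mp (hle hx)) h).mp hh
  have hcardsup : Nat.card ↥(R₀ ⊔ T) = Nat.card R₀ * ℓ := by
    rw [p6n_card_sup hTN hRT, hcardT]
  obtain ⟨cQ, hcQ⟩ := (IsPGroup.iff_card (p := 2)).mp hP.hQq
  have hsF : Fact s.Prime := ⟨hP.hs⟩
  obtain ⟨cR, hcR⟩ := (IsPGroup.iff_card (p := s)).mp hP.hRs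
  have hcop : Nat.Coprime (Nat.card Q) (Nat.card ↥(R₀ ⊔ T)) := by
    rw [hcardsup, hcQ, hcR]
    apply Nat.Coprime.pow_left
    apply Nat.Coprime.mul_right
    · apply Nat.Coprime.pow_right
      exact (Nat.coprime_primes Nat.prime_two hP.hs).mpr hP.hqs
    · exact (Nat.coprime_primes Nat.prime_two hℓp).mpr (Ne.symm hP.hℓq)
  have hdisj : Q ⊓ (R₀ ⊔ T) = ⊥ := disjoint_iff.mp (Subgroup.disjoint_of_coprime_natCard hcop)
  have hnil : Group.IsNilpotent ↥Q := hP.hQq.isNilpotent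
  have hsolv : Group.IsSolvable ↥Q := inferInstance
  have key := Cfsg.Agent.S1545.result R₀ T Q hR1 hT1 hRT hUn hfpf hHn hdisj hsolv hcop
  have hZ1 : Q ⊓ Subgroup.centralizer ((R₀ ⊔ T : Subgroup Γ) : Set Γ) = Z₀ := by
    apply le_antisymm
    · intro z hz
      obtain ⟨hzQ, hzc⟩ := Subgroup.mem_inf.mp hz
      rw [memZ₀]
      refine ⟨hzQ, fun x hx => ?_⟩
      exact (Subgroup.mem_centralizer_iff.mp hzc) x (le_sup_left (a := R₀) (b := T) hx)
    · intro z hz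
      obtain ⟨hzQ, hzR⟩ := (memZ₀ z).mp hz
      have hzt := (hA3 z hzQ hzR).2
      refine Subgroup.mem_inf.mpr ⟨hzQ, ?_⟩
      rw [Subgroup.mem_centralizer_iff]
      have hle : R₀ ⊔ T ≤ Subgroup.centralizer ({z} : Set Γ) := by
        apply sup_le
        · intro x hx
          rw [p6n_mem_cent_single]
          exact (hzR x hx).symm
        · rw [hT, Subgroup.zpowers_le, p6n_mem_cent_single]
          exact hzt.symm
      intro x hx
      exact (p6n_mem_cent_single.mp (hle hx)).symm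
  rw [hZ1, hcardT, ← hC₀, ← hZ₀] at key
  -- the product count
  have hprod : Nat.card E * Nat.card C₀ = Nat.card (⁅Q, Q⁆ : Subgroup Γ) * Nat.card Q := by
    apply p6n_card_prod (fun e he c hc => hEC e he c ((memC₀ c).mp hc).1 ((memC₀ c).mp hc).2)
      hEQ hC₀Q
    · intro y hy
      obtain ⟨e, he, c, hc, htc, rfl⟩ := hdec y hy
      exact ⟨e, he, c, (memC₀ c).mpr ⟨hc, htc⟩, rfl⟩
    · apply le_antisymm
      · intro x hx
        obtain ⟨hxE, hxC⟩ := Subgroup.mem_inf.mp hx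
        exact hCE x hxE ((memC₀ x).mp hxC).2
      · exact le_inf hDE hDC
  obtain ⟨a, ha⟩ := (IsPGroup.iff_card (p := 2)).mp (hP.hQq.to_le hC₀Q)
  obtain ⟨b, hb⟩ := (IsPGroup.iff_card (p := 2)).mp (hP.hQq.to_le hZ₀Q)
  rw [hP.hD, hcardE, ha] at hprod
  rw [hb, ha] at key
  have hexp : b * 2 ^ n + 2 * n = a * 2 ^ n := by
    have h2 : (2:ℕ) ^ (b * ℓ + (2 * n + 1) + a) = 2 ^ (1 + a * ℓ + b) := by
      calc (2:ℕ) ^ (b * ℓ + (2 * n + 1) + a) = (2 ^ b) ^ ℓ * (2 ^ (2 * n + 1) * 2 ^ a) := by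
            rw [pow_add, pow_add, pow_mul, mul_assoc]
        _ = (2 ^ b) ^ ℓ * (2 * Nat.card Q) := by rw [hprod]
        _ = 2 * ((2 ^ b) ^ ℓ * Nat.card Q) := by ring
        _ = 2 * ((2 ^ a) ^ ℓ * 2 ^ b) := by rw [key]
        _ = 2 ^ (1 + a * ℓ + b) := by rw [pow_add, pow_add, pow_mul, pow_one, mul_assoc]
    have h3 := Nat.pow_right_injective (le_refl 2) h2
    rw [hℓn] at h3
    have e1 : b * (2 ^ n + 1) = b * 2 ^ n + b := by ring
    have e2 : a * (2 ^ n + 1) = a * 2 ^ n + a := by ring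
    rw [e1, e2] at h3
    omega
  have hn0 : n ≠ 0 := by
    rintro rfl
    exact hP.hℓq (by rw [hℓn]; norm_num)
  have hab : a = b + 1 := by
    rcases Nat.lt_or_ge n 3 with hn3 | hn3
    · have h12 : n = 1 ∨ n = 2 := by omega
      rcases h12 with rfl | rfl
      · norm_num at hexp
        omega
      · norm_num at hexp
        omega
    · exfalso
      have hlt := p6n_two_mul_lt n hn3
      have hle : a ≤ b := by
        by_contra hcon
        have h5 : (b + 1) * 2 ^ n ≤ a * 2 ^ n := Nat.mul_le_mul_right _ (by omega)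
        have e : (b + 1) * 2 ^ n = b * 2 ^ n + 2 ^ n := by ring
        omega
      have h6 : a * 2 ^ n ≤ b * 2 ^ n := Nat.mul_le_mul_right _ hle
      omega
  have hcardC : Nat.card C₀ = 2 * Nat.card Z₀ := by
    rw [ha, hb, hab, pow_succ, mul_comm]
  have hZpos : 0 < Nat.card Z₀ := Nat.card_pos
  -- `C₀` is abelian
  have hCab : ∀ c ∈ C₀, ∀ c' ∈ C₀, c * c' = c' * c := by
    intro c hc c' hc'
    by_cases hcZ : c ∈ Z₀
    · exact (hA3 c (hZ₀Q hcZ) ((memZ₀ c).mp hcZ).2).1 c' (hC₀Q hc')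
    · obtain ⟨K, hK⟩ : ∃ K : Subgroup Γ, K = C₀ ⊓ Subgroup.centralizer ({c} : Set Γ) :=
        ⟨_, rfl⟩
      have hZK : Z₀ ≤ K := by
        intro z hz
        rw [hK]
        refine Subgroup.mem_inf.mpr ⟨hZC hz, ?_⟩
        rw [p6n_mem_cent_single]
        exact ((hA3 z (hZ₀Q hz) ((memZ₀ z).mp hz).2).1 c (hC₀Q hc)).symm
      have hKC : K ≤ C₀ := by
        rw [hK]
        exact inf_le_left
      have hcK : c ∈ K := by
        rw [hK]
        exact Subgroup.mem_inf.mpr ⟨hc, p6n_mem_cent_single.mpr rfl⟩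
      obtain ⟨m, hm⟩ := Subgroup.card_dvd_of_le hZK
      have hdvd := Subgroup.card_dvd_of_le hKC
      rw [hm, hcardC, mul_comm 2 _] at hdvd
      have hm2 : m ∣ 2 := Nat.dvd_of_mul_dvd_mul_left hZpos hdvd
      rcases (Nat.dvd_prime Nat.prime_two).mp hm2 with rfl | rfl
      · exfalso
        have hKZ : Z₀ = K := Subgroup.eq_of_le_of_card_ge hZK (by rw [hm]; omega)
        exact hcZ (hKZ ▸ hcK)
      · have hKeq : K = C₀ := Subgroup.eq_of_le_of_card_ge hKC (by rw [hm, hcardC]; omega)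
        have hc'K : c' ∈ K := by
          rw [hKeq]
          exact hc'
        rw [hK] at hc'K
        exact p6n_mem_cent_single.mp (Subgroup.mem_inf.mp hc'K).2
  have hCZ : C₀ ≤ Z₀ := by
    intro c hc
    rw [memZ₀]
    refine ⟨hC₀Q hc, hA4 c (hC₀Q hc) ?_⟩
    intro y hy
    obtain ⟨e, he, c', hc'Q, htc', rfl⟩ := hdec y hy
    have hc'C : c' ∈ C₀ := (memC₀ c').mpr ⟨hc'Q, htc'⟩
    have h7 : e * c = c * e := hEC e he c (hC₀Q hc) ((memC₀ c).mp hc).2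
    calc c * (e * c') = (c * e) * c' := (mul_assoc _ _ _).symm
      _ = (e * c) * c' := by rw [h7]
      _ = e * (c * c') := mul_assoc _ _ _
      _ = e * (c' * c) := by rw [hCab c hc c' hc'C]
      _ = e * c' * c := (mul_assoc _ _ _).symm
  have hle := Subgroup.card_le_of_le hCZ
  omega

end Cfsg.Agent.Lib.Helper4.PQ
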