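import Mathlib
import Cfsg.Agent.Lib.Helper80.PrimSolDefs

/-!
# S5876 piece LA: `2 dim Fix(g) ≤ n + dim Fix([g, x])`
-/

set_option autoImplicit false
open Cfsg

namespace Cfsg.Agent.Lib.Helper4

open Matrix

/-- PIECE LA -/
theorem finrank_fix_comm_ge {F : Type*} [Field F] {n : ℕ} (g x : GL (Fin n) F) :
    2 * Module.finrank F (Module.End.eigenspace (Matrix.toLin' ((g : GL (Fin n) F) : Matrix (Fin n) (Fin n) F)) 1) ≤
      n + Module.finrank F (Module.End.eigenspace
        (Matrix.toLin' (((g * x * g⁻¹ * x⁻¹ : GL (Fin n) F)) : Matrix (Fin n) (Fin n) F)) 1) := by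
  set W := Module.End.eigenspace
    (Matrix.toLin' ((g : GL (Fin n) F) : Matrix (Fin n) (Fin n) F)) 1 with hW
  set W' := W.map (Matrix.toLin' ((x : GL (Fin n) F) : Matrix (Fin n) (Fin n) F)) with hW'
  have hinj : Function.Injective
      (Matrix.toLin' ((x : GL (Fin n) F) : Matrix (Fin n) (Fin n) F)) := by
    intro v w hvw
    have h1 := congrArg
      (fun u => ((x⁻¹ : GL (Fin n) F) : Matrix (Fin n) (Fin n) F) *ᵥ u) hvw
    simp only [Matrix.toLin'_apply, Matrix.mulVec_mulVec] at h1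
    rwa [← Units.val_mul, inv_mul_cancel, Units.val_one, Matrix.one_mulVec,
      Matrix.one_mulVec] at h1
  have hfr : Module.finrank F W' = Module.finrank F W :=
    (Submodule.equivMapOfInjective _ hinj W).finrank_eq.symm
  have hle : W ⊓ W' ≤ Module.End.eigenspace
      (Matrix.toLin' (((g * x * g⁻¹ * x⁻¹ : GL (Fin n) F)) : Matrix (Fin n) (Fin n) F)) 1 := by
    rintro v ⟨hv1, w, hw, rfl⟩
    rw [SetLike.mem_coe, hW, Cfsg.Agent.Lib.Helper80.mem_eigenspace_one_iff] at hv1 hw
    rw [Cfsg.Agent.Lib.Helper80.mem_eigenspace_one_iff]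
    simp only [Matrix.toLin'_apply] at hv1 ⊢
    have hginv : ((g⁻¹ : GL (Fin n) F) : Matrix (Fin n) (Fin n) F) *ᵥ w = w := by
      conv_lhs => rw [← hw]
      rw [Matrix.mulVec_mulVec, ← Units.val_mul, inv_mul_cancel, Units.val_one,
        Matrix.one_mulVec]
    have hxinv : ((x⁻¹ : GL (Fin n) F) : Matrix (Fin n) (Fin n) F) *ᵥ
        (((x : GL (Fin n) F) : Matrix (Fin n) (Fin n) F) *ᵥ w) = w := by
      rw [Matrix.mulVec_mulVec, ← Units.val_mul, inv_mul_cancel, Units.val_one,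
        Matrix.one_mulVec]
    rw [Units.val_mul, Units.val_mul, Units.val_mul, ← Matrix.mulVec_mulVec,
      ← Matrix.mulVec_mulVec, ← Matrix.mulVec_mulVec, hxinv, hginv, hv1]
  have h1 := Submodule.finrank_sup_add_finrank_inf_eq W W'
  have h2 : Module.finrank F ↥(W ⊔ W') ≤ n := by
    have h4 := Submodule.finrank_le (W ⊔ W')
    rwa [Module.finrank_fin_fun] at h4
  have h3 := Submodule.finrank_mono hle
  omega

end Cfsg.Agent.Lib.Helper4
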