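import Mathlib
import Cfsg.Prelude.Def_RootSubgroups
import Cfsg.Agent.Lib.Helper12.RootInv
import Cfsg.Agent.Lib.Helper20.RI1
import Cfsg.Agent.Lib.Helper20.RI6
import Cfsg.Agent.Lib.Helper92.RILEMN
import Cfsg.Agent.Lib.Helper42.RTDefs

set_option autoImplicit false

namespace Cfsg.Agent.Lib.Helper4.RT

open Cfsg Cfsg.Agent.Lib.Helper12.RootInv Cfsg.Agent.Lib.Helper20.RI

variable {G : Type*} [Group G]

/-- PIECE ORD3. -/
theorem order_three {D : Set G} (hD : IsRootInvolutionSet D) {a b n x : G} (ha : a ∈ D)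
    (hb : b ∈ D) (hn : n ∈ D) (hx : x ∈ D) (hab : a * b = b * a) (habD : a * b ∈ D)
    (h1 : (a * n) ^ 2 = b) (h2 : (b * x) ^ 2 = n) : orderOf (a * x) = 3 := by
  have ha2 := ri_sq hD ha
  have hb2 := ri_sq hD hb
  have hn2 := ri_sq hD hn
  have hx2 := ri_sq hD hx
  have hb1 := ri_ne_one hD hb
  have h4 : (a * n) ^ 4 = 1 := by
    have : (a * n) ^ 4 = ((a * n) ^ 2) ^ 2 := by rw [← pow_mul]
    rw [this, h1, pow_two, hb2]
  have h4' : (b * x) ^ 4 = 1 := by
    have : (b * x) ^ 4 = ((b * x) ^ 2) ^ 2 := by rw [← pow_mul]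
    rw [this, h2, pow_two, hn2]
  have e_nb : n * b = b * n := by
    have := sq_comm_right ha2 hn2 h4
    rwa [h1] at this
  have e_ana : a * n * a = b * n := by
    have := inv_sq_right (a := a) hn2
    rw [h1] at this
    exact this.symm
  have e_xn : x * n = n * x := by
    have := sq_comm_right hb2 hx2 h4'
    rwa [h2] at this
  have e_xbx : x * b * x = b * n := by
    have := inv_sq_left (b := x) hb2
    rw [h2] at this
    exact this.symm
  have hbnD : b * n ∈ D := by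
    rw [← e_ana]
    have := hD.conj_mem n hn a
    rwa [ri_inv hD ha] at this
  have hbn : b ≠ n := by
    intro h
    apply ri_ne_one hD hbnD
    rw [h, hn2]
  obtain ⟨σ, hσ⟩ : ∃ σ, σ = a * x := ⟨_, rfl⟩
  have hσinv : σ⁻¹ = x * a := by
    rw [hσ, mul_inv_rev, ri_inv hD hx, ri_inv hD ha]
  have hc1 : σ * n * σ⁻¹ = b * n := by
    rw [hσinv, hσ]
    calc a * x * n * (x * a) = a * (x * n) * x * a := by simp only [mul_assoc]
      _ = a * (n * x) * x * a := by rw [e_xn]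
      _ = a * n * (x * x) * a := by simp only [mul_assoc]
      _ = a * n * a := by rw [hx2, mul_one]
      _ = b * n := e_ana
  have hc3 : σ * b * σ⁻¹ = n := by
    rw [hσinv, hσ]
    calc a * x * b * (x * a) = a * (x * b * x) * a := by simp only [mul_assoc]
      _ = a * (b * n) * a := by rw [e_xbx]
      _ = (a * b) * n * a := by simp only [mul_assoc]
      _ = (b * a) * n * a := by rw [hab]
      _ = b * (a * n * a) := by simp only [mul_assoc]
      _ = b * (b * n) := by rw [e_ana]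
      _ = (b * b) * n := by simp only [mul_assoc]
      _ = n := by rw [hb2, one_mul]
  have hc2 : σ * (b * n) * σ⁻¹ = b := by
    calc σ * (b * n) * σ⁻¹ = (σ * b * σ⁻¹) * (σ * n * σ⁻¹) := by group
      _ = n * (b * n) := by rw [hc3, hc1]
      _ = b := by rw [← mul_assoc, e_nb, mul_assoc, hn2, mul_one]
  have s2 : σ ^ 2 = σ * σ := pow_two σ
  have s3 : σ ^ 3 = σ * σ * σ := by rw [pow_succ, pow_two]
  have s4 : σ ^ 4 = σ * σ * σ * σ := by rw [pow_succ, pow_succ, pow_two]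
  have s6 : σ ^ 6 = σ * σ * σ * (σ * σ * σ) := by rw [← s3, ← pow_add]
  have hp2 : σ ^ 2 * n * (σ ^ 2)⁻¹ = b := by
    rw [s2]
    calc σ * σ * n * (σ * σ)⁻¹ = σ * (σ * n * σ⁻¹) * σ⁻¹ := by group
      _ = σ * (b * n) * σ⁻¹ := by rw [hc1]
      _ = b := hc2
  have hp3n : σ ^ 3 * n * (σ ^ 3)⁻¹ = n := by
    rw [s2] at hp2
    rw [s3]
    calc σ * σ * σ * n * (σ * σ * σ)⁻¹ = σ * (σ * σ * n * (σ * σ)⁻¹) * σ⁻¹ := by group
      _ = σ * b * σ⁻¹ := by rw [hp2]
      _ = n := hc3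
  have hp3b : σ ^ 3 * b * (σ ^ 3)⁻¹ = b := by
    rw [s2] at hp2
    rw [s3]
    calc σ * σ * σ * b * (σ * σ * σ)⁻¹ = σ * σ * (σ * b * σ⁻¹) * (σ * σ)⁻¹ := by group
      _ = σ * σ * n * (σ * σ)⁻¹ := by rw [hc3]
      _ = b := hp2
  have hp4 : σ ^ 4 * n * (σ ^ 4)⁻¹ = b * n := by
    rw [s3] at hp3n
    rw [s4]
    calc σ * σ * σ * σ * n * (σ * σ * σ * σ)⁻¹
        = σ * (σ * σ * σ * n * (σ * σ * σ)⁻¹) * σ⁻¹ := by group
      _ = σ * n * σ⁻¹ := by rw [hp3n]
      _ = b * n := hc1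
  have hσ1 : σ ≠ 1 := by
    intro h
    rw [h] at hc1
    apply hb1
    have : n = b * n := by simpa using hc1
    exact (mul_eq_right.mp this.symm)
  rw [← hσ]
  rcases hD.pair a ha x hx with h | h | ⟨h, -⟩
  · exfalso
    have hs := sq_of_comm hD ha hx h
    have hs2 : σ ^ 2 = 1 := by rw [pow_two, hσ]; exact hs
    rw [hs2] at hp2
    apply hbn
    have : n = b := by simpa using hp2
    exact this.symm
  · rw [← hσ] at h
    obtain ⟨t, htdef⟩ : ∃ t, t = σ ^ 3 := ⟨_, rfl⟩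
    have hrefl : a * σ * a = σ⁻¹ := by rw [hσ]; exact refl_mul ha2 hx2
    have ht : a * t * a = t⁻¹ := by
      have h3 : σ ^ (3 : ℤ) = σ ^ 3 := by norm_cast
      have := refl_zpow ha2 hrefl 3
      rw [zpow_neg, h3] at this
      rw [htdef]; exact this
    have hp3b' : t⁻¹ * b * t = b := by
      rw [htdef]
      calc (σ ^ 3)⁻¹ * b * σ ^ 3 = (σ ^ 3)⁻¹ * (σ ^ 3 * b * (σ ^ 3)⁻¹) * σ ^ 3 := by rw [hp3b]
        _ = b := by group
    have hp3bt : t * b * t⁻¹ = b := by rw [htdef]; exact hp3b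
    have ha₁D : t * a * t⁻¹ ∈ D := hD.conj_mem a ha t
    have ha₁b : (t * a * t⁻¹) * b = b * (t * a * t⁻¹) := by
      calc (t * a * t⁻¹) * b = t * a * (t⁻¹ * b * t) * t⁻¹ := by group
        _ = t * a * b * t⁻¹ := by rw [hp3b']
        _ = t * (a * b) * t⁻¹ := by group
        _ = t * (b * a) * t⁻¹ := by rw [hab]
        _ = (t * b * t⁻¹) * (t * a * t⁻¹) := by group
        _ = b * (t * a * t⁻¹) := by rw [hp3bt]
    have e : a * (t * a * t⁻¹) = (σ ^ 6)⁻¹ := by
      calc a * (t * a * t⁻¹) = (a * t * a) * t⁻¹ := by group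
        _ = t⁻¹ * t⁻¹ := by rw [ht]
        _ = (σ ^ 6)⁻¹ := by rw [htdef, s6, s3]; group
    have hodd : Odd (orderOf (a * (t * a * t⁻¹))) := by
      rw [e, orderOf_inv]
      exact Odd.of_dvd_nat h (orderOf_pow_dvd 6)
    have heq : a = t * a * t⁻¹ := l2 hD hb2 hb1 hab habD ha₁D ha₁b hodd
    have hta : a * t = t * a := eq_mul_inv_iff_mul_eq.mp heq
    have htt : t * t = 1 := by
      have : t⁻¹ = t := by
        rw [← ht, hta, mul_assoc, ha2, mul_one]
      calc t * t = t⁻¹ * t := by rw [this]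
        _ = 1 := inv_mul_cancel t
    have h6 : σ ^ (2 * 3) = 1 := by
      rw [htdef] at htt
      calc σ ^ (2 * 3) = σ ^ 3 * σ ^ 3 := by rw [← pow_add]
        _ = 1 := htt
    have d6 : orderOf σ ∣ 2 * 3 := orderOf_dvd_of_pow_eq_one h6
    have d3 : orderOf σ ∣ 3 := (Nat.Coprime.dvd_mul_left (Nat.coprime_two_right.mpr h)).mp d6
    have hσ3 : σ ^ 3 = 1 := orderOf_dvd_iff_pow_eq_one.mp d3
    haveI : Fact (Nat.Prime 3) := ⟨Nat.prime_three⟩
    exact orderOf_eq_prime hσ3 hσ1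
  · exfalso
    rw [← hσ] at h
    have hs4 : σ ^ 4 = 1 := by rw [← h]; exact pow_orderOf_eq_one _
    rw [hs4] at hp4
    apply hb1
    have : n = b * n := by simpa using hp4
    exact (mul_eq_right.mp this.symm)

end Cfsg.Agent.Lib.Helper4.RT
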