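import Mathlib

set_option autoImplicit false

namespace Cfsg.Agent.S496

theorem n10_c {G : Type*} [Group G] [Finite G] [IsSimpleGroup G] (h : Nat.card G = 720)
    (P Q : Sylow 3 G) (hPQ : P ≠ Q) (hT : Nat.card {s : G // s • P = P ∧ s • Q = Q} = 8)
    (hswap : ∃ g : G, g • P = Q ∧ g • Q = P)
    (huniq : ∀ a b : G, a • P = P → a • Q = Q → b • P = P → b • Q = Q → a ≠ 1 → b ≠ 1 →
        a ^ 2 = 1 → b ^ 2 = 1 → a = b)
    (ha : ∀ s : G, s • P = P → s • Q = Q → s ^ 8 = 1 → s ^ 4 = 1)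
    (hb : ∀ x : G, x • P = Q → x • Q = P → x ^ 4 = 1 → x ^ 2 = 1)
    (hd : ∀ u : G, u • P = Q → u • Q = P → u ^ 8 = 1 → u ^ 4 = 1) : False := by
  classical
  obtain ⟨T, hTdef⟩ : ∃ T : Subgroup G,
      T = MulAction.stabilizer G P ⊓ MulAction.stabilizer G Q := ⟨_, rfl⟩
  have hmem : ∀ s : G, s ∈ T ↔ s • P = P ∧ s • Q = Q := by
    intro s
    rw [hTdef, Subgroup.mem_inf, MulAction.mem_stabilizer_iff, MulAction.mem_stabilizer_iff]
  have hTcard : Nat.card T = 8 := by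
    rw [← hT]
    exact Nat.card_congr (Equiv.subtypeEquivRight hmem)
  -- (1)
  have h1 : ∀ s ∈ T, s ^ 4 = 1 := by
    intro s hs
    have h8 : s ^ 8 = 1 := by
      have := pow_card_eq_one' (G := ↥T) (x := ⟨s, hs⟩)
      rw [hTcard] at this
      exact congrArg Subtype.val this
    exact ha s ((hmem s).mp hs).1 ((hmem s).mp hs).2 h8
  -- (2)
  have h2 : ∀ x : G, x • P = Q → x • Q = P → x ^ 2 = 1 := by
    intro x hxP hxQ
    have hx2 : x ^ 2 ∈ T := by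
      refine (hmem _).mpr ⟨?_, ?_⟩
      · rw [pow_two, mul_smul, hxP, hxQ]
      · rw [pow_two, mul_smul, hxQ, hxP]
    have h8 : x ^ 8 = 1 := by
      have := h1 _ hx2
      rw [← pow_mul] at this
      exact this
    exact hb x hxP hxQ (hd x hxP hxQ h8)
  -- (3)
  obtain ⟨g, hgP, hgQ⟩ := hswap
  have hg2 : g * g = 1 := by rw [← pow_two]; exact h2 g hgP hgQ
  have hinv : ∀ s ∈ T, g * s * g = s⁻¹ := by
    intro s hs
    obtain ⟨hsP, hsQ⟩ := (hmem s).mp hs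
    have h := h2 (g * s) (by rw [mul_smul, hsP, hgP]) (by rw [mul_smul, hsQ, hgQ])
    rw [pow_two] at h
    have : g * s * g * s = 1 := by rw [← h]; group
    exact eq_inv_of_mul_eq_one_left this
  have hcomm : ∀ s₁ ∈ T, ∀ s₂ ∈ T, s₁ * s₂ = s₂ * s₁ := by
    intro s₁ hs₁ s₂ hs₂
    have e1 := hinv _ (T.mul_mem hs₁ hs₂)
    have e2 : g * (s₁ * s₂) * g = (g * s₁ * g) * (g * s₂ * g) := by
      calc g * (s₁ * s₂) * g = g * s₁ * 1 * s₂ * g := by group
        _ = g * s₁ * (g * g) * s₂ * g := by rw [hg2]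
        _ = (g * s₁ * g) * (g * s₂ * g) := by group
    rw [e2, hinv s₁ hs₁, hinv s₂ hs₂] at e1
    have e3 : (s₂ * s₁)⁻¹ = (s₁ * s₂)⁻¹ := by
      calc (s₂ * s₁)⁻¹ = s₁⁻¹ * s₂⁻¹ := mul_inv_rev _ _
        _ = (s₁ * s₂)⁻¹ := e1
    exact (inv_injective e3).symm
  -- (4)
  haveI : Fact (Nat.Prime 2) := ⟨Nat.prime_two⟩
  obtain ⟨z', hz'⟩ := exists_prime_orderOf_dvd_card' (G := ↥T) 2 (by rw [hTcard]; norm_num)
  obtain ⟨z, hzT, hzo⟩ : ∃ z ∈ T, orderOf z = 2 :=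
    ⟨z'.1, z'.2, by rw [Subgroup.orderOf_coe]; exact hz'⟩
  have hz1 : z ≠ 1 := by
    intro h
    rw [h, orderOf_one] at hzo
    omega
  have hz2 : z ^ 2 = 1 := by rw [← hzo]; exact pow_orderOf_eq_one z
  obtain ⟨hzP, hzQ⟩ := (hmem z).mp hzT
  have hsq : ∀ s ∈ T, s ^ 2 = 1 ∨ s ^ 2 = z := by
    intro s hs
    by_cases h : s ^ 2 = 1
    · exact Or.inl h
    · right
      have hs2T : s ^ 2 ∈ T := T.pow_mem hs 2
      obtain ⟨h2P, h2Q⟩ := (hmem _).mp hs2T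
      apply huniq (s ^ 2) z h2P h2Q hzP hzQ h hz1 _ hz2
      rw [← pow_mul]; exact h1 s hs
  have hsq1 : ∀ s ∈ T, s ^ 2 = 1 → s = 1 ∨ s = z := by
    intro s hs h
    by_cases hs1 : s = 1
    · exact Or.inl hs1
    · right
      obtain ⟨hsP, hsQ⟩ := (hmem s).mp hs
      exact huniq s z hsP hsQ hzP hzQ hs1 hz1 h hz2
  -- (5)
  obtain ⟨s₀, hs₀⟩ : ∃ s₀ : G, ∀ s ∈ T, s ^ 2 = z → s = s₀ ∨ s = z * s₀ := by
    by_cases hex : ∃ s₀ ∈ T, s₀ ^ 2 = z
    · obtain ⟨s₀, hs₀T, hs₀z⟩ := hex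
      refine ⟨s₀, fun s hs hsz => ?_⟩
      have hmem' : s * s₀⁻¹ ∈ T := T.mul_mem hs (T.inv_mem hs₀T)
      have hsq' : (s * s₀⁻¹) ^ 2 = 1 := by
        have hc : s₀⁻¹ * s = s * s₀⁻¹ := hcomm _ (T.inv_mem hs₀T) _ hs
        have e1 : s * s = z := by rw [← pow_two]; exact hsz
        have e2 : s₀ * s₀ = z := by rw [← pow_two]; exact hs₀z
        calc (s * s₀⁻¹) ^ 2 = s * (s₀⁻¹ * s) * s₀⁻¹ := by rw [pow_two]; group
          _ = s * (s * s₀⁻¹) * s₀⁻¹ := by rw [hc]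
          _ = (s * s) * (s₀ * s₀)⁻¹ := by group
          _ = 1 := by rw [e1, e2, mul_inv_cancel]
      rcases hsq1 _ hmem' hsq' with h | h
      · left
        exact mul_inv_eq_one.mp h
      · right
        rw [← h]; group
    · refine ⟨1, fun s hs hsz => ?_⟩
      exact absurd ⟨s, hs, hsz⟩ hex
  have hsub : (T : Set G) ⊆ (({1, z, s₀, z * s₀} : Finset G) : Set G) := by
    intro s hs
    have hs' : s ∈ T := hs
    simp only [Finset.coe_insert, Finset.coe_singleton, Set.mem_insert_iff,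
      Set.mem_singleton_iff]
    rcases hsq s hs' with h | h
    · rcases hsq1 s hs' h with h' | h'
      · exact Or.inl h'
      · exact Or.inr (Or.inl h')
    · rcases hs₀ s hs' h with h' | h'
      · exact Or.inr (Or.inr (Or.inl h'))
      · exact Or.inr (Or.inr (Or.inr h'))
  have hle : Nat.card T ≤ 4 := by
    have h1 : Nat.card T = (T : Set G).ncard := Nat.card_coe_set_eq (T : Set G)
    rw [h1]
    calc (T : Set G).ncard ≤ ((({1, z, s₀, z * s₀} : Finset G) : Set G)).ncard :=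
          Set.ncard_le_ncard hsub (Finset.finite_toSet _)
      _ = ({1, z, s₀, z * s₀} : Finset G).card := Set.ncard_coe_finset _
      _ ≤ 4 := Finset.card_le_four
  omega

end Cfsg.Agent.S496
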