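import Mathlib
import Cfsg.Agent.Lib.Helper98.SympF

/-!
# Piece SM-C5 of S6002 (helper98): `charpoly_five` on the index type `Fin 2 ⊕ Fin 2`
-/

set_option autoImplicit false

namespace Cfsg.Agent.Lib.Helper98.SM

open Matrix Polynomial

theorem charpoly_five_sum {F : Type*} [Field F] (M : Matrix (Fin 2 ⊕ Fin 2) (Fin 2 ⊕ Fin 2) F)
    (h5 : (5 : F) ≠ 0) (hirr : Irreducible (cyclotomic 5 F)) (hM : M ^ 5 = 1) (hne : M ≠ 1) :
    M.charpoly = cyclotomic 5 F := by
  have e : Fin 2 ⊕ Fin 2 ≃ Fin 4 := finSumFinEquiv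
  have h1 : (Matrix.reindexAlgEquiv F F e M) ^ 5 = 1 := by rw [← map_pow, hM, map_one]
  have h2 : Matrix.reindexAlgEquiv F F e M ≠ 1 := fun h =>
    hne ((Matrix.reindexAlgEquiv F F e).injective (by rw [h, map_one]))
  have h3 := Cfsg.Agent.Lib.Helper98.Symp.charpoly_five (Matrix.reindexAlgEquiv F F e M) h5 hirr
    h1 h2
  rw [← h3]
  exact (Matrix.charpoly_reindex e M).symm

end Cfsg.Agent.Lib.Helper98.SM
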