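import Mathlib
import Cfsg.Prelude.Def_GeometricClasses
import Cfsg.Agent.Lib.Helper98.SympM2
import Cfsg.Agent.Lib.Helper14.SMCONJ

/-!
# Piece SM-N5F of S6002 (helper98): an element of order five normalising `R`
-/

set_option autoImplicit false

namespace Cfsg.Agent.Lib.Helper98.SM

open Matrix Polynomial

/-- a five-cycle of semiconjugations gives a commuting fifth power -/
theorem n5f_cyc {G : Type*} [Monoid G] (m a b c d e : G) (h1 : m * a = b * m)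
    (h2 : m * b = c * m) (h3 : m * c = d * m) (h4 : m * d = e * m) (h5 : m * e = a * m) :
    m ^ 5 * a = a * m ^ 5 := by
  have s1 : SemiconjBy m a b := h1
  have s2 : SemiconjBy m b c := h2
  have s3 : SemiconjBy m c d := h3
  have s4 : SemiconjBy m d e := h4
  have s5 : SemiconjBy m e a := h5
  have s := s5.mul_left (s4.mul_left (s3.mul_left (s2.mul_left s1)))
  have e5 : m ^ 5 = m * (m * (m * (m * m))) := by
    simp only [pow_succ, pow_zero, one_mul, mul_assoc]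
  rw [e5]
  exact s

theorem n5_of_rel {F : Type*} [Field F] {R : Subgroup (GL (Fin 2 ⊕ Fin 2) F)} (hG : GoodM R)
    (hRf : R ≤ Cfsg.spGL 2 F) (u₁ u₂ u₃ u₄ : GL (Fin 2 ⊕ Fin 2) F)
    (hu1 : u₁ ∈ R) (hu2 : u₂ ∈ R) (hu3 : u₃ ∈ R) (hu4 : u₄ ∈ R)
    (h12 : u₁ * u₂ = -(u₂ * u₁))
    (hgen : ∀ K : Subgroup (GL (Fin 2 ⊕ Fin 2) F), u₁ ∈ K → u₂ ∈ K → u₃ ∈ K → u₄ ∈ K →
      (-1 : GL (Fin 2 ⊕ Fin 2) F) ∈ K → R ≤ K)
    (m : GL (Fin 2 ⊕ Fin 2) F) (hm : m ∈ Cfsg.spGL 2 F)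
    (r1 : m * u₁ = -(u₂ * m)) (r2 : m * u₂ = -(u₃ * m)) (r3 : m * u₃ = -(u₄ * m))
    (r4 : m * u₄ = -((u₁ * u₂ * u₃ * u₄) * m)) (r5 : m * (u₁ * u₂ * u₃ * u₄) = u₁ * m) :
    ∃ m' : GL (Fin 2 ⊕ Fin 2) F, m' ∈ Cfsg.spGL 2 F ∧
      m' ∈ Subgroup.normalizer (R : Set (GL (Fin 2 ⊕ Fin 2) F)) ∧ m' ^ 5 = 1 ∧ m' ≠ 1 := by
  have := hG.fin
  have hneg : ∀ x ∈ R, -x ∈ R := by
    intro x hx
    have e : -x = (-1) * x := by rw [neg_mul, one_mul]
    rw [e]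
    exact R.mul_mem hG.hneg hx
  have he : u₁ * u₂ * u₃ * u₄ ∈ R := R.mul_mem (R.mul_mem (R.mul_mem hu1 hu2) hu3) hu4
  -- (1) `m` normalises `R`
  have hK : R ≤ R.comap (MulAut.conj m).toMonoidHom := by
    apply hgen
    · show m * u₁ * m⁻¹ ∈ R
      rw [r1, neg_mul, mul_inv_cancel_right]
      exact hneg _ hu2
    · show m * u₂ * m⁻¹ ∈ R
      rw [r2, neg_mul, mul_inv_cancel_right]
      exact hneg _ hu3
    · show m * u₃ * m⁻¹ ∈ R
      rw [r3, neg_mul, mul_inv_cancel_right]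
      exact hneg _ hu4
    · show m * u₄ * m⁻¹ ∈ R
      rw [r4, neg_mul, mul_inv_cancel_right]
      exact hneg _ he
    · show m * (-1) * m⁻¹ ∈ R
      rw [mul_neg, mul_one, neg_mul, mul_inv_cancel]
      exact hG.hneg
  have hmN : m ∈ Subgroup.normalizer (R : Set (GL (Fin 2 ⊕ Fin 2) F)) :=
    Cfsg.Agent.Lib.Helper99.mem_normalizer_of_finite R m (fun n hn => hK hn)
  -- (2) `m ^ 5` is central, hence `± 1`
  have ra : m * u₁ = (-u₂) * m := by rw [r1, neg_mul]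
  have rb : m * (-u₂) = u₃ * m := by rw [mul_neg, r2, neg_neg]
  have rc : m * u₃ = (-u₄) * m := by rw [r3, neg_mul]
  have rd : m * (-u₄) = (u₁ * u₂ * u₃ * u₄) * m := by rw [mul_neg, r4, neg_neg]
  have c1 : m ^ 5 * u₁ = u₁ * m ^ 5 := n5f_cyc m _ _ _ _ _ ra rb rc rd r5
  have c2' : m ^ 5 * (-u₂) = (-u₂) * m ^ 5 := n5f_cyc m _ _ _ _ _ rb rc rd r5 ra
  have c3 : m ^ 5 * u₃ = u₃ * m ^ 5 := n5f_cyc m _ _ _ _ _ rc rd r5 ra rb
  have c4' : m ^ 5 * (-u₄) = (-u₄) * m ^ 5 := n5f_cyc m _ _ _ _ _ rd r5 ra rb rc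
  have c2 : m ^ 5 * u₂ = u₂ * m ^ 5 := by
    rw [mul_neg, neg_mul] at c2'
    exact neg_inj.mp c2'
  have c4 : m ^ 5 * u₄ = u₄ * m ^ 5 := by
    rw [mul_neg, neg_mul] at c4'
    exact neg_inj.mp c4'
  have hC : R ≤ Subgroup.centralizer ({m ^ 5} : Set (GL (Fin 2 ⊕ Fin 2) F)) := by
    apply hgen
    · rw [Subgroup.mem_centralizer_iff]
      rintro _ rfl
      exact c1
    · rw [Subgroup.mem_centralizer_iff]
      rintro _ rfl
      exact c2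
    · rw [Subgroup.mem_centralizer_iff]
      rintro _ rfl
      exact c3
    · rw [Subgroup.mem_centralizer_iff]
      rintro _ rfl
      exact c4
    · rw [Subgroup.mem_centralizer_iff]
      rintro _ rfl
      rw [mul_neg, mul_one, neg_mul, one_mul]
  have hcomm : ∀ g ∈ R, ((m ^ 5 : GL (Fin 2 ⊕ Fin 2) F) : Matrix (Fin 2 ⊕ Fin 2) (Fin 2 ⊕ Fin 2) F)
      * (g : Matrix (Fin 2 ⊕ Fin 2) (Fin 2 ⊕ Fin 2) F)
      = (g : Matrix (Fin 2 ⊕ Fin 2) (Fin 2 ⊕ Fin 2) F)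
        * ((m ^ 5 : GL (Fin 2 ⊕ Fin 2) F) : Matrix (Fin 2 ⊕ Fin 2) (Fin 2 ⊕ Fin 2) F) := by
    intro g hg
    have h := Subgroup.mem_centralizer_iff.mp (hC hg) (m ^ 5) rfl
    have h' := congrArg Units.val h
    rw [Units.val_mul, Units.val_mul] at h'
    exact h'
  obtain ⟨l, hl⟩ := hG.habs _ hcomm
  have hm5 : m ^ 5 ∈ Cfsg.spGL 2 F := Subgroup.pow_mem _ hm 5
  have hll : l * l = 1 := sp_scalar_sq (m ^ 5) hm5 l hl
  have hu12 : u₁ ≠ -u₂ := by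
    intro h
    rw [h] at h12
    rw [neg_mul, mul_neg, neg_neg] at h12
    exact neg_ne_self_gl hG.h2 _ h12
  have hm1 : m ≠ 1 := by
    intro h
    rw [h, one_mul, mul_one] at r1
    exact hu12 r1
  have hm1' : -m ≠ 1 := by
    intro h
    have hm' : m = -1 := by rw [← h, neg_neg]
    rw [hm', neg_mul, one_mul, mul_neg, mul_one, neg_neg] at r1
    apply hu12
    rw [← r1, neg_neg]
  rcases mul_self_eq_one_iff.mp hll with h | h
  · refine ⟨m, hm, hmN, ?_, hm1⟩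
    apply Units.ext
    rw [hl, h, one_smul]
    rfl
  · have hnegm : -m = (-1) * m := by rw [neg_mul, one_mul]
    refine ⟨-m, ?_, ?_, ?_, hm1'⟩
    · rw [hnegm]
      exact Subgroup.mul_mem _ (hRf hG.hneg) hm
    · rw [hnegm]
      exact Subgroup.mul_mem _ (Subgroup.le_normalizer hG.hneg) hmN
    · rw [Odd.neg_pow (by decide : Odd 5)]
      apply Units.ext
      rw [Units.val_neg, hl, h, neg_smul, one_smul, neg_neg]
      rfl

end Cfsg.Agent.Lib.Helper98.SM
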