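import Mathlib

/-!
# Piece ALG of S5955 (helper96): norms for an involution of a finite field
-/

set_option autoImplicit false

namespace Cfsg.Agent.Lib.Helper4.SpALG

open Polynomial

/-- ALG. -/
theorem exists_norm_eq {E : Type*} [Field E] [Finite E] (σ : E ≃+* E)
    (hσ2 : ∀ x, σ (σ x) = x) (hσ : ∃ x, σ x ≠ x) (a : E) (ha : σ a = a) :
    ∃ c : E, c * σ c = a := by
  by_cases h2 : (2 : E) = 0
  · -- characteristic two
    have hinj : Function.Injective (fun x : E => x * x) := by
      intro x y hxy
      have hxy' : x * x = y * y := hxy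
      have h3 : (x - y) * (x - y) = 0 := by
        have : (x - y) * (x - y) = x * x + y * y - 2 * (x * y) := by ring
        rw [this, h2, zero_mul, sub_zero, hxy', ← two_mul, h2, zero_mul]
      have h4 : x - y = 0 := by
        rcases mul_eq_zero.mp h3 with h | h <;> exact h
      exact sub_eq_zero.mp h4
    obtain ⟨c, hc⟩ := (Finite.injective_iff_surjective.mp hinj) a
    have hc' : c * c = a := hc
    refine ⟨c, ?_⟩
    have h5 : σ c = c := by
      apply hinj
      show σ c * σ c = c * c
      rw [← map_mul, hc', ha]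
    rw [h5, hc']
  · obtain ⟨θ, hθ⟩ := hσ
    obtain ⟨θ', hθ'⟩ : ∃ θ' : E, θ' = θ - σ θ := ⟨_, rfl⟩
    have hθ'0 : θ' ≠ 0 := by
      rw [hθ']
      exact sub_ne_zero.mpr (fun h => hθ h.symm)
    have hσθ' : σ θ' = -θ' := by
      rw [hθ', map_sub, hσ2]
      ring
    let E0 : Subfield E := (σ : E →+* E).eqLocusField (RingHom.id E)
    have hmem : ∀ x : E, x ∈ E0 ↔ σ x = x := fun x => Iff.rfl
    have : Fintype E0 := Fintype.ofFinite _
    have hδ : θ' * θ' ∈ E0 := by
      rw [hmem, map_mul, hσθ']
      ring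
    have hcard : Fintype.card E0 % 2 = 1 := by
      apply FiniteField.odd_card_of_char_ne_two
      intro hch
      apply h2
      have h6 : ((2 : ℕ) : E0) = 0 := by
        rw [← hch]
        exact ringChar.Nat.cast_ringChar
      have h7 : (1 : E0) + 1 = 0 := by
        rw [one_add_one_eq_two]
        exact_mod_cast h6
      have h8 := congrArg (fun x : E0 => (x : E)) h7
      simp only [Subfield.coe_add, Subfield.coe_one, ZeroMemClass.coe_zero] at h8
      rw [← one_add_one_eq_two]
      exact h8
    have hδ0 : (⟨θ' * θ', hδ⟩ : E0) ≠ 0 := by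
      intro h
      have h8 := congrArg (fun x : E0 => (x : E)) h
      simp only [ZeroMemClass.coe_zero] at h8
      exact hθ'0 (by rcases mul_eq_zero.mp h8 with h | h <;> exact h)
    have hf : (X ^ 2 - C (⟨a, (hmem a).mpr ha⟩ : E0)).degree = 2 :=
      degree_X_pow_sub_C (by norm_num) _
    have hg : (C (-(⟨θ' * θ', hδ⟩ : E0)) * X ^ 2).degree = 2 :=
      degree_C_mul_X_pow 2 (neg_ne_zero.mpr hδ0)
    obtain ⟨x, y, hxy⟩ := FiniteField.exists_root_sum_quadratic hf hg hcard
    simp only [eval_sub, eval_X, eval_C, eval_mul, pow_two] at hxy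
    have hxy' := congrArg (fun x : E0 => (x : E)) hxy
    simp only [Subfield.coe_add, Subfield.coe_sub, Subfield.coe_mul, Subfield.coe_neg,
      ZeroMemClass.coe_zero] at hxy'
    have hx : σ (x : E) = x := (hmem _).mp x.2
    have hy : σ (y : E) = y := (hmem _).mp y.2
    refine ⟨(x : E) + y * θ', ?_⟩
    rw [map_add, map_mul, hx, hy, hσθ']
    linear_combination hxy'

end Cfsg.Agent.Lib.Helper4.SpALG
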