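import Mathlib

/-!
# Piece R2-OB of S5955 (helper96): `T² = -1` with an odd-dimensional invariant subspace
-/

set_option autoImplicit false

namespace Cfsg.Agent.Lib.Helper4.SpR2OB

open Module

/-- R2-OB. -/
theorem isSquare_neg_one_of_odd_inv {F : Type*} [Field F] {V : Type*} [AddCommGroup V]
    [Module F V] [FiniteDimensional F V] (T : Module.End F V) (hsq : T * T = -1)
    (W : Submodule F V) (hW : W.map T ≤ W) (hodd : Odd (finrank F W)) : IsSquare (-1 : F) := by
  have hW' : ∀ x ∈ W, T x ∈ W := fun x hx => hW (Submodule.mem_map_of_mem hx)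
  have h1 : (T.restrict hW') * (T.restrict hW') = (-1 : F) • (1 : Module.End F W) := by
    apply LinearMap.ext
    intro x
    apply Subtype.ext
    have := LinearMap.congr_fun hsq (x : V)
    simpa using this
  have h2 := congrArg LinearMap.det h1
  rw [map_mul, LinearMap.det_smul, map_one, mul_one, hodd.neg_one_pow] at h2
  exact ⟨_, h2.symm⟩

end Cfsg.Agent.Lib.Helper4.SpR2OB
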