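import Mathlib
import Cfsg.Agent.Lib.Helper91.SuU

set_option autoImplicit false

namespace Cfsg.Agent.Lib.Helper4.SuEQ1

open Matrix Cfsg.Agent.Lib.Helper91.SpU Cfsg.Agent.Lib.Helper91.SuU

/-- block relations for `[A B; 0 D]` in the unitary group -/
theorem h4_blk (l : ℕ) (K : Type*) [Field K] (σ : K →+* K)
    (u : GU l K σ) (h21 : (mat l K σ u).toBlocks₂₁ = 0) :
    mat l K σ u = fromBlocks (mat l K σ u).toBlocks₁₁ (mat l K σ u).toBlocks₁₂ 0
      (mat l K σ u).toBlocks₂₂ ∧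
    ((mat l K σ u).toBlocks₁₁.map σ)ᵀ * (mat l K σ u).toBlocks₂₂ = 1 := by
  have e0 : mat l K σ u = fromBlocks (mat l K σ u).toBlocks₁₁ (mat l K σ u).toBlocks₁₂ 0
      (mat l K σ u).toBlocks₂₂ := by
    conv_lhs => rw [← Matrix.fromBlocks_toBlocks (mat l K σ u)]
    rw [h21]
  refine ⟨e0, ?_⟩
  have hmem := mat_mem l K σ u
  set A := (mat l K σ u).toBlocks₁₁
  set Bu := (mat l K σ u).toBlocks₁₂
  set D := (mat l K σ u).toBlocks₂₂
  rw [e0, Matrix.fromBlocks_transpose, Matrix.fromBlocks_map, JJ, Matrix.fromBlocks_multiply,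
    Matrix.fromBlocks_multiply] at hmem
  have h2 := congrArg Matrix.toBlocks₂₁ hmem
  simp only [Matrix.toBlocks_fromBlocks₂₁, Matrix.transpose_zero, Matrix.mul_zero,
    Matrix.zero_mul, Matrix.mul_one, add_zero, zero_add, Matrix.map_zero _ (map_zero σ)] at h2
  have h3 := congrArg Matrix.transpose h2
  rw [Matrix.transpose_mul, Matrix.transpose_transpose, Matrix.transpose_one] at h3
  exact h3

theorem QQ_normal (l : ℕ) (K : Type*) [Field K] (σ : K →+* K) (hσ : ∀ x, σ (σ x) = x)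
    (u : GU l K σ) (hu : InU l K σ u) (B : Matrix (Fin l) (Fin l) K) (hB : B.map σ = -Bᵀ) :
    ∃ (B' : Matrix (Fin l) (Fin l) K) (hB' : B'.map σ = -B'ᵀ),
      u * usq l K σ B hB * u⁻¹ = usq l K σ B' hB' := by
  obtain ⟨hu1, f1⟩ := h4_blk l K σ u hu.1
  set A := (mat l K σ u).toBlocks₁₁ with hA
  set Bu := (mat l K σ u).toBlocks₁₂ with hBu
  set D := (mat l K σ u).toBlocks₂₂ with hD
  have hσσ : (A.map σ).map σ = A := by
    ext i j
    simp [hσ]
  have hB' : (A * B * (A.map σ)ᵀ).map σ = -(A * B * (A.map σ)ᵀ)ᵀ := by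
    rw [Matrix.map_mul, Matrix.map_mul, hB, Matrix.transpose_map, hσσ, Matrix.transpose_mul,
      Matrix.transpose_mul, Matrix.transpose_transpose]
    simp only [Matrix.mul_neg, Matrix.neg_mul, Matrix.mul_assoc]
  refine ⟨A * B * (A.map σ)ᵀ, hB', ?_⟩
  rw [mul_inv_eq_iff_eq_mul]
  apply mat_ext
  rw [mat_mul, mat_mul, usq_mat, usq_mat, hu1, Matrix.fromBlocks_multiply,
    Matrix.fromBlocks_multiply]
  simp only [Matrix.mul_zero, Matrix.zero_mul, add_zero, zero_add, Matrix.mul_one,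
    Matrix.one_mul, Matrix.mul_assoc, f1]
  rw [add_comm]

end Cfsg.Agent.Lib.Helper4.SuEQ1
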