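import Mathlib
import Cfsg.Prelude.Def_GeometricClasses

/-!
# S5982 (helper96's project), piece SIM2SQ

`q` odd, `M` a similarity of a unitary form with `M * M = c • 1`: then `c` is a square in `F`.
-/

set_option autoImplicit false

namespace Cfsg.Agent.Lib.Helper4.Uf

open Matrix

-- PIECE SIM2SQ
theorem sq_of_sim_sq {F : Type*} [Field F] [Fintype F] (p : ℕ) [Fact p.Prime] [CharP F p]
    (hp2 : p ≠ 2) (q₀ : ℕ) (hq : Fintype.card F = q₀ ^ 2) (n : ℕ) (hn : n ≠ 0)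
    (f : (Fin n → F) → (Fin n → F) → F) (hf : Cfsg.Geo.IsUnitaryFormPow q₀ f)
    (M : Matrix (Fin n) (Fin n) F) (μ c : F) (hc : c ≠ 0)
    (hμ : ∀ u v, f (M *ᵥ u) (M *ᵥ v) = μ * f u v)
    (hM : M * M = c • (1 : Matrix (Fin n) (Fin n) F)) : ∃ d : F, d ^ 2 = c := by
  classical
  have hchar : ringChar F ≠ 2 := by rw [ringChar.eq F p]; exact hp2
  obtain ⟨v, hv⟩ : ∃ v : Fin n → F, v ≠ 0 := by
    have : NeZero n := ⟨hn⟩
    refine ⟨Pi.single 0 1, ?_⟩
    intro h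
    have h0 := congrFun h 0
    simp at h0
  obtain ⟨x, hx⟩ := (hf.nondegenerate v hv).1
  have h1 : μ ^ q₀ = μ := by
    have e1 : μ * f x v = μ ^ q₀ * f x v := by
      calc μ * f x v = f (M *ᵥ x) (M *ᵥ v) := (hμ x v).symm
        _ = (f (M *ᵥ v) (M *ᵥ x)) ^ q₀ := hf.herm _ _
        _ = (μ * f v x) ^ q₀ := by rw [hμ]
        _ = μ ^ q₀ * (f v x) ^ q₀ := mul_pow _ _ _
        _ = μ ^ q₀ * f x v := by rw [← hf.herm x v]
    exact (mul_right_cancel₀ hx e1).symm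
  have hMM : ∀ w : Fin n → F, M *ᵥ (M *ᵥ w) = c • w := by
    intro w
    rw [Matrix.mulVec_mulVec, hM, Matrix.smul_mulVec, Matrix.one_mulVec]
  have h2 : μ ^ 2 = c ^ (q₀ + 1) := by
    have e1 : μ ^ 2 * f x v = c ^ (q₀ + 1) * f x v := by
      calc μ ^ 2 * f x v = μ * (μ * f x v) := by ring
        _ = μ * f (M *ᵥ x) (M *ᵥ v) := by rw [hμ]
        _ = f (M *ᵥ (M *ᵥ x)) (M *ᵥ (M *ᵥ v)) := (hμ _ _).symm
        _ = f (c • x) (c • v) := by rw [hMM, hMM]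
        _ = c * f x (c • v) := hf.smul_left _ _ _
        _ = c * (f (c • v) x) ^ q₀ := by rw [hf.herm x (c • v)]
        _ = c * (c * f v x) ^ q₀ := by rw [hf.smul_left]
        _ = c * (c ^ q₀ * (f v x) ^ q₀) := by rw [mul_pow]
        _ = c * (c ^ q₀ * f x v) := by rw [← hf.herm x v]
        _ = c ^ (q₀ + 1) * f x v := by ring
    exact mul_right_cancel₀ hx e1
  have hμ0 : μ ≠ 0 := by
    intro h
    rw [h] at h2
    have h0 : c ^ (q₀ + 1) = 0 := by rw [← h2]; ring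
    exact hc ((pow_eq_zero_iff (by omega)).mp h0)
  have hodd : Odd q₀ := by
    have h3 := FiniteField.odd_card_of_char_ne_two hchar
    rw [hq] at h3
    have h4 : Odd (q₀ ^ 2) := Nat.odd_iff.mpr h3
    exact (Nat.odd_pow_iff (by norm_num)).mp h4
  obtain ⟨k, hk⟩ := hodd
  have h4 : μ ^ (2 * k) = 1 := by
    have h0 : μ ^ (2 * k) * μ = μ := by rw [← pow_succ, ← hk, h1]
    exact mul_right_cancel₀ hμ0 (by rw [h0, one_mul])
  have h5 : c ^ (Fintype.card F / 2) = 1 := by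
    have e : Fintype.card F / 2 = (q₀ + 1) * k := by
      rw [hq, hk]
      have h0 : (2 * k + 1) ^ 2 = 2 * ((2 * k + 1 + 1) * k) + 1 := by ring
      omega
    rw [e, pow_mul, ← h2, ← pow_mul, h4]
  obtain ⟨d, hd⟩ := (FiniteField.isSquare_iff hchar hc).mpr h5
  exact ⟨d, by rw [hd]; ring⟩

end Cfsg.Agent.Lib.Helper4.Uf
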