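import Cfsg.Agent.Lib.Helper47.UniDefs

/-!
# Piece CAYB of S2676 (helper47): Cayley transform and the symplectic form
-/

set_option autoImplicit false

namespace Cfsg.Agent.Lib.Helper4.Uni

open Cfsg.Agent.Lib.Helper47 Module

universe u

variable {F : Type u} [Field F]

/-- Skew-adjointness for `spForm` in matrix form. -/
theorem h4_skew_iff {l : Type*} [Fintype l] [DecidableEq l] (N : Matrix (l ⊕ l) (l ⊕ l) F) :
    IsSkewAdj (spForm l F) (Matrix.toLin' N) ↔
      N.transpose * Matrix.J l F = -(Matrix.J l F * N) := by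
  constructor
  · intro h
    apply Matrix.toLin'.injective
    apply LinearMap.ext
    intro y
    apply dotProduct_eq
    intro x
    have := h x y
    simp only [spForm, Matrix.toLin'_apply] at this
    rw [← Matrix.vecMul_transpose N x, ← Matrix.dotProduct_mulVec, Matrix.mulVec_mulVec,
      Matrix.mulVec_mulVec] at this
    rw [Matrix.toLin'_apply, Matrix.toLin'_apply, dotProduct_comm, this, Matrix.neg_mulVec,
      neg_dotProduct, dotProduct_comm]
  · intro h x y
    simp only [spForm, Matrix.toLin'_apply]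
    rw [← Matrix.vecMul_transpose N x, ← Matrix.dotProduct_mulVec, Matrix.mulVec_mulVec,
      Matrix.mulVec_mulVec, h, Matrix.neg_mulVec, dotProduct_neg]

theorem cay_skew {l : Type*} [Fintype l] [DecidableEq l] (M : Matrix (l ⊕ l) (l ⊕ l) F)
    (hM : M ∈ Matrix.symplecticGroup l F) (hu : IsUnit (M + 1).det) :
    IsSkewAdj (spForm l F) (Matrix.toLin' (cayM M)) := by
  rw [h4_skew_iff]
  have hJ : M.transpose * Matrix.J l F * M = Matrix.J l F :=
    SymplecticGroup.mem_iff'.mp hM
  have h1 : (M + 1) * (M + 1)⁻¹ = 1 := Matrix.mul_nonsing_inv _ hu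
  have hut : IsUnit ((M + 1).transpose).det := by rwa [Matrix.det_transpose]
  have h2 : ((M + 1).transpose)⁻¹ * (M + 1).transpose = 1 := Matrix.nonsing_inv_mul _ hut
  have hE : (M - 1).transpose * Matrix.J l F * (M + 1)
      = -((M + 1).transpose * Matrix.J l F * (M - 1)) := by
    simp only [Matrix.transpose_sub, Matrix.transpose_add, Matrix.transpose_one]
    have e1 : (M.transpose - 1) * Matrix.J l F * (M + 1)
        = M.transpose * Matrix.J l F * M + M.transpose * Matrix.J l F - Matrix.J l F * M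
          - Matrix.J l F := by noncomm_ring
    have e2 : (M.transpose + 1) * Matrix.J l F * (M - 1)
        = M.transpose * Matrix.J l F * M - M.transpose * Matrix.J l F + Matrix.J l F * M
          - Matrix.J l F := by noncomm_ring
    rw [e1, e2, hJ]
    abel
  unfold cayM
  rw [Matrix.transpose_mul, Matrix.transpose_nonsing_inv]
  calc ((M + 1).transpose)⁻¹ * (M - 1).transpose * Matrix.J l F
      = ((M + 1).transpose)⁻¹ * ((M - 1).transpose * Matrix.J l F * (M + 1)) * (M + 1)⁻¹ := by
        have h3 : (M - 1).transpose * Matrix.J l F * (M + 1) * (M + 1)⁻¹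
            = (M - 1).transpose * Matrix.J l F := by
          rw [Matrix.mul_assoc _ (M + 1), h1, Matrix.mul_one]
        rw [Matrix.mul_assoc ((M + 1).transpose)⁻¹ _ (M + 1)⁻¹, h3, Matrix.mul_assoc]
    _ = ((M + 1).transpose)⁻¹ * (-((M + 1).transpose * Matrix.J l F * (M - 1))) * (M + 1)⁻¹ := by
        rw [hE]
    _ = -(((M + 1).transpose)⁻¹ * (M + 1).transpose * (Matrix.J l F * (M - 1) * (M + 1)⁻¹)) := by
        simp only [Matrix.mul_neg, Matrix.neg_mul, Matrix.mul_assoc]
    _ = -(Matrix.J l F * ((M - 1) * (M + 1)⁻¹)) := by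
        rw [h2, Matrix.one_mul, Matrix.mul_assoc]

theorem cay_inv (p : ℕ) [Fact p.Prime] [CharP F p] (hp : p ≠ 2) {l : Type*} [Fintype l]
    [DecidableEq l] (N : Matrix (l ⊕ l) (l ⊕ l) F)
    (hN : IsSkewAdj (spForm l F) (Matrix.toLin' N)) (hNp : N ^ p = 0) :
    ∃ M : Matrix (l ⊕ l) (l ⊕ l) F, M ∈ Matrix.symplecticGroup l F ∧ M ^ p = 1 ∧
      cayM M = N := by
  rw [h4_skew_iff] at hN
  have hp0 : p ≠ 0 := (Fact.out : p.Prime).ne_zero
  have h2F : (2 : F) ≠ 0 := by
    intro h
    have h2' : ((2 : ℕ) : F) = 0 := by exact_mod_cast h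
    rw [CharP.cast_eq_zero_iff F p] at h2'
    exact hp ((Nat.prime_dvd_prime_iff_eq (Fact.out : p.Prime) Nat.prime_two).mp h2')
  have hnil : IsNilpotent N := ⟨p, hNp⟩
  have hUu : IsUnit (1 - N) := hnil.isUnit_one_sub
  have hUd : IsUnit (1 - N).det := (Matrix.isUnit_iff_isUnit_det _).mp hUu
  have hU1 : (1 - N) * (1 - N)⁻¹ = 1 := Matrix.mul_nonsing_inv _ hUd
  have hU2 : (1 - N)⁻¹ * (1 - N) = 1 := Matrix.nonsing_inv_mul _ hUd
  have hUtd : IsUnit ((1 - N).transpose).det := by rwa [Matrix.det_transpose]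
  have hUt2 : ((1 - N).transpose)⁻¹ * (1 - N).transpose = 1 := Matrix.nonsing_inv_mul _ hUtd
  have hVU : (1 + N) * (1 - N) = (1 - N) * (1 + N) := by noncomm_ring
  have hVJ : (1 + N).transpose * Matrix.J l F = Matrix.J l F * (1 - N) := by
    rw [Matrix.transpose_add, Matrix.transpose_one, Matrix.add_mul, Matrix.one_mul, hN,
      Matrix.mul_sub, Matrix.mul_one, sub_eq_add_neg]
  have hUJ : (1 - N).transpose * Matrix.J l F = Matrix.J l F * (1 + N) := by
    rw [Matrix.transpose_sub, Matrix.transpose_one, Matrix.sub_mul, Matrix.one_mul, hN,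
      Matrix.mul_add, Matrix.mul_one, sub_neg_eq_add]
  obtain ⟨M, hMdef⟩ : ∃ M : Matrix (l ⊕ l) (l ⊕ l) F, M = (1 - N)⁻¹ * (1 + N) := ⟨_, rfl⟩
  have hcancel : ∀ X : Matrix (l ⊕ l) (l ⊕ l) F,
      ((1 - N).transpose)⁻¹ * ((1 - N).transpose * X * (1 - N)) * (1 - N)⁻¹ = X := by
    intro X
    simp only [Matrix.mul_assoc]
    rw [hU1, Matrix.mul_one, ← Matrix.mul_assoc, hUt2, Matrix.one_mul]
  have hMU : M * (1 - N) = 1 + N := by
    rw [hMdef, Matrix.mul_assoc, hVU, ← Matrix.mul_assoc, hU2, Matrix.one_mul]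
  have hUM : (1 - N) * M = 1 + N := by
    rw [hMdef, ← Matrix.mul_assoc, hU1, Matrix.one_mul]
  refine ⟨M, ?_, ?_, ?_⟩
  · rw [SymplecticGroup.mem_iff']
    have e1 : (1 - N).transpose * (M.transpose * Matrix.J l F * M) * (1 - N)
        = (1 - N).transpose * Matrix.J l F * (1 - N) := by
      have : (1 - N).transpose * (M.transpose * Matrix.J l F * M) * (1 - N)
          = (M * (1 - N)).transpose * Matrix.J l F * (M * (1 - N)) := by
        rw [Matrix.transpose_mul]
        simp only [Matrix.mul_assoc]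
      rw [this, hMU, hVJ, hUJ, Matrix.mul_assoc, Matrix.mul_assoc, hVU]
    calc M.transpose * Matrix.J l F * M
        = ((1 - N).transpose)⁻¹ * ((1 - N).transpose * (M.transpose * Matrix.J l F * M)
            * (1 - N)) * (1 - N)⁻¹ := (hcancel _).symm
      _ = ((1 - N).transpose)⁻¹ * ((1 - N).transpose * Matrix.J l F * (1 - N)) * (1 - N)⁻¹ := by
          rw [e1]
      _ = Matrix.J l F := hcancel _
  · rcases isEmpty_or_nonempty (l ⊕ l) with he | hne
    · exact Subsingleton.elim _ _
    · have hcm : Commute M (1 - N) := by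
        show M * (1 - N) = (1 - N) * M
        rw [hMU, hUM]
      have hVp : (1 + N) ^ p = 1 := by
        rw [add_pow_char_of_commute _ (Commute.one_left N), hNp, one_pow, add_zero]
      have hUp : (1 - N) ^ p = 1 := by
        rw [sub_pow_char_of_commute _ (Commute.one_left N), hNp, one_pow, sub_zero]
      have := hcm.mul_pow p
      rw [hMU, hVp, hUp, mul_one] at this
      exact this.symm
  · have hM1 : (M + 1) * (1 - N) = (2 : F) • (1 : Matrix (l ⊕ l) (l ⊕ l) F) := by
      rw [Matrix.add_mul, hMU, Matrix.one_mul, two_smul]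
      abel
    have hM1u : IsUnit (M + 1).det := by
      apply Matrix.isUnit_det_of_right_inverse (B := (2 : F)⁻¹ • (1 - N))
      rw [Matrix.mul_smul, hM1, smul_smul, inv_mul_cancel₀ h2F, one_smul]
    have hM2 : M - 1 = N * (M + 1) := by
      have h3 : (1 - N) * M = M - N * M := by noncomm_ring
      rw [h3] at hUM
      rw [Matrix.mul_add, Matrix.mul_one]
      have h4 : M - 1 = (M - N * M) - (1 + N) + (N * M + N) := by abel
      rw [h4, hUM]
      abel
    unfold cayM
    rw [hM2, Matrix.mul_assoc, Matrix.mul_nonsing_inv _ hM1u, Matrix.mul_one]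

end Cfsg.Agent.Lib.Helper4.Uni
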