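import Cfsg.Agent.Lib.Helper47.UniDefs

/-!
# Piece COUNT of S2676 (helper47): counting the data set
-/

set_option autoImplicit false

namespace Cfsg.Agent.Lib.Helper4.Uni

open Cfsg.Agent.Lib.Helper47 Module

universe u

/-- The all-ones partition of `n`. -/
def h4_ones (n : ℕ) : Nat.Partition n :=
  ⟨Multiset.replicate n 1, fun {i} hi => by
    rw [Multiset.eq_of_mem_replicate hi]; exact Nat.one_pos, by simp⟩

open Classical in
theorem count_data (p : ℕ) (hp : 1 ≤ p) (m : ℕ) :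
    Nat.card {t : Multiset ℕ × Finset ℕ //
        (t.1.sum = 2 * m ∧ (∀ a ∈ t.1, 0 < a ∧ a ≤ p) ∧ (∀ j, Odd j → Even (t.1.count j)) ∧
          ∃ a ∈ t.1, 2 ≤ a) ∧ t.2 ⊆ t.1.toFinset.filter (fun j => Even j)}
      = (∑ μ ∈ Finset.univ.filter (fun μ : Nat.Partition (2 * m) => (∀ a ∈ μ.parts, a ≤ p) ∧ ∀ j : ℕ, Odd j → Even (μ.parts.count j)), 2 ^ ((μ.parts.toFinset.filter (fun j : ℕ => Even j)).card)) - 1 := by
  obtain ⟨S, hS⟩ : ∃ S : Finset (Nat.Partition (2 * m)), S = Finset.univ.filter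
      (fun μ : Nat.Partition (2 * m) => (∀ a ∈ μ.parts, a ≤ p) ∧
        ∀ j : ℕ, Odd j → Even (μ.parts.count j)) := ⟨_, rfl⟩
  rw [← hS]
  have hSmem : ∀ μ : Nat.Partition (2 * m), μ ∈ S ↔ ((∀ a ∈ μ.parts, a ≤ p) ∧
        ∀ j : ℕ, Odd j → Even (μ.parts.count j)) := by
    intro μ
    rw [hS, Finset.mem_filter]
    simp only [Finset.mem_univ, true_and]
  obtain ⟨T', hT'⟩ : ∃ T' : Finset (Multiset ℕ × Finset ℕ), T' =
      ((S.filter (fun μ => ∃ a ∈ μ.parts, 2 ≤ a)).sigma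
        (fun μ => (μ.parts.toFinset.filter (fun j : ℕ => Even j)).powerset)).image
        (fun x => (x.1.parts, x.2)) := ⟨_, rfl⟩
  have hmem : ∀ t : Multiset ℕ × Finset ℕ, t ∈ T' ↔
      ((t.1.sum = 2 * m ∧ (∀ a ∈ t.1, 0 < a ∧ a ≤ p) ∧ (∀ j, Odd j → Even (t.1.count j)) ∧
          ∃ a ∈ t.1, 2 ≤ a) ∧ t.2 ⊆ t.1.toFinset.filter (fun j => Even j)) := by
    intro t
    rw [hT', Finset.mem_image]
    constructor
    · rintro ⟨⟨μ, A⟩, hx, rfl⟩
      rw [Finset.mem_sigma, Finset.mem_filter, hSmem, Finset.mem_powerset] at hx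
      obtain ⟨⟨⟨h1, h2⟩, h3⟩, h4⟩ := hx
      exact ⟨⟨μ.parts_sum, fun a ha => ⟨μ.parts_pos ha, h1 a ha⟩, h2, h3⟩, h4⟩
    · rintro ⟨⟨h1, h2, h3, h4⟩, h5⟩
      refine ⟨⟨⟨t.1, fun {i} hi => (h2 i hi).1, h1⟩, t.2⟩, ?_, rfl⟩
      rw [Finset.mem_sigma, Finset.mem_filter, hSmem, Finset.mem_powerset]
      exact ⟨⟨⟨fun a ha => (h2 a ha).2, h3⟩, h4⟩, h5⟩
  rw [Nat.subtype_card T' hmem, hT']
  have hinj : Function.Injective
      (fun x : (μ : Nat.Partition (2 * m)) × Finset ℕ => (x.1.parts, x.2)) := by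
    rintro ⟨μ, A⟩ ⟨ν, B⟩ h
    simp only [Prod.mk.injEq] at h
    obtain ⟨h1, h2⟩ := h
    have : μ = ν := Nat.Partition.ext h1
    subst this
    subst h2
    rfl
  rw [Finset.card_image_of_injective _ hinj, Finset.card_sigma]
  simp only [Finset.card_powerset]
  rw [← Finset.sum_filter_add_sum_filter_not S (fun μ => ∃ a ∈ μ.parts, 2 ≤ a)]
  have hones : S.filter (fun μ => ¬ ∃ a ∈ μ.parts, 2 ≤ a) = {h4_ones (2 * m)} := by
    ext μ
    rw [Finset.mem_filter, Finset.mem_singleton, hSmem]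
    constructor
    · rintro ⟨-, h⟩
      apply Nat.Partition.ext
      show μ.parts = Multiset.replicate (2 * m) 1
      have hall : ∀ b ∈ μ.parts, b = 1 := by
        intro b hb
        have h1 := μ.parts_pos hb
        have h2 : ¬ 2 ≤ b := fun h2 => h ⟨b, hb, h2⟩
        omega
      rw [Multiset.eq_replicate]
      refine ⟨?_, hall⟩
      have h3 : μ.parts = Multiset.replicate (Multiset.card μ.parts) 1 :=
        Multiset.eq_replicate.mpr ⟨rfl, hall⟩
      have h4 := μ.parts_sum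
      rw [h3, Multiset.sum_replicate, smul_eq_mul, mul_one] at h4
      exact h4
    · rintro rfl
      have hp1 : ∀ a ∈ (h4_ones (2 * m)).parts, a = 1 := fun a ha =>
        Multiset.eq_of_mem_replicate ha
      refine ⟨⟨fun a ha => by rw [hp1 a ha]; exact hp, fun j hj => ?_⟩, ?_⟩
      · show Even (Multiset.count j (Multiset.replicate (2 * m) 1))
        rw [Multiset.count_replicate]
        split_ifs
        · exact even_two_mul m
        · exact Even.zero
      · rintro ⟨a, ha, h2⟩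
        rw [hp1 a ha] at h2
        omega
  rw [hones, Finset.sum_singleton]
  have hE : (h4_ones (2 * m)).parts.toFinset.filter (fun j : ℕ => Even j) = ∅ := by
    rw [Finset.filter_eq_empty_iff]
    intro j hj
    rw [Multiset.mem_toFinset] at hj
    rw [Multiset.eq_of_mem_replicate hj]
    exact Nat.not_even_one
  rw [hE, Finset.card_empty, pow_zero, Nat.add_sub_cancel]

end Cfsg.Agent.Lib.Helper4.Uni
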