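import Cfsg.Prelude.Def_Spor_M
import Cfsg.Agent.Lib.Helper38.Y5Words

/-!
# Piece MAIN of S5588 (helper38): the six `E₇` relators of `Bimonster.extra` from the base theorem
-/

set_option autoImplicit false
open Cfsg

namespace Cfsg.Agent.Lib.Helper4.Y5Sym

open Cfsg.Agent.Lib.Helper38
open Cfsg.Spor

/-- the group of S5588: sixteen involutions, the Coxeter relators of `Y₅₅₅` and the spider relator -/
abbrev K16 : Type := PresentedGroup (Cfsg.Spor.coxRelators Cfsg.Spor.Bimonster.edges ∪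
  {r' | r' ∈ [(Cfsg.Spor.Bimonster.a * Cfsg.Spor.Bimonster.b1 * Cfsg.Spor.Bimonster.c1 *
    Cfsg.Spor.Bimonster.a * Cfsg.Spor.Bimonster.b2 * Cfsg.Spor.Bimonster.c2 *
    Cfsg.Spor.Bimonster.a * Cfsg.Spor.Bimonster.b3 * Cfsg.Spor.Bimonster.c3) ^ 10]})

/-- the generators of `K16` -/
def gg (x : Bimonster.Gen) : K16 := PresentedGroup.of x

theorem h4_node (x : Bimonster.Gen) : x ∈ coxNodes Bimonster.edges := by
  cases x <;> decide

theorem h4_cox (x y : Bimonster.Gen) : (gg x * gg y) ^ coxLabel Bimonster.edges x y = 1 := by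
  have hmem : (FreeGroup.of x * FreeGroup.of y) ^ coxLabel Bimonster.edges x y ∈
      (Cfsg.Spor.coxRelators Cfsg.Spor.Bimonster.edges ∪
        {r' | r' ∈ [(Cfsg.Spor.Bimonster.a * Cfsg.Spor.Bimonster.b1 * Cfsg.Spor.Bimonster.c1 *
          Cfsg.Spor.Bimonster.a * Cfsg.Spor.Bimonster.b2 * Cfsg.Spor.Bimonster.c2 *
          Cfsg.Spor.Bimonster.a * Cfsg.Spor.Bimonster.b3 * Cfsg.Spor.Bimonster.c3) ^ 10]}) :=
    Or.inl ⟨x, h4_node x, y, h4_node y, rfl⟩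
  have h := PresentedGroup.one_of_mem hmem
  rw [map_pow, map_mul] at h
  exact h

theorem h4_inv (x : Bimonster.Gen) : gg x * gg x = 1 := by
  have h := h4_cox x x
  have hl : coxLabel Bimonster.edges x x = 1 := by
    unfold coxLabel
    rw [if_pos rfl]
  rw [hl, pow_one] at h
  exact h

theorem h4_comm (x y : Bimonster.Gen) (h : coxLabel Bimonster.edges x y = 2) :
    gg x * gg y = gg y * gg x := by
  have h1 := h4_cox x y
  rw [h, pow_two] at h1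
  have e1 : (gg x * gg y)⁻¹ = gg x * gg y := inv_eq_of_mul_eq_one_left h1
  rw [mul_inv_rev, inv_eq_of_mul_eq_one_left (h4_inv x), inv_eq_of_mul_eq_one_left (h4_inv y)] at e1
  exact e1.symm

theorem h4_rep_word {K : Type*} [Group K] (σ : ℕ → K) (u : List ℕ) : ∀ m : ℕ,
    (((List.replicate m u).flatten).map σ).prod = ((u.map σ).prod) ^ m
  | 0 => by simp
  | m + 1 => by
    rw [List.replicate_succ, List.flatten_cons, List.map_append, List.prod_append,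
      h4_rep_word σ u m, pow_succ']

/-- the letter map of an instance -/
def tau (dj cj bj bi ci di bl cl ei fi : Bimonster.Gen) : ℕ → Bimonster.Gen
  | 0 => dj
  | 1 => cj
  | 2 => bj
  | 3 => Bimonster.Gen.a
  | 4 => bi
  | 5 => ci
  | 6 => di
  | 7 => bl
  | 8 => cl
  | 9 => ei
  | 10 => fi
  | _ => Bimonster.Gen.a

/-- the spider word -/
def spw : List ℕ := (List.replicate 10 [3, 2, 1, 3, 4, 5, 3, 7, 8]).flatten

/-- a word of `WY` is a Coxeter word for the letter map, or the spider word -/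
def okw (τ : ℕ → Bimonster.Gen) (w : List ℕ) : Prop :=
  w = (List.replicate (coxLabel Bimonster.edges (τ (w.headD 0)) (τ (w.getD 1 0)))
    [w.headD 0, w.getD 1 0]).flatten ∨ w = spw

instance (τ : ℕ → Bimonster.Gen) (w : List ℕ) : Decidable (okw τ w) := by
  unfold okw
  infer_instance

/-- the commuting pairs needed for the conjugation lemma -/
def pairs : List (ℕ × ℕ) := [(1, 3), (1, 4), (1, 5), (1, 6), (1, 7), (2, 4), (2, 5), (2, 6),
  (2, 7), (3, 5), (3, 6), (4, 6), (4, 7), (5, 7), (6, 7), (10, 1), (10, 3), (10, 4), (10, 5),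
  (10, 6), (10, 7)]

theorem h4_inst
    (hconj : ∀ (x1 x2 x3 x4 x5 x6 x7 f : K16),
      x1 * x1 = 1 → x2 * x2 = 1 → x3 * x3 = 1 → x4 * x4 = 1 → x5 * x5 = 1 → x6 * x6 = 1 → x7 * x7 = 1 →
      x1 * x3 = x3 * x1 → x1 * x4 = x4 * x1 → x1 * x5 = x5 * x1 →
      x1 * x6 = x6 * x1 → x1 * x7 = x7 * x1 → x2 * x4 = x4 * x2 →
      x2 * x5 = x5 * x2 → x2 * x6 = x6 * x2 → x2 * x7 = x7 * x2 →
      x3 * x5 = x5 * x3 → x3 * x6 = x6 * x3 → x4 * x6 = x6 * x4 →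
      x4 * x7 = x7 * x4 → x5 * x7 = x7 * x5 → x6 * x7 = x7 * x6 →
      f * x1 = x1 * f → f * x3 = x3 * f → f * x4 = x4 * f → f * x5 = x5 * f →
      f * x6 = x6 * f → f * x7 = x7 * f →
      f = (x1 * x2 * x3 * x4 * x5 * x6 * x7) ^ 9 →
      f = (x3 * x4 * x2 * x7 * x5 * x1 * x6) ^ 9)
    (base : ∀ δ : ℕ → K16, (∀ s, δ s * δ s = 1) → (∀ w ∈ Y5.WY, (w.map δ).prod = 1) →
      δ 10 = (Y5.R2w.map δ).prod)
    (dj cj bj bi ci di bl cl ei fi : Bimonster.Gen)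
    (hok : ∀ w ∈ Y5.WY, okw (tau dj cj bj bi ci di bl cl ei fi) w)
    (hlab : ∀ q ∈ pairs, coxLabel Bimonster.edges (tau dj cj bj bi ci di bl cl ei fi q.1)
      (tau dj cj bj bi ci di bl cl ei fi q.2) = 2)
    (hsp : (gg Bimonster.Gen.a * gg bj * gg cj * gg Bimonster.Gen.a * gg bi * gg ci *
      gg Bimonster.Gen.a * gg bl * gg cl) ^ 10 = 1) :
    gg fi = (gg Bimonster.Gen.a * gg bi * gg bj * gg bl * gg ci * gg cj * gg di) ^ 9 := by
  obtain ⟨τ, hτ⟩ : ∃ τ : ℕ → Bimonster.Gen, τ = tau dj cj bj bi ci di bl cl ei fi := ⟨_, rfl⟩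
  rw [← hτ] at hok hlab
  have hδ : ∀ s, gg (τ s) * gg (τ s) = 1 := fun s => h4_inv _
  have hsp' : (([3, 2, 1, 3, 4, 5, 3, 7, 8] : List ℕ).map (fun s => gg (τ s))).prod ^ 10 = 1 := by
    have e : (([3, 2, 1, 3, 4, 5, 3, 7, 8] : List ℕ).map (fun s => gg (τ s))).prod
        = gg Bimonster.Gen.a * gg bj * gg cj * gg Bimonster.Gen.a * gg bi * gg ci *
          gg Bimonster.Gen.a * gg bl * gg cl := by
      rw [hτ]
      simp only [List.map, List.prod_cons, List.prod_nil, mul_one, mul_assoc]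
      rfl
    rw [e]
    exact hsp
  have hw : ∀ w ∈ Y5.WY, (w.map (fun s => gg (τ s))).prod = 1 := by
    intro w hw
    rcases hok w hw with h | h
    · rw [h, h4_rep_word]
      simp only [List.map, List.prod_cons, List.prod_nil, mul_one]
      exact h4_cox _ _
    · rw [h, spw, h4_rep_word]
      exact hsp'
  have hb := base (fun s => gg (τ s)) hδ hw
  have hR : Y5.R2w = (List.replicate 9 [1, 2, 3, 4, 5, 6, 7]).flatten := by decide
  rw [hR, h4_rep_word] at hb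
  simp only [List.map, List.prod_cons, List.prod_nil, mul_one] at hb
  have hc := hconj (gg (τ 1)) (gg (τ 2)) (gg (τ 3)) (gg (τ 4)) (gg (τ 5)) (gg (τ 6)) (gg (τ 7))
    (gg (τ 10)) (hδ 1) (hδ 2) (hδ 3) (hδ 4) (hδ 5) (hδ 6) (hδ 7)
    (h4_comm _ _ (hlab (1, 3) (by decide))) (h4_comm _ _ (hlab (1, 4) (by decide)))
    (h4_comm _ _ (hlab (1, 5) (by decide))) (h4_comm _ _ (hlab (1, 6) (by decide)))
    (h4_comm _ _ (hlab (1, 7) (by decide))) (h4_comm _ _ (hlab (2, 4) (by decide)))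
    (h4_comm _ _ (hlab (2, 5) (by decide))) (h4_comm _ _ (hlab (2, 6) (by decide)))
    (h4_comm _ _ (hlab (2, 7) (by decide))) (h4_comm _ _ (hlab (3, 5) (by decide)))
    (h4_comm _ _ (hlab (3, 6) (by decide))) (h4_comm _ _ (hlab (4, 6) (by decide)))
    (h4_comm _ _ (hlab (4, 7) (by decide))) (h4_comm _ _ (hlab (5, 7) (by decide)))
    (h4_comm _ _ (hlab (6, 7) (by decide))) (h4_comm _ _ (hlab (10, 1) (by decide)))
    (h4_comm _ _ (hlab (10, 3) (by decide))) (h4_comm _ _ (hlab (10, 4) (by decide)))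
    (h4_comm _ _ (hlab (10, 5) (by decide))) (h4_comm _ _ (hlab (10, 6) (by decide)))
    (h4_comm _ _ (hlab (10, 7) (by decide)))
    (by rw [hb]; simp only [mul_assoc])
  rw [hτ] at hc
  exact hc

set_option maxRecDepth 4000 in
/-- PIECE MAIN -/
theorem extra_of_base
    (hspider : ∀ (a b1 c1 b2 c2 b3 c3 : K16),
      a * a = 1 → b1 * b1 = 1 → c1 * c1 = 1 → b2 * b2 = 1 → c2 * c2 = 1 → b3 * b3 = 1 → c3 * c3 = 1 →
      a * c1 = c1 * a → a * c2 = c2 * a → a * c3 = c3 * a →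
      c1 * c2 = c2 * c1 → c1 * c3 = c3 * c1 → c2 * c3 = c3 * c2 →
      b1 * c2 = c2 * b1 → b1 * c3 = c3 * b1 → b2 * c1 = c1 * b2 →
      b2 * c3 = c3 * b2 → b3 * c1 = c1 * b3 → b3 * c2 = c2 * b3 →
      (a * b1 * c1 * a * b2 * c2 * a * b3 * c3) ^ 10 = 1 →
      (a * b2 * c2 * a * b1 * c1 * a * b3 * c3) ^ 10 = 1 ∧
      (a * b3 * c3 * a * b1 * c1 * a * b2 * c2) ^ 10 = 1 ∧
      (a * b3 * c3 * a * b2 * c2 * a * b1 * c1) ^ 10 = 1 ∧
      (a * b1 * c1 * a * b3 * c3 * a * b2 * c2) ^ 10 = 1 ∧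
      (a * b2 * c2 * a * b3 * c3 * a * b1 * c1) ^ 10 = 1)
    (hconj : ∀ (x1 x2 x3 x4 x5 x6 x7 f : K16),
      x1 * x1 = 1 → x2 * x2 = 1 → x3 * x3 = 1 → x4 * x4 = 1 → x5 * x5 = 1 → x6 * x6 = 1 → x7 * x7 = 1 →
      x1 * x3 = x3 * x1 → x1 * x4 = x4 * x1 → x1 * x5 = x5 * x1 →
      x1 * x6 = x6 * x1 → x1 * x7 = x7 * x1 → x2 * x4 = x4 * x2 →
      x2 * x5 = x5 * x2 → x2 * x6 = x6 * x2 → x2 * x7 = x7 * x2 →
      x3 * x5 = x5 * x3 → x3 * x6 = x6 * x3 → x4 * x6 = x6 * x4 →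
      x4 * x7 = x7 * x4 → x5 * x7 = x7 * x5 → x6 * x7 = x7 * x6 →
      f * x1 = x1 * f → f * x3 = x3 * f → f * x4 = x4 * f → f * x5 = x5 * f →
      f * x6 = x6 * f → f * x7 = x7 * f →
      f = (x1 * x2 * x3 * x4 * x5 * x6 * x7) ^ 9 →
      f = (x3 * x4 * x2 * x7 * x5 * x1 * x6) ^ 9)
    (base : ∀ δ : ℕ → K16, (∀ s, δ s * δ s = 1) → (∀ w ∈ Y5.WY, (w.map δ).prod = 1) →
      δ 10 = (Y5.R2w.map δ).prod) :
    ∀ r ∈ Cfsg.Spor.Bimonster.extra,
      (PresentedGroup.mk (Cfsg.Spor.coxRelators Cfsg.Spor.Bimonster.edges ∪ {r' | r' ∈ [(Cfsg.Spor.Bimonster.a * Cfsg.Spor.Bimonster.b1 * Cfsg.Spor.Bimonster.c1 * Cfsg.Spor.Bimonster.a * Cfsg.Spor.Bimonster.b2 * Cfsg.Spor.Bimonster.c2 * Cfsg.Spor.Bimonster.a * Cfsg.Spor.Bimonster.b3 * Cfsg.Spor.Bimonster.c3) ^ 10]}) r) = 1 := by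
  have hsmem : (Cfsg.Spor.Bimonster.a * Cfsg.Spor.Bimonster.b1 * Cfsg.Spor.Bimonster.c1 *
      Cfsg.Spor.Bimonster.a * Cfsg.Spor.Bimonster.b2 * Cfsg.Spor.Bimonster.c2 *
      Cfsg.Spor.Bimonster.a * Cfsg.Spor.Bimonster.b3 * Cfsg.Spor.Bimonster.c3) ^ 10 ∈
      (Cfsg.Spor.coxRelators Cfsg.Spor.Bimonster.edges ∪
        {r' | r' ∈ [(Cfsg.Spor.Bimonster.a * Cfsg.Spor.Bimonster.b1 * Cfsg.Spor.Bimonster.c1 *
          Cfsg.Spor.Bimonster.a * Cfsg.Spor.Bimonster.b2 * Cfsg.Spor.Bimonster.c2 *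
          Cfsg.Spor.Bimonster.a * Cfsg.Spor.Bimonster.b3 * Cfsg.Spor.Bimonster.c3) ^ 10]}) :=
    Or.inr (List.mem_singleton.mpr rfl)
  have hs0 : (gg Bimonster.Gen.a * gg Bimonster.Gen.b1 * gg Bimonster.Gen.c1 *
      gg Bimonster.Gen.a * gg Bimonster.Gen.b2 * gg Bimonster.Gen.c2 *
      gg Bimonster.Gen.a * gg Bimonster.Gen.b3 * gg Bimonster.Gen.c3) ^ 10 = 1 := by
    have h := PresentedGroup.one_of_mem hsmem
    rw [map_pow] at h
    simp only [map_mul] at h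
    exact h
  obtain ⟨p1, p2, p3, p4, p5⟩ := hspider (gg Bimonster.Gen.a) (gg Bimonster.Gen.b1)
    (gg Bimonster.Gen.c1) (gg Bimonster.Gen.b2) (gg Bimonster.Gen.c2) (gg Bimonster.Gen.b3)
    (gg Bimonster.Gen.c3) (h4_inv _) (h4_inv _) (h4_inv _) (h4_inv _) (h4_inv _) (h4_inv _)
    (h4_inv _)
    (h4_comm _ _ (by decide)) (h4_comm _ _ (by decide)) (h4_comm _ _ (by decide))
    (h4_comm _ _ (by decide)) (h4_comm _ _ (by decide)) (h4_comm _ _ (by decide))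
    (h4_comm _ _ (by decide)) (h4_comm _ _ (by decide)) (h4_comm _ _ (by decide))
    (h4_comm _ _ (by decide)) (h4_comm _ _ (by decide)) (h4_comm _ _ (by decide)) hs0
  intro r hr
  simp only [Bimonster.extra, List.mem_cons, List.mem_nil_iff, or_false] at hr
  rcases hr with rfl | rfl | rfl | rfl | rfl | rfl | rfl
  · exact PresentedGroup.one_of_mem hsmem
  · rw [map_mul, map_inv, map_pow, mul_inv_eq_one]
    simp only [map_mul]
    exact h4_inst hconj base Bimonster.Gen.d2 Bimonster.Gen.c2 Bimonster.Gen.b2 Bimonster.Gen.b1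
      Bimonster.Gen.c1 Bimonster.Gen.d1 Bimonster.Gen.b3 Bimonster.Gen.c3 Bimonster.Gen.e1
      Bimonster.Gen.f1 (by decide) (by decide) p1
  · rw [map_mul, map_inv, map_pow, mul_inv_eq_one]
    simp only [map_mul]
    exact h4_inst hconj base Bimonster.Gen.d3 Bimonster.Gen.c3 Bimonster.Gen.b3 Bimonster.Gen.b1
      Bimonster.Gen.c1 Bimonster.Gen.d1 Bimonster.Gen.b2 Bimonster.Gen.c2 Bimonster.Gen.e1
      Bimonster.Gen.f1 (by decide) (by decide) p2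
  · rw [map_mul, map_inv, map_pow, mul_inv_eq_one]
    simp only [map_mul]
    exact h4_inst hconj base Bimonster.Gen.d1 Bimonster.Gen.c1 Bimonster.Gen.b1 Bimonster.Gen.b2
      Bimonster.Gen.c2 Bimonster.Gen.d2 Bimonster.Gen.b3 Bimonster.Gen.c3 Bimonster.Gen.e2
      Bimonster.Gen.f2 (by decide) (by decide) hs0
  · rw [map_mul, map_inv, map_pow, mul_inv_eq_one]
    simp only [map_mul]
    exact h4_inst hconj base Bimonster.Gen.d3 Bimonster.Gen.c3 Bimonster.Gen.b3 Bimonster.Gen.b2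
      Bimonster.Gen.c2 Bimonster.Gen.d2 Bimonster.Gen.b1 Bimonster.Gen.c1 Bimonster.Gen.e2
      Bimonster.Gen.f2 (by decide) (by decide) p3
  · rw [map_mul, map_inv, map_pow, mul_inv_eq_one]
    simp only [map_mul]
    exact h4_inst hconj base Bimonster.Gen.d1 Bimonster.Gen.c1 Bimonster.Gen.b1 Bimonster.Gen.b3
      Bimonster.Gen.c3 Bimonster.Gen.d3 Bimonster.Gen.b2 Bimonster.Gen.c2 Bimonster.Gen.e3
      Bimonster.Gen.f3 (by decide) (by decide) p4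
  · rw [map_mul, map_inv, map_pow, mul_inv_eq_one]
    simp only [map_mul]
    exact h4_inst hconj base Bimonster.Gen.d2 Bimonster.Gen.c2 Bimonster.Gen.b2 Bimonster.Gen.b3
      Bimonster.Gen.c3 Bimonster.Gen.d3 Bimonster.Gen.b1 Bimonster.Gen.c1 Bimonster.Gen.e3
      Bimonster.Gen.f3 (by decide) (by decide) p5

end Cfsg.Agent.Lib.Helper4.Y5Sym
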